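import Mathlib
import Cfsg.Agent.Helper6.DetTrace

/-!
# Characters on a cyclic subgroup: discrete Fourier transform
-/

set_option autoImplicit false

namespace Cfsg.Agent.Helper13

open Cfsg
open scoped ComplexConjugate

section CycDFT

/-- Orthogonality of the powers of a primitive root of unity. -/
theorem geom_sum_root (N : ℕ) (hN : 0 < N) (ζ : ℂ) (hζ : IsPrimitiveRoot ζ N) (a b : ℕ)
    (ha : a < N) (hb : b < N) :
    ∑ k ∈ Finset.range N, ((ζ ^ b)⁻¹) ^ k * ζ ^ (a * k) = if a = b then (N : ℂ) else 0 := by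
  have hζ0 : ζ ≠ 0 := hζ.ne_zero hN.ne'
  have hζN : ζ ^ N = 1 := hζ.pow_eq_one
  have h1 : ∀ k ∈ Finset.range N, (ζ ^ a / ζ ^ b) ^ k = ((ζ ^ b)⁻¹) ^ k * ζ ^ (a * k) := by
    intro k _
    rw [div_pow, div_eq_mul_inv, ← inv_pow (ζ ^ b) k, ← pow_mul ζ a k, mul_comm]
  rw [← Finset.sum_congr rfl h1]
  by_cases hab : a = b
  · rw [if_pos hab, hab, div_self (pow_ne_zero b hζ0)]
    simp
  · rw [if_neg hab]
    have hne : ζ ^ a / ζ ^ b ≠ 1 := by
      intro h
      apply hab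
      have h2 : ζ ^ a = ζ ^ b := by
        rw [div_eq_one_iff_eq (pow_ne_zero b hζ0)] at h
        exact h
      exact hζ.pow_inj ha hb h2
    have hpow : (ζ ^ a / ζ ^ b) ^ N = 1 := by
      rw [div_pow, ← pow_mul, ← pow_mul, mul_comm a N, mul_comm b N, pow_mul, pow_mul, hζN,
        one_pow, one_pow, div_one]
    rw [geom_sum_eq hne, hpow, sub_self, zero_div]

/-- Fourier inversion. -/
theorem dft_inv (N : ℕ) (hN : 0 < N) (ζ : ℂ) (hζ : IsPrimitiveRoot ζ N) (v : ℕ → ℂ) (b : ℕ)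
    (hb : b < N) :
    ∑ k ∈ Finset.range N, ((ζ ^ b)⁻¹) ^ k * ∑ a ∈ Finset.range N, v a * ζ ^ (a * k) =
      (N : ℂ) * v b := by
  simp only [Finset.mul_sum]
  rw [Finset.sum_comm]
  have h1 : ∀ a ∈ Finset.range N,
      ∑ k ∈ Finset.range N, ((ζ ^ b)⁻¹) ^ k * (v a * ζ ^ (a * k)) =
        v a * (if a = b then (N : ℂ) else 0) := by
    intro a ha
    rw [← geom_sum_root N hN ζ hζ a b (Finset.mem_range.mp ha) hb, Finset.mul_sum]
    refine Finset.sum_congr rfl (fun k _ => ?_)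
    ring
  rw [Finset.sum_congr rfl h1, Finset.sum_eq_single b]
  · rw [if_pos rfl]
    ring
  · intro a _ hab
    rw [if_neg hab, mul_zero]
  · intro h
    exact absurd (Finset.mem_range.mpr hb) h

/-- The values of a character on the powers of an element of finite order. -/
theorem char_cyclic_dft {G : Type*} [Group G] {χ : G → ℂ} (hχ : IsCharacter G χ) (c : G)
    (N : ℕ) (hN : 0 < N) (hc : c ^ N = 1) (ζ : ℂ) (hζ : IsPrimitiveRoot ζ N) :
    ∃ m : ℕ → ℕ, ∀ k : ℕ, χ (c ^ k) = ∑ a ∈ Finset.range N, (m a : ℂ) * ζ ^ (a * k) := by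
  obtain ⟨n, ρ, rfl⟩ := hχ
  have hζ0 := hζ.ne_zero hN.ne'
  have hζN := hζ.pow_eq_one
  have hA : (ρ c) ^ N = 1 := by rw [← map_pow, hc, map_one]
  refine ⟨fun a => Module.finrank ℂ (LinearMap.range (Helper6.dftIdem (ρ c) N ζ a)),
    fun k => ?_⟩
  show LinearMap.trace ℂ _ (ρ (c ^ k)) = _
  rw [map_pow]
  have h1 : (ρ c) ^ k = ∑ a ∈ Finset.range N, (ζ ^ a) ^ k • Helper6.dftIdem (ρ c) N ζ a := by
    calc (ρ c) ^ k = (ρ c) ^ k * 1 := (mul_one _).symm
      _ = (ρ c) ^ k * ∑ a ∈ Finset.range N, Helper6.dftIdem (ρ c) N ζ a := by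
          rw [Helper6.sum_dftIdem _ N hN ζ hζ]
      _ = ∑ a ∈ Finset.range N, (ρ c) ^ k * Helper6.dftIdem (ρ c) N ζ a := Finset.mul_sum _ _ _
      _ = _ := Finset.sum_congr rfl
          (fun a _ => Helper6.pow_mul_dftIdem _ N hA ζ hζ0 hζN a k)
  rw [h1, map_sum]
  refine Finset.sum_congr rfl (fun a _ => ?_)
  rw [map_smul, smul_eq_mul, (LinearMap.IsIdempotentElem.isProj_range _
    (Helper6.dftIdem_isIdempotent _ N hN hA ζ hζ0 hζN a)).trace, ← pow_mul, mul_comm]

theorem conj_root (N : ℕ) (hN : 0 < N) (ζ : ℂ) (hζ : IsPrimitiveRoot ζ N) : conj ζ = ζ⁻¹ := by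
  have hζN : ζ ^ N = 1 := hζ.pow_eq_one
  have h1 : Complex.normSq ζ ^ N = 1 := by
    rw [← map_pow, hζN, map_one]
  have h2 : Complex.normSq ζ = 1 :=
    (pow_eq_one_iff_of_nonneg (Complex.normSq_nonneg ζ) hN.ne').mp h1
  have h3 : ζ * conj ζ = 1 := by
    rw [Complex.mul_conj, h2, Complex.ofReal_one]
  exact eq_inv_of_mul_eq_one_right h3

/-- Parseval's identity. -/
theorem dft_parseval (N : ℕ) (hN : 0 < N) (ζ : ℂ) (hζ : IsPrimitiveRoot ζ N) (m : ℕ → ℕ)
    (X : ℕ → ℂ) (hX : ∀ k, X k = ∑ a ∈ Finset.range N, (m a : ℂ) * ζ ^ (a * k)) :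
    ∑ k ∈ Finset.range N, X k * conj (X k) =
      (N : ℂ) * ∑ a ∈ Finset.range N, (m a : ℂ) ^ 2 := by
  have hcz := conj_root N hN ζ hζ
  have h1 : ∀ k ∈ Finset.range N, X k * conj (X k) =
      ∑ b ∈ Finset.range N, (m b : ℂ) * (((ζ ^ b)⁻¹) ^ k * X k) := by
    intro k _
    have h2 : conj (X k) = ∑ b ∈ Finset.range N, (m b : ℂ) * ((ζ ^ b)⁻¹) ^ k := by
      rw [hX k, map_sum]
      refine Finset.sum_congr rfl (fun b _ => ?_)
      rw [map_mul, Complex.conj_natCast, map_pow, hcz, inv_pow, inv_pow, ← pow_mul]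
    rw [h2, Finset.mul_sum]
    refine Finset.sum_congr rfl (fun b _ => ?_)
    ring
  rw [Finset.sum_congr rfl h1, Finset.sum_comm, Finset.mul_sum]
  refine Finset.sum_congr rfl (fun b hb => ?_)
  rw [← Finset.mul_sum]
  have h3 := dft_inv N hN ζ hζ (fun a => (m a : ℂ)) b (Finset.mem_range.mp hb)
  have h4 : ∑ k ∈ Finset.range N, ((ζ ^ b)⁻¹) ^ k * X k = (N : ℂ) * (m b : ℂ) := by
    rw [← h3]
    refine Finset.sum_congr rfl (fun k _ => ?_)
    rw [hX k]
  rw [h4]
  ring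

theorem nat_sq_le (s : Finset ℕ) (m : ℕ → ℕ) (h : ∑ a ∈ s, m a ^ 2 ≤ ∑ a ∈ s, m a) :
    (∀ a ∈ s, m a ≤ 1) ∧ ∑ a ∈ s, m a ^ 2 = ∑ a ∈ s, m a := by
  have hge : ∀ a ∈ s, m a ≤ m a ^ 2 := fun a _ => Nat.le_self_pow two_ne_zero (m a)
  have heq : ∑ a ∈ s, m a ^ 2 = ∑ a ∈ s, m a := le_antisymm h (Finset.sum_le_sum hge)
  refine ⟨?_, heq⟩
  intro a ha
  by_contra hgt
  have hlt : m a < m a ^ 2 := by
    have : 2 ≤ m a := by omega
    nlinarith
  have := Finset.sum_lt_sum hge ⟨a, ha, hlt⟩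
  omega

/-- Sums over a cyclic subgroup. -/
theorem sum_zpowers {G : Type*} [Group G] [Fintype G] {R : Type*} [AddCommMonoid R] (c : G)
    (f : G → R) [DecidablePred (fun x => x ∈ Subgroup.zpowers c)] :
    ∑ x : G, (if x ∈ Subgroup.zpowers c then f x else 0) =
      ∑ k ∈ Finset.range (orderOf c), f (c ^ k) := by
  classical
  rw [← Finset.sum_filter]
  symm
  refine Finset.sum_bij (fun k _ => c ^ k) ?_ ?_ ?_ ?_
  · intro k _
    rw [Finset.mem_filter]
    exact ⟨Finset.mem_univ _, Subgroup.npow_mem_zpowers c k⟩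
  · intro k hk k' hk' h
    exact pow_injOn_Iio_orderOf (Finset.mem_range.mp hk) (Finset.mem_range.mp hk') h
  · intro x hx
    rw [Finset.mem_filter] at hx
    have h1 : x ∈ Submonoid.powers c := mem_powers_iff_mem_zpowers.mpr hx.2
    rw [mem_powers_iff_mem_range_orderOf] at h1
    obtain ⟨k, hk, rfl⟩ := Finset.mem_image.mp h1
    exact ⟨k, hk, rfl⟩
  · intro k _
    rfl

/-- The values on a cyclic group of order `2h` of a multiplicity-free character of degree
`h - 1` with a central sign, which is real at the generator. -/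
theorem dft_half (h : ℕ) (hh : 2 ≤ h) (ζ : ℂ) (hζ : IsPrimitiveRoot ζ (2 * h)) (m : ℕ → ℕ)
    (X : ℕ → ℂ) (hX : ∀ k, X k = ∑ a ∈ Finset.range (2 * h), (m a : ℂ) * ζ ^ (a * k))
    (ω : ℂ) (hω : ω = 1 ∨ ω = -1)
    (hsum : ∑ a ∈ Finset.range (2 * h), m a = h - 1)
    (hle : ∀ a, a < 2 * h → m a ≤ 1)
    (hshift : ∀ k, X (k + h) = ω * X k)
    (hreal : conj (X 1) = X 1)
    (hT : ∑ k ∈ Finset.range (2 * h), (if h ∣ k then 0 else X k) = 1 + ω) :
    ∀ k, ¬ h ∣ k → X k = -(-1) ^ k := by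
  classical
  have hN : 0 < 2 * h := by omega
  have hζ0 : ζ ≠ 0 := hζ.ne_zero hN.ne'
  have hζN : ζ ^ (2 * h) = 1 := hζ.pow_eq_one
  have hcz := conj_root (2 * h) hN ζ hζ
  have hω2 : ω * ω = 1 := by
    rcases hω with h1 | h1 <;> rw [h1] <;> norm_num
  have hζh : ζ ^ h = -1 := by
    have h1 : (ζ ^ h - 1) * (ζ ^ h + 1) = 0 := by
      have : ζ ^ h * ζ ^ h = 1 := by rw [← pow_add, ← two_mul, hζN]
      linear_combination this
    rcases mul_eq_zero.mp h1 with h2 | h2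
    · exact absurd (sub_eq_zero.mp h2) (hζ.pow_ne_one_of_pos_of_lt (by omega) (by omega))
    · exact eq_neg_of_add_eq_zero_left h2
  have hpar : ∀ b, b < 2 * h → (m b : ℂ) * ((-1) ^ b - ω) = 0 := by
    intro b hb
    have h1 := dft_inv (2 * h) hN ζ hζ (fun a => (m a : ℂ) * ((-1) ^ a - ω)) b hb
    have h2 : ∀ k, ∑ a ∈ Finset.range (2 * h), (m a : ℂ) * ((-1) ^ a - ω) * ζ ^ (a * k) = 0 := by
      intro k
      have h3 := hshift k
      rw [hX (k + h), hX k, Finset.mul_sum] at h3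
      rw [← sub_eq_zero, ← Finset.sum_sub_distrib] at h3
      rw [← h3]
      refine Finset.sum_congr rfl (fun a _ => ?_)
      have h4 : ζ ^ (a * (k + h)) = ζ ^ (a * k) * (-1) ^ a := by
        rw [mul_add, pow_add, mul_comm a h, pow_mul ζ h a, hζh]
      rw [h4]
      ring
    beta_reduce at h1
    simp only [h2, mul_zero, Finset.sum_const_zero] at h1
    have hN0 : ((2 * h : ℕ) : ℂ) ≠ 0 := Nat.cast_ne_zero.mpr hN.ne'
    exact (mul_eq_zero.mp h1.symm).resolve_left hN0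
  obtain ⟨e, he⟩ : ∃ e : ℕ → ℕ, e = fun a => if (-1 : ℂ) ^ a = ω then 1 else 0 := ⟨_, rfl⟩
  have he' : ∀ a, e a = if (-1 : ℂ) ^ a = ω then 1 else 0 := by
    intro a
    rw [he]
  have hme : ∀ a, a < 2 * h → m a ≤ e a := by
    intro a ha
    by_cases h0 : m a = 0
    · rw [h0]
      exact Nat.zero_le _
    · have h1 := hpar a ha
      have h2 : ((-1 : ℂ)) ^ a = ω := by
        rcases mul_eq_zero.mp h1 with h3 | h3
        · exact absurd (Nat.cast_eq_zero.mp h3) h0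
        · exact sub_eq_zero.mp h3
      rw [he' a, if_pos h2]
      exact hle a ha
  have hesum : ∀ n : ℕ, ∑ a ∈ Finset.range (2 * n), e a = n := by
    intro n
    induction n with
    | zero => simp
    | succ n ih =>
      have h1 : 2 * (n + 1) = 2 * n + 1 + 1 := by ring
      have e1 : ((-1 : ℂ)) ^ (2 * n) = 1 := by
        rw [pow_mul]
        norm_num
      have e2 : ((-1 : ℂ)) ^ (2 * n + 1) = -1 := by
        rw [pow_succ, e1]
        norm_num
      rw [h1, Finset.sum_range_succ, Finset.sum_range_succ, ih, he' (2 * n), he' (2 * n + 1),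
        e1, e2]
      rcases hω with h2 | h2
      · rw [h2, if_pos rfl, if_neg (by norm_num)]
      · rw [h2, if_neg (by norm_num), if_pos rfl]
  have hfsum : ∑ a ∈ Finset.range (2 * h), (e a - m a) = 1 := by
    have h1 : ∑ a ∈ Finset.range (2 * h), (e a - m a) + ∑ a ∈ Finset.range (2 * h), m a =
        ∑ a ∈ Finset.range (2 * h), e a := by
      rw [← Finset.sum_add_distrib]
      refine Finset.sum_congr rfl (fun a ha => ?_)
      exact Nat.sub_add_cancel (hme a (Finset.mem_range.mp ha))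
    rw [hsum, hesum h] at h1
    omega
  obtain ⟨a₀, ha₀, hf₀⟩ : ∃ a₀ ∈ Finset.range (2 * h), e a₀ - m a₀ ≠ 0 := by
    by_contra hcon
    have : ∑ a ∈ Finset.range (2 * h), (e a - m a) = 0 := by
      apply Finset.sum_eq_zero
      intro a ha
      by_contra h0
      exact hcon ⟨a, ha, h0⟩
    omega
  have hsplit : (e a₀ - m a₀) + ∑ a ∈ (Finset.range (2 * h)).erase a₀, (e a - m a) =
      ∑ a ∈ Finset.range (2 * h), (e a - m a) :=
    Finset.add_sum_erase (Finset.range (2 * h)) (fun a => e a - m a) ha₀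
  rw [hfsum] at hsplit
  have hrest : ∑ a ∈ (Finset.range (2 * h)).erase a₀, (e a - m a) = 0 := by omega
  have hothers : ∀ a, a < 2 * h → a ≠ a₀ → e a = m a := by
    intro a ha hne
    have h0 := (Finset.sum_eq_zero_iff.mp hrest) a
      (Finset.mem_erase.mpr ⟨hne, Finset.mem_range.mpr ha⟩)
    have := hme a ha
    omega
  have hmC : ∀ a, a < 2 * h → (m a : ℂ) = (e a : ℂ) - (if a = a₀ then 1 else 0) := by
    intro a ha
    by_cases hne : a = a₀
    · rw [if_pos hne, hne]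
      have h1 := hme a₀ (Finset.mem_range.mp ha₀)
      have h2 : e a₀ = m a₀ + 1 := by omega
      rw [h2]
      push_cast
      ring
    · rw [if_neg hne, sub_zero, hothers a ha hne]
  have heC : ∀ a, (e a : ℂ) = (1 + ω * (-1) ^ a) / 2 := by
    intro a
    rw [he' a]
    have hpm : (-1 : ℂ) ^ a = 1 ∨ (-1 : ℂ) ^ a = -1 := neg_one_pow_eq_or ℂ a
    by_cases h1 : (-1 : ℂ) ^ a = ω
    · rw [if_pos h1, h1, hω2]
      norm_num
    · rw [if_neg h1]
      have h2 : (-1 : ℂ) ^ a = -ω := by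
        rcases hpm with h3 | h3 <;> rcases hω with h4 | h4
        · exact absurd (h3.trans h4.symm) h1
        · rw [h3, h4]
          norm_num
        · rw [h3, h4]
        · exact absurd (h3.trans h4.symm) h1
      rw [h2]
      have : ω * -ω = -1 := by linear_combination -hω2
      rw [this]
      norm_num
  have hgeom : ∀ x : ℂ, x ^ (2 * h) = 1 → x ≠ 1 → ∑ a ∈ Finset.range (2 * h), x ^ a = 0 := by
    intro x hx hx1
    rw [geom_sum_eq hx1, hx, sub_self, zero_div]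
  have hE : ∀ k, ¬ h ∣ k → ∑ a ∈ Finset.range (2 * h), (e a : ℂ) * ζ ^ (a * k) = 0 := by
    intro k hk
    have h1 : ζ ^ k ≠ 1 := by
      intro h2
      have := (hζ.pow_eq_one_iff_dvd k).mp h2
      exact hk (dvd_trans (dvd_mul_left h 2) this)
    have h2 : -(ζ ^ k) ≠ 1 := by
      intro h3
      have h4 : ζ ^ (k + h) = 1 := by
        rw [pow_add, hζh]
        linear_combination h3
      have h5 := (hζ.pow_eq_one_iff_dvd (k + h)).mp h4
      have h6 : h ∣ k + h := dvd_trans (dvd_mul_left h 2) h5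
      exact hk ((Nat.dvd_add_left (dvd_refl h)).mp h6)
    have hp1 : (ζ ^ k) ^ (2 * h) = 1 := by rw [← pow_mul, mul_comm, pow_mul, hζN, one_pow]
    have hp2 : (-(ζ ^ k)) ^ (2 * h) = 1 := by
      rw [neg_pow, hp1, mul_one, pow_mul]
      norm_num
    have h3 : ∀ a ∈ Finset.range (2 * h), (e a : ℂ) * ζ ^ (a * k) =
        (1 / 2) * (ζ ^ k) ^ a + (ω / 2) * (-(ζ ^ k)) ^ a := by
      intro a _
      rw [heC a, mul_comm a k, pow_mul, neg_pow (ζ ^ k) a]
      ring
    rw [Finset.sum_congr rfl h3, Finset.sum_add_distrib, ← Finset.mul_sum, ← Finset.mul_sum,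
      hgeom _ hp1 h1, hgeom _ hp2 h2]
    ring
  have hXk : ∀ k, ¬ h ∣ k → X k = -(ζ ^ a₀) ^ k := by
    intro k hk
    rw [hX k]
    have h1 : ∀ a ∈ Finset.range (2 * h), (m a : ℂ) * ζ ^ (a * k) =
        (e a : ℂ) * ζ ^ (a * k) - (if a = a₀ then ζ ^ (a * k) else 0) := by
      intro a ha
      rw [hmC a (Finset.mem_range.mp ha), sub_mul]
      congr 1
      by_cases hne : a = a₀
      · rw [if_pos hne, if_pos hne, one_mul]
      · rw [if_neg hne, if_neg hne, zero_mul]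
    rw [Finset.sum_congr rfl h1, Finset.sum_sub_distrib, hE k hk,
      Finset.sum_ite_eq' (Finset.range (2 * h)) a₀, if_pos ha₀, zero_sub, pow_mul]
  have h1nd : ¬ h ∣ 1 := by
    intro hd
    have := Nat.le_of_dvd one_pos hd
    omega
  obtain ⟨ξ, hξ⟩ : ∃ ξ : ℂ, ξ = ζ ^ a₀ := ⟨_, rfl⟩
  rw [← hξ] at hXk
  have hξ2 : ξ = 1 ∨ ξ = -1 := by
    have hconjξ : conj ξ = ξ⁻¹ := by
      rw [hξ, map_pow, hcz, inv_pow]
    have h1 := hreal
    rw [hXk 1 h1nd, pow_one, map_neg, hconjξ] at h1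
    have hξ0 : ξ ≠ 0 := by
      rw [hξ]
      exact pow_ne_zero _ hζ0
    have h2 : ξ * ξ = 1 := by
      have h3 : ξ⁻¹ = ξ := neg_injective h1
      calc ξ * ξ = ξ * ξ⁻¹ := by rw [h3]
        _ = 1 := mul_inv_cancel₀ hξ0
    have h4 : (ξ - 1) * (ξ + 1) = 0 := by linear_combination h2
    rcases mul_eq_zero.mp h4 with h5 | h5
    · exact Or.inl (sub_eq_zero.mp h5)
    · exact Or.inr (eq_neg_of_add_eq_zero_left h5)
  rcases hξ2 with h1 | h1
  · exfalso
    have h2 : ∑ k ∈ Finset.range (2 * h), (if h ∣ k then (0 : ℂ) else X k) =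
        -(((Finset.range (2 * h)).filter (fun k => ¬ h ∣ k)).card : ℂ) := by
      rw [Finset.sum_ite, Finset.sum_const_zero, zero_add]
      have h3 : ∀ k ∈ (Finset.range (2 * h)).filter (fun k => ¬ h ∣ k), X k = -1 := by
        intro k hk
        rw [hXk k (Finset.mem_filter.mp hk).2, h1, one_pow]
      rw [Finset.sum_congr rfl h3, Finset.sum_const, nsmul_eq_mul, mul_neg, mul_one]
    have h3 : 1 ≤ ((Finset.range (2 * h)).filter (fun k => ¬ h ∣ k)).card := by
      apply Finset.card_pos.mpr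
      exact ⟨1, Finset.mem_filter.mpr ⟨Finset.mem_range.mpr (by omega), h1nd⟩⟩
    rw [hT] at h2
    rcases hω with h5 | h5
    · rw [h5] at h2
      have h4 : ((((Finset.range (2 * h)).filter (fun k => ¬ h ∣ k)).card + 2 : ℕ) : ℂ) = 0 := by
        push_cast
        linear_combination h2
      have := Nat.cast_eq_zero.mp h4
      omega
    · rw [h5] at h2
      have h4 : ((((Finset.range (2 * h)).filter (fun k => ¬ h ∣ k)).card : ℕ) : ℂ) = 0 := by
        linear_combination h2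
      have := Nat.cast_eq_zero.mp h4
      omega
  · intro k hk
    rw [hXk k hk, h1]

end CycDFT

end Cfsg.Agent.Helper13
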