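import Mathlib
import Cfsg.Agent.Helper13.CycDFT

/-!
# Characters on a cyclic subgroup of even order with a central sign
-/

set_option autoImplicit false

namespace Cfsg.Agent.Helper13

open Cfsg
open scoped ComplexConjugate

section CycDFT2

theorem root_half (h : ℕ) (hh : 1 ≤ h) (ζ : ℂ) (hζ : IsPrimitiveRoot ζ (2 * h)) :
    ζ ^ h = -1 := by
  have hζN : ζ ^ (2 * h) = 1 := hζ.pow_eq_one
  have h1 : (ζ ^ h - 1) * (ζ ^ h + 1) = 0 := by
    have : ζ ^ h * ζ ^ h = 1 := by rw [← pow_add, ← two_mul, hζN]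
    linear_combination this
  rcases mul_eq_zero.mp h1 with h2 | h2
  · exact absurd (sub_eq_zero.mp h2) (hζ.pow_ne_one_of_pos_of_lt (by omega) (by omega))
  · exact eq_neg_of_add_eq_zero_left h2

/-- A central sign forces the parity of the frequencies. -/
theorem dft_parity (h : ℕ) (hh : 1 ≤ h) (ζ : ℂ) (hζ : IsPrimitiveRoot ζ (2 * h)) (m : ℕ → ℕ)
    (X : ℕ → ℂ) (hX : ∀ k, X k = ∑ a ∈ Finset.range (2 * h), (m a : ℂ) * ζ ^ (a * k))
    (ω : ℂ) (hshift : ∀ k, X (k + h) = ω * X k) (b : ℕ) (hb : b < 2 * h) :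
    (m b : ℂ) * ((-1) ^ b - ω) = 0 := by
  have hN : 0 < 2 * h := by omega
  have hζh := root_half h hh ζ hζ
  have h1 := dft_inv (2 * h) hN ζ hζ (fun a => (m a : ℂ) * ((-1) ^ a - ω)) b hb
  have h2 : ∀ k, ∑ a ∈ Finset.range (2 * h), (m a : ℂ) * ((-1) ^ a - ω) * ζ ^ (a * k) = 0 := by
    intro k
    have h3 := hshift k
    rw [hX (k + h), hX k, Finset.mul_sum] at h3
    rw [← sub_eq_zero, ← Finset.sum_sub_distrib] at h3
    rw [← h3]
    refine Finset.sum_congr rfl (fun a _ => ?_)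
    have h4 : ζ ^ (a * (k + h)) = ζ ^ (a * k) * (-1) ^ a := by
      rw [mul_add, pow_add, mul_comm a h, pow_mul ζ h a, hζh]
    rw [h4]
    ring
  beta_reduce at h1
  simp only [h2, mul_zero, Finset.sum_const_zero] at h1
  have hN0 : ((2 * h : ℕ) : ℂ) ≠ 0 := Nat.cast_ne_zero.mpr hN.ne'
  exact (mul_eq_zero.mp h1.symm).resolve_left hN0

theorem parity_count (ω : ℂ) (hω : ω = 1 ∨ ω = -1) (n : ℕ) :
    ∑ a ∈ Finset.range (2 * n), (if (-1 : ℂ) ^ a = ω then 1 else 0 : ℕ) = n := by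
  induction n with
  | zero => simp
  | succ n ih =>
    have h1 : 2 * (n + 1) = 2 * n + 1 + 1 := by ring
    have e1 : ((-1 : ℂ)) ^ (2 * n) = 1 := by
      rw [pow_mul]
      norm_num
    have e2 : ((-1 : ℂ)) ^ (2 * n + 1) = -1 := by
      rw [pow_succ, e1]
      norm_num
    rw [h1, Finset.sum_range_succ, Finset.sum_range_succ, ih, e1, e2]
    rcases hω with h2 | h2
    · rw [h2, if_pos rfl, if_neg (by norm_num)]
    · rw [h2, if_neg (by norm_num), if_pos rfl]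

theorem parity_cast (ω : ℂ) (hω : ω = 1 ∨ ω = -1) (a : ℕ) :
    (((if (-1 : ℂ) ^ a = ω then 1 else 0 : ℕ)) : ℂ) = (1 + ω * (-1) ^ a) / 2 := by
  have hω2 : ω * ω = 1 := by
    rcases hω with h1 | h1 <;> rw [h1] <;> norm_num
  have hpm : (-1 : ℂ) ^ a = 1 ∨ (-1 : ℂ) ^ a = -1 := neg_one_pow_eq_or ℂ a
  by_cases h1 : (-1 : ℂ) ^ a = ω
  · rw [if_pos h1, h1, hω2]
    norm_num
  · rw [if_neg h1]
    have h2 : (-1 : ℂ) ^ a = -ω := by
      rcases hpm with h3 | h3 <;> rcases hω with h4 | h4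
      · exact absurd (h3.trans h4.symm) h1
      · rw [h3, h4]
        norm_num
      · rw [h3, h4]
      · exact absurd (h3.trans h4.symm) h1
    rw [h2]
    have : ω * -ω = -1 := by linear_combination -hω2
    rw [this]
    norm_num

theorem parity_sum_root (h : ℕ) (hh : 1 ≤ h) (ζ : ℂ) (hζ : IsPrimitiveRoot ζ (2 * h)) (ω : ℂ)
    (hω : ω = 1 ∨ ω = -1) (k : ℕ) (hk : ¬ h ∣ k) :
    ∑ a ∈ Finset.range (2 * h),
      (((if (-1 : ℂ) ^ a = ω then 1 else 0 : ℕ)) : ℂ) * ζ ^ (a * k) = 0 := by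
  have hζN : ζ ^ (2 * h) = 1 := hζ.pow_eq_one
  have hζh := root_half h hh ζ hζ
  have hgeom : ∀ x : ℂ, x ^ (2 * h) = 1 → x ≠ 1 → ∑ a ∈ Finset.range (2 * h), x ^ a = 0 := by
    intro x hx hx1
    rw [geom_sum_eq hx1, hx, sub_self, zero_div]
  have h1 : ζ ^ k ≠ 1 := by
    intro h2
    have := (hζ.pow_eq_one_iff_dvd k).mp h2
    exact hk (dvd_trans (dvd_mul_left h 2) this)
  have h2 : -(ζ ^ k) ≠ 1 := by
    intro h3
    have h4 : ζ ^ (k + h) = 1 := by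
      rw [pow_add, hζh]
      linear_combination h3
    have h5 := (hζ.pow_eq_one_iff_dvd (k + h)).mp h4
    have h6 : h ∣ k + h := dvd_trans (dvd_mul_left h 2) h5
    exact hk ((Nat.dvd_add_left (dvd_refl h)).mp h6)
  have hp1 : (ζ ^ k) ^ (2 * h) = 1 := by rw [← pow_mul, mul_comm, pow_mul, hζN, one_pow]
  have hp2 : (-(ζ ^ k)) ^ (2 * h) = 1 := by
    rw [neg_pow, hp1, mul_one, pow_mul]
    norm_num
  have h3 : ∀ a ∈ Finset.range (2 * h),
      (((if (-1 : ℂ) ^ a = ω then 1 else 0 : ℕ)) : ℂ) * ζ ^ (a * k) =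
      (1 / 2) * (ζ ^ k) ^ a + (ω / 2) * (-(ζ ^ k)) ^ a := by
    intro a _
    rw [parity_cast ω hω a, mul_comm a k, pow_mul, neg_pow (ζ ^ k) a]
    ring
  rw [Finset.sum_congr rfl h3, Finset.sum_add_distrib, ← Finset.mul_sum, ← Finset.mul_sum,
    hgeom _ hp1 h1, hgeom _ hp2 h2]
  ring

/-- The sum of the powers of a root of unity off the multiples of `h`. -/
theorem sum_off_root (h : ℕ) (hh : 1 ≤ h) (ζ : ℂ) (hζ : IsPrimitiveRoot ζ (2 * h)) (a : ℕ)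
    (ha : a < 2 * h) :
    ∑ k ∈ Finset.range (2 * h), (if h ∣ k then 0 else ζ ^ (a * k)) =
      (if a = 0 then ((2 * h : ℕ) : ℂ) else 0) - 1 - (-1) ^ a := by
  have hN : 0 < 2 * h := by omega
  have hζh := root_half h hh ζ hζ
  have h1 : ∑ k ∈ Finset.range (2 * h), ζ ^ (a * k) =
      if a = 0 then ((2 * h : ℕ) : ℂ) else 0 := by
    have h0 := geom_sum_root (2 * h) hN ζ hζ a 0 ha hN
    rw [← h0]
    refine Finset.sum_congr rfl (fun k _ => ?_)
    rw [pow_zero, inv_one, one_pow, one_mul]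
  have h2 : ∑ k ∈ Finset.range (2 * h), (if h ∣ k then ζ ^ (a * k) else 0) = 1 + (-1) ^ a := by
    have h4 : 2 * h = h + h := by ring
    rw [h4, Finset.sum_range_add, Finset.sum_eq_single 0, Finset.sum_eq_single 0]
    · rw [if_pos (dvd_zero _), if_pos (by simp), mul_zero, pow_zero, add_zero, mul_comm,
        pow_mul, hζh]
    · intro b hb hb0
      rw [if_neg]
      intro hdvd
      have h5 : h ∣ b := (Nat.dvd_add_right (dvd_refl h)).mp hdvd
      have := Nat.le_of_dvd (Nat.pos_of_ne_zero hb0) h5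
      have := Finset.mem_range.mp hb
      omega
    · intro hcon
      exact absurd (Finset.mem_range.mpr (by omega)) hcon
    · intro b hb hb0
      rw [if_neg]
      intro hdvd
      have := Nat.le_of_dvd (Nat.pos_of_ne_zero hb0) hdvd
      have := Finset.mem_range.mp hb
      omega
    · intro hcon
      exact absurd (Finset.mem_range.mpr (by omega)) hcon
  have h3 : ∀ k ∈ Finset.range (2 * h), (if h ∣ k then (0 : ℂ) else ζ ^ (a * k)) =
      ζ ^ (a * k) - (if h ∣ k then ζ ^ (a * k) else 0) := by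
    intro k _
    by_cases hd : h ∣ k
    · rw [if_pos hd, if_pos hd, sub_self]
    · rw [if_neg hd, if_neg hd, sub_zero]
  rw [Finset.sum_congr rfl h3, Finset.sum_sub_distrib, h1, h2]
  ring

/-- A character of degree `2h - 2` on a cyclic group of order `2h` with a central sign and small
norm: all admissible frequencies occur twice, except two which occur once. -/
theorem dft_cusp_mult (h : ℕ) (hh : 2 ≤ h) (ζ : ℂ) (hζ : IsPrimitiveRoot ζ (2 * h)) (m : ℕ → ℕ)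
    (X : ℕ → ℂ) (hX : ∀ k, X k = ∑ a ∈ Finset.range (2 * h), (m a : ℂ) * ζ ^ (a * k))
    (ω : ℂ) (hω : ω = 1 ∨ ω = -1)
    (hsum : ∑ a ∈ Finset.range (2 * h), m a = 2 * h - 2)
    (hsq : ∑ a ∈ Finset.range (2 * h), m a ^ 2 ≤ 4 * h - 6)
    (hshift : ∀ k, X (k + h) = ω * X k) :
    ∑ a ∈ Finset.range (2 * h), m a ^ 2 = 4 * h - 6 ∧
    ∃ a₁ a₂ : ℕ, a₁ < 2 * h ∧ a₂ < 2 * h ∧ a₁ ≠ a₂ ∧ (-1 : ℂ) ^ a₁ = ω ∧ (-1 : ℂ) ^ a₂ = ω ∧
      ∀ k, ¬ h ∣ k → X k = -(ζ ^ (a₁ * k) + ζ ^ (a₂ * k)) := by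
  classical
  obtain ⟨e, he⟩ : ∃ e : ℕ → ℕ, e = fun a => if (-1 : ℂ) ^ a = ω then 1 else 0 := ⟨_, rfl⟩
  have he' : ∀ a, e a = if (-1 : ℂ) ^ a = ω then 1 else 0 := by
    intro a
    rw [he]
  have he01 : ∀ a, e a = 0 ∨ e a = 1 := by
    intro a
    rw [he' a]
    by_cases h1 : (-1 : ℂ) ^ a = ω
    · right
      rw [if_pos h1]
    · left
      rw [if_neg h1]
  have hme : ∀ a, a < 2 * h → m a ≠ 0 → e a = 1 := by
    intro a ha h0
    have h1 := dft_parity h (by omega) ζ hζ m X hX ω hshift a ha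
    have h2 : ((-1 : ℂ)) ^ a = ω := by
      rcases mul_eq_zero.mp h1 with h3 | h3
      · exact absurd (Nat.cast_eq_zero.mp h3) h0
      · exact sub_eq_zero.mp h3
    rw [he' a, if_pos h2]
  have hesum : ∑ a ∈ Finset.range (2 * h), e a = h := by
    rw [he]
    exact parity_count ω hω h
  obtain ⟨f, hf⟩ : ∃ f : ℕ → ℤ, f = fun a => 2 * (e a : ℤ) - (m a : ℤ) := ⟨_, rfl⟩
  have hf' : ∀ a, f a = 2 * (e a : ℤ) - (m a : ℤ) := by
    intro a
    rw [hf]
  have hcast2 : ((2 * h - 2 : ℕ) : ℤ) = 2 * (h : ℤ) - 2 := by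
    rw [Nat.cast_sub (by omega)]
    push_cast
    ring
  have hfsum : ∑ a ∈ Finset.range (2 * h), f a = 2 := by
    simp only [hf']
    rw [Finset.sum_sub_distrib, ← Finset.mul_sum, ← Nat.cast_sum, ← Nat.cast_sum, hesum, hsum,
      hcast2]
    ring
  have hem : ∀ a, a < 2 * h → (e a : ℤ) * (m a : ℤ) = (m a : ℤ) := by
    intro a ha
    by_cases h0 : m a = 0
    · rw [h0]
      simp
    · rw [hme a ha h0]
      simp
  have hfsq : ∑ a ∈ Finset.range (2 * h), f a ^ 2 = 4 * (h : ℤ) - 4 * (2 * (h : ℤ) - 2) +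
      ((∑ a ∈ Finset.range (2 * h), m a ^ 2 : ℕ) : ℤ) := by
    have h1 : ∀ a ∈ Finset.range (2 * h),
        f a ^ 2 = 4 * (e a : ℤ) - 4 * (m a : ℤ) + ((m a ^ 2 : ℕ) : ℤ) := by
      intro a ha
      have h2 := hem a (Finset.mem_range.mp ha)
      have h3 : (e a : ℤ) * (e a : ℤ) = (e a : ℤ) := by
        rcases he01 a with h4 | h4 <;> rw [h4] <;> simp
      rw [hf' a]
      push_cast
      linear_combination 4 * h3 - 4 * h2
    rw [Finset.sum_congr rfl h1, Finset.sum_add_distrib, Finset.sum_sub_distrib,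
      ← Finset.mul_sum, ← Finset.mul_sum, ← Nat.cast_sum, ← Nat.cast_sum, ← Nat.cast_sum, hesum,
      hsum, hcast2]
  have hsqZ : ((∑ a ∈ Finset.range (2 * h), m a ^ 2 : ℕ) : ℤ) ≤ 4 * (h : ℤ) - 6 := by
    have h1 : ((4 * h - 6 : ℕ) : ℤ) = 4 * (h : ℤ) - 6 := by
      rw [Nat.cast_sub (by omega)]
      push_cast
      ring
    rw [← h1]
    exact_mod_cast hsq
  have hnn : ∀ a ∈ Finset.range (2 * h), 0 ≤ f a ^ 2 - f a := by
    intro a _
    rcases le_or_gt (f a) 0 with h1 | h1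
    · nlinarith
    · nlinarith
  have hzero : ∑ a ∈ Finset.range (2 * h), (f a ^ 2 - f a) = 0 := by
    apply le_antisymm
    · rw [Finset.sum_sub_distrib, hfsq, hfsum]
      linarith
    · exact Finset.sum_nonneg hnn
  have hf01 : ∀ a, a < 2 * h → f a = 0 ∨ f a = 1 := by
    intro a ha
    have h1 := (Finset.sum_eq_zero_iff_of_nonneg hnn).mp hzero a (Finset.mem_range.mpr ha)
    have h2 : f a * (f a - 1) = 0 := by linear_combination h1
    rcases mul_eq_zero.mp h2 with h3 | h3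
    · exact Or.inl h3
    · exact Or.inr (by linarith)
  have heq : ∑ a ∈ Finset.range (2 * h), m a ^ 2 = 4 * h - 6 := by
    have h1 : ∑ a ∈ Finset.range (2 * h), f a ^ 2 = 2 := by
      rw [Finset.sum_sub_distrib, hfsum] at hzero
      linarith
    rw [hfsq] at h1
    have h2 : ((∑ a ∈ Finset.range (2 * h), m a ^ 2 : ℕ) : ℤ) = 4 * (h : ℤ) - 6 := by linarith
    omega
  refine ⟨heq, ?_⟩
  obtain ⟨S, hS⟩ : ∃ S : Finset ℕ, S = (Finset.range (2 * h)).filter (fun a => f a = 1) :=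
    ⟨_, rfl⟩
  have hScard : S.card = 2 := by
    have h1 : ∑ a ∈ Finset.range (2 * h), f a =
        ∑ a ∈ Finset.range (2 * h), (if f a = 1 then (1 : ℤ) else 0) := by
      refine Finset.sum_congr rfl (fun a ha => ?_)
      rcases hf01 a (Finset.mem_range.mp ha) with h2 | h2
      · rw [h2]
        simp
      · rw [if_pos h2, h2]
    rw [hfsum, ← Finset.sum_filter, Finset.sum_const, ← hS] at h1
    simp at h1
    exact_mod_cast h1.symm
  obtain ⟨a₁, a₂, hne, hS2⟩ := Finset.card_eq_two.mp hScard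
  have ha₁S : a₁ ∈ S := by
    rw [hS2]
    simp
  have ha₂S : a₂ ∈ S := by
    rw [hS2]
    simp
  rw [hS, Finset.mem_filter, Finset.mem_range] at ha₁S ha₂S
  have hother : ∀ a, a < 2 * h → a ≠ a₁ → a ≠ a₂ → f a = 0 := by
    intro a ha e1 e2
    rcases hf01 a ha with h3 | h3
    · exact h3
    · exfalso
      have h4 : a ∈ S := by
        rw [hS, Finset.mem_filter, Finset.mem_range]
        exact ⟨ha, h3⟩
      rw [hS2, Finset.mem_insert, Finset.mem_singleton] at h4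
      rcases h4 with h5 | h5
      · exact e1 h5
      · exact e2 h5
  have hpar : ∀ a, a < 2 * h → f a = 1 → (-1 : ℂ) ^ a = ω := by
    intro a ha h1
    have h2 : e a = 1 := by
      rcases he01 a with h3 | h3
      · exfalso
        rw [hf' a, h3] at h1
        have h4 : (0 : ℤ) ≤ (m a : ℤ) := Int.natCast_nonneg _
        push_cast at h1
        linarith
      · exact h3
    rw [he' a] at h2
    by_contra h4
    rw [if_neg h4] at h2
    exact absurd h2 (by norm_num)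
  refine ⟨a₁, a₂, ha₁S.1, ha₂S.1, hne, hpar a₁ ha₁S.1 ha₁S.2, hpar a₂ ha₂S.1 ha₂S.2, ?_⟩
  intro k hk
  rw [hX k]
  have hmC : ∀ a ∈ Finset.range (2 * h), (m a : ℂ) * ζ ^ (a * k) =
      2 * ((e a : ℂ) * ζ ^ (a * k)) - (if a = a₁ then ζ ^ (a * k) else 0) -
        (if a = a₂ then ζ ^ (a * k) else 0) := by
    intro a ha
    have ha' := Finset.mem_range.mp ha
    by_cases e1 : a = a₁
    · have e2 : a ≠ a₂ := by
        rw [e1]
        exact hne
      have h3 : (m a : ℤ) = 2 * (e a : ℤ) - 1 := by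
        have h4 := ha₁S.2
        rw [← e1, hf' a] at h4
        linarith
      have h4 : ((m a : ℤ) : ℂ) = ((2 * (e a : ℤ) - 1 : ℤ) : ℂ) := by rw [h3]
      push_cast at h4
      rw [if_pos e1, if_neg e2, h4]
      ring
    · by_cases e2 : a = a₂
      · have h3 : (m a : ℤ) = 2 * (e a : ℤ) - 1 := by
          have h4 := ha₂S.2
          rw [← e2, hf' a] at h4
          linarith
        have h4 : ((m a : ℤ) : ℂ) = ((2 * (e a : ℤ) - 1 : ℤ) : ℂ) := by rw [h3]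
        push_cast at h4
        rw [if_neg e1, if_pos e2, h4]
        ring
      · have h3 : (m a : ℤ) = 2 * (e a : ℤ) := by
          have h4 := hother a ha' e1 e2
          rw [hf' a] at h4
          linarith
        have h4 : ((m a : ℤ) : ℂ) = ((2 * (e a : ℤ) : ℤ) : ℂ) := by rw [h3]
        push_cast at h4
        rw [if_neg e1, if_neg e2, h4]
        ring
  have hE := parity_sum_root h (by omega) ζ hζ ω hω k hk
  have hE' : ∑ a ∈ Finset.range (2 * h), (e a : ℂ) * ζ ^ (a * k) = 0 := by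
    rw [← hE]
    refine Finset.sum_congr rfl (fun a _ => ?_)
    rw [he' a]
  rw [Finset.sum_congr rfl hmC, Finset.sum_sub_distrib, Finset.sum_sub_distrib,
    ← Finset.mul_sum, hE', Finset.sum_ite_eq' (Finset.range (2 * h)) a₁,
    Finset.sum_ite_eq' (Finset.range (2 * h)) a₂, if_pos (Finset.mem_range.mpr ha₁S.1),
    if_pos (Finset.mem_range.mpr ha₂S.1)]
  ring

/-- Reality and the sum off the centre determine the two exceptional frequencies as a pair of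
mutually inverse non-real ones. -/
theorem dft_cusp_real (h : ℕ) (hh : 3 ≤ h) (ζ : ℂ) (hζ : IsPrimitiveRoot ζ (2 * h)) (X : ℕ → ℂ)
    (ω : ℂ) (a₁ a₂ : ℕ) (h1 : a₁ < 2 * h) (h2 : a₂ < 2 * h) (hne : a₁ ≠ a₂)
    (hp1 : (-1 : ℂ) ^ a₁ = ω) (hp2 : (-1 : ℂ) ^ a₂ = ω)
    (hXk : ∀ k, ¬ h ∣ k → X k = -(ζ ^ (a₁ * k) + ζ ^ (a₂ * k)))
    (hr1 : conj (X 1) = X 1) (hr2 : conj (X 2) = X 2)
    (hT : ∑ k ∈ Finset.range (2 * h), (if h ∣ k then 0 else X k) = 2 * (1 + ω)) :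
    ∃ a : ℕ, a < 2 * h ∧ ζ ^ (2 * a) ≠ 1 ∧ (-1 : ℂ) ^ a = ω ∧
      ∀ k, ¬ h ∣ k → X k = -(ζ ^ (a * k) + (ζ ^ (a * k))⁻¹) := by
  have hN : 0 < 2 * h := by omega
  have hζ0 : ζ ≠ 0 := hζ.ne_zero hN.ne'
  have hζN : ζ ^ (2 * h) = 1 := hζ.pow_eq_one
  have hcz := conj_root (2 * h) hN ζ hζ
  have hsumT : ∑ k ∈ Finset.range (2 * h), (if h ∣ k then 0 else X k) =
      -((if a₁ = 0 then ((2 * h : ℕ) : ℂ) else 0) - 1 - (-1) ^ a₁ +
        ((if a₂ = 0 then ((2 * h : ℕ) : ℂ) else 0) - 1 - (-1) ^ a₂)) := by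
    rw [← sum_off_root h (by omega) ζ hζ a₁ h1, ← sum_off_root h (by omega) ζ hζ a₂ h2,
      ← Finset.sum_add_distrib, ← Finset.sum_neg_distrib]
    refine Finset.sum_congr rfl (fun k _ => ?_)
    by_cases hd : h ∣ k
    · rw [if_pos hd, if_pos hd, if_pos hd]
      ring
    · rw [if_neg hd, if_neg hd, if_neg hd, hXk k hd]
  rw [hT, hp1, hp2] at hsumT
  have hN0 : ((2 * h : ℕ) : ℂ) ≠ 0 := Nat.cast_ne_zero.mpr hN.ne'
  have ha₁0 : a₁ ≠ 0 := by
    intro h0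
    rw [if_pos h0] at hsumT
    by_cases h3 : a₂ = 0
    · exact hne (h0.trans h3.symm)
    · rw [if_neg h3] at hsumT
      apply hN0
      linear_combination hsumT
  have ha₂0 : a₂ ≠ 0 := by
    intro h0
    rw [if_pos h0] at hsumT
    by_cases h3 : a₁ = 0
    · exact hne (h3.trans h0.symm)
    · rw [if_neg h3] at hsumT
      apply hN0
      linear_combination hsumT
  obtain ⟨ξ₁, hξ₁⟩ : ∃ ξ₁ : ℂ, ξ₁ = ζ ^ a₁ := ⟨_, rfl⟩
  obtain ⟨ξ₂, hξ₂⟩ : ∃ ξ₂ : ℂ, ξ₂ = ζ ^ a₂ := ⟨_, rfl⟩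
  have hξ₁0 : ξ₁ ≠ 0 := by
    rw [hξ₁]
    exact pow_ne_zero _ hζ0
  have hξ₂0 : ξ₂ ≠ 0 := by
    rw [hξ₂]
    exact pow_ne_zero _ hζ0
  have hξ₁1 : ξ₁ ≠ 1 := by
    rw [hξ₁]
    intro h3
    exact ha₁0 (hζ.pow_inj h1 hN (by rw [h3, pow_zero]))
  have hξ₂1 : ξ₂ ≠ 1 := by
    rw [hξ₂]
    intro h3
    exact ha₂0 (hζ.pow_inj h2 hN (by rw [h3, pow_zero]))
  have hξne : ξ₁ ≠ ξ₂ := by
    rw [hξ₁, hξ₂]
    intro h3
    exact hne (hζ.pow_inj h1 h2 h3)
  have hc1 : conj ξ₁ = ξ₁⁻¹ := by rw [hξ₁, map_pow, hcz, inv_pow]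
  have hc2 : conj ξ₂ = ξ₂⁻¹ := by rw [hξ₂, map_pow, hcz, inv_pow]
  have hX1 : X 1 = -(ξ₁ + ξ₂) := by
    rw [hXk 1 (by
      intro hd
      have := Nat.le_of_dvd one_pos hd
      omega), mul_one, mul_one, hξ₁, hξ₂]
  have hX2 : X 2 = -(ξ₁ ^ 2 + ξ₂ ^ 2) := by
    rw [hXk 2 (by
      intro hd
      have := Nat.le_of_dvd two_pos hd
      omega), hξ₁, hξ₂, ← pow_mul, ← pow_mul]
  have hR1 : ξ₁⁻¹ + ξ₂⁻¹ = ξ₁ + ξ₂ := by
    have h3 := hr1
    rw [hX1, map_neg, map_add, hc1, hc2] at h3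
    exact neg_injective h3
  have hR2 : (ξ₁ ^ 2)⁻¹ + (ξ₂ ^ 2)⁻¹ = ξ₁ ^ 2 + ξ₂ ^ 2 := by
    have h3 := hr2
    rw [hX2, map_neg, map_add, map_pow, map_pow, hc1, hc2, inv_pow, inv_pow] at h3
    exact neg_injective h3
  have hprod : ξ₁ * ξ₂ = 1 := by
    have h3 : (ξ₁ + ξ₂) * (ξ₁ * ξ₂ - 1) = 0 := by
      have h4 : ξ₁ * ξ₁⁻¹ = 1 := mul_inv_cancel₀ hξ₁0
      have h5 : ξ₂ * ξ₂⁻¹ = 1 := mul_inv_cancel₀ hξ₂0
      linear_combination (-(ξ₁ * ξ₂)) * hR1 + ξ₂ * h4 + ξ₁ * h5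
    rcases mul_eq_zero.mp h3 with h4 | h4
    · have h5 : ξ₂ = -ξ₁ := by linear_combination h4
      rw [h5] at hR2
      have h6 : (ξ₁ ^ 2) * (ξ₁ ^ 2)⁻¹ = 1 := mul_inv_cancel₀ (pow_ne_zero 2 hξ₁0)
      have h7 : (ξ₁ ^ 2 - 1) * (ξ₁ ^ 2 + 1) = 0 := by
        have h8 : (-ξ₁) ^ 2 = ξ₁ ^ 2 := by ring
        rw [h8] at hR2
        linear_combination (-(ξ₁ ^ 2) / 2) * hR2 + h6
      rcases mul_eq_zero.mp h7 with h8 | h8
      · exfalso
        have h9 : (ξ₁ - 1) * (ξ₁ + 1) = 0 := by linear_combination h8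
        rcases mul_eq_zero.mp h9 with h10 | h10
        · exact hξ₁1 (sub_eq_zero.mp h10)
        · apply hξ₂1
          rw [h5]
          linear_combination -h10
      · rw [h5]
        linear_combination -h8
    · exact sub_eq_zero.mp h4
  refine ⟨a₁, h1, ?_, hp1, ?_⟩
  · intro h3
    apply hξne
    have h4 : ξ₁ * ξ₁ = 1 := by
      rw [hξ₁, ← pow_add, ← two_mul]
      exact h3
    exact mul_left_cancel₀ hξ₁0 (h4.trans hprod.symm)
  · intro k hk
    rw [hXk k hk]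
    have h3 : ζ ^ (a₂ * k) = (ζ ^ (a₁ * k))⁻¹ := by
      rw [pow_mul, pow_mul, ← hξ₁, ← hξ₂]
      apply eq_inv_of_mul_eq_one_right
      rw [← mul_pow, hprod, one_pow]
    rw [h3]

end CycDFT2

end Cfsg.Agent.Helper13
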