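import Mathlib

set_option autoImplicit false

namespace Cfsg.Agent.Helper13

open Matrix

section FourierWt

variable {F : Type*} [Field F] [Fintype F]
variable {K : Type*} [Field K]
variable {I : Type*} [Fintype I] [DecidableEq I]
variable {d : ℕ}

theorem fw_sum_char_ne (ψ : AddChar F K) (hψ : ψ.IsPrimitive) (v : I → F) (hv : v ≠ 0) :
    ∑ a : I → F, ψ (a ⬝ᵥ v) = 0 := by
  classical
  obtain ⟨i, hi⟩ := Function.ne_iff.mp hv
  have hi' : v i ≠ 0 := hi
  obtain ⟨f, hf⟩ : ∃ f : (I → F) →+ F, ∀ a, f a = a ⬝ᵥ v :=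
    ⟨⟨⟨fun a => a ⬝ᵥ v, zero_dotProduct v⟩, fun a b => add_dotProduct a b v⟩, fun _ => rfl⟩
  have hne : ψ.compAddMonoidHom f ≠ 1 := by
    have h1 := hψ hi'
    rw [AddChar.ne_one_iff] at h1 ⊢
    obtain ⟨c, hc⟩ := h1
    refine ⟨Pi.single i c, ?_⟩
    rw [AddChar.mulShift_apply] at hc
    rw [AddChar.compAddMonoidHom_apply, hf, single_dotProduct, mul_comm]
    exact hc
  have h2 := AddChar.sum_eq_zero_of_ne_one hne
  rw [← h2]
  refine Finset.sum_congr rfl fun a _ => ?_
  rw [AddChar.compAddMonoidHom_apply, hf]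

theorem fw_sum_char_ne' (ψ : AddChar F K) (hψ : ψ.IsPrimitive) (a : I → F) (ha : a ≠ 0) :
    ∑ v : I → F, ψ (a ⬝ᵥ v) = 0 := by
  rw [← fw_sum_char_ne ψ hψ a ha]
  refine Finset.sum_congr rfl fun v _ => ?_
  rw [dotProduct_comm]

/-- The weight operator of `a` for the representation `R` of the additive group `I → F`. -/
noncomputable def fwOp (ψ : AddChar F K) (R : (I → F) → Matrix (Fin d) (Fin d) K) (a : I → F) :
    Matrix (Fin d) (Fin d) K :=
  ((Fintype.card (I → F) : K))⁻¹ • ∑ v : I → F, ψ (-(a ⬝ᵥ v)) • R v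

theorem fw_sum (ψ : AddChar F K) (hψ : ψ.IsPrimitive)
    (R : (I → F) → Matrix (Fin d) (Fin d) K) (hR0 : R 0 = 1)
    (hq : (Fintype.card (I → F) : K) ≠ 0) : ∑ a : I → F, fwOp ψ R a = 1 := by
  classical
  unfold fwOp
  rw [← Finset.smul_sum, Finset.sum_comm]
  have h1 : ∀ v : I → F, v ≠ 0 → ∑ a : I → F, ψ (-(a ⬝ᵥ v)) • R v = 0 := by
    intro v hv
    rw [← Finset.sum_smul]
    have h2 := fw_sum_char_ne ψ hψ (-v) (neg_ne_zero.mpr hv)
    have h3 : ∑ a : I → F, ψ (-(a ⬝ᵥ v)) = 0 := by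
      rw [← h2]
      refine Finset.sum_congr rfl fun a _ => ?_
      rw [dotProduct_neg]
    rw [h3, zero_smul]
  rw [Finset.sum_eq_single (0 : I → F) (fun v _ hv => h1 v hv)
    (fun h => absurd (Finset.mem_univ _) h)]
  have h4 : ∑ a : I → F, ψ (-(a ⬝ᵥ (0 : I → F))) • R 0
      = (Fintype.card (I → F) : K) • (1 : Matrix (Fin d) (Fin d) K) := by
    rw [← Finset.sum_smul, hR0]
    congr 1
    simp
  rw [h4, smul_smul, inv_mul_cancel₀ hq, one_smul]

theorem fw_mul (ψ : AddChar F K) (R : (I → F) → Matrix (Fin d) (Fin d) K)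
    (hRadd : ∀ v w, R (v + w) = R v * R w) (w a : I → F) :
    R w * fwOp ψ R a = ψ (a ⬝ᵥ w) • fwOp ψ R a := by
  unfold fwOp
  rw [Matrix.mul_smul, smul_comm (ψ (a ⬝ᵥ w)) ((Fintype.card (I → F) : K))⁻¹]
  congr 1
  rw [Finset.mul_sum, Finset.smul_sum]
  refine Fintype.sum_equiv (Equiv.addLeft w) _ _ (fun v => ?_)
  rw [Equiv.coe_addLeft, Matrix.mul_smul, ← hRadd, smul_smul]
  congr 1
  rw [← AddChar.map_add_eq_mul, dotProduct_add]
  congr 1
  ring

theorem fw_orth_aux (ψ : AddChar F K)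
    (R : (I → F) → Matrix (Fin d) (Fin d) K)
    (hRadd : ∀ v w, R (v + w) = R v * R w) (a b : I → F) :
    fwOp ψ R a * fwOp ψ R b = ((Fintype.card (I → F) : K))⁻¹ •
      (∑ v : I → F, ψ ((b - a) ⬝ᵥ v)) • fwOp ψ R b := by
  show (((Fintype.card (I → F) : K))⁻¹ • ∑ v : I → F, ψ (-(a ⬝ᵥ v)) • R v) * fwOp ψ R b = _
  rw [Matrix.smul_mul, Finset.sum_mul, Finset.sum_smul]
  congr 1
  refine Finset.sum_congr rfl fun v _ => ?_
  rw [Matrix.smul_mul, fw_mul ψ R hRadd, smul_smul, sub_dotProduct, sub_eq_add_neg,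
    AddChar.map_add_eq_mul, mul_comm]

theorem fw_orth_self (ψ : AddChar F K)
    (R : (I → F) → Matrix (Fin d) (Fin d) K)
    (hRadd : ∀ v w, R (v + w) = R v * R w)
    (hq : (Fintype.card (I → F) : K) ≠ 0) (a : I → F) :
    fwOp ψ R a * fwOp ψ R a = fwOp ψ R a := by
  rw [fw_orth_aux ψ R hRadd, sub_self]
  simp only [zero_dotProduct, AddChar.map_zero_eq_one, Finset.sum_const, Finset.card_univ,
    nsmul_eq_mul, mul_one]
  rw [smul_smul, inv_mul_cancel₀ hq, one_smul]

theorem fw_orth_ne (ψ : AddChar F K) (hψ : ψ.IsPrimitive)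
    (R : (I → F) → Matrix (Fin d) (Fin d) K)
    (hRadd : ∀ v w, R (v + w) = R v * R w) {a b : I → F} (hab : a ≠ b) :
    fwOp ψ R a * fwOp ψ R b = 0 := by
  rw [fw_orth_aux ψ R hRadd, fw_sum_char_ne' ψ hψ (b - a) (sub_ne_zero.mpr (Ne.symm hab)),
    zero_smul, smul_zero]

theorem fw_card_le (ψ : AddChar F K) (hψ : ψ.IsPrimitive)
    (R : (I → F) → Matrix (Fin d) (Fin d) K)
    (hRadd : ∀ v w, R (v + w) = R v * R w)
    (hq : (Fintype.card (I → F) : K) ≠ 0) (S : Finset (I → F))
    (hS : ∀ a ∈ S, fwOp ψ R a ≠ 0) : S.card ≤ d := by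
  classical
  have hex : ∀ a : S, ∃ x : Fin d → K, fwOp ψ R a.1 *ᵥ x ≠ 0 := by
    intro a
    by_contra hcon
    push Not at hcon
    apply hS a.1 a.2
    apply Matrix.mulVec_injective
    funext x
    rw [hcon x, Matrix.zero_mulVec]
  choose x hx using hex
  have hli : LinearIndependent K (fun a : S => fwOp ψ R a.1 *ᵥ x a) := by
    rw [linearIndependent_iff']
    intro s g hg a ha
    have h1 := congrArg (fun y => fwOp ψ R a.1 *ᵥ y) hg
    simp only [Matrix.mulVec_sum, Matrix.mulVec_smul, Matrix.mulVec_mulVec,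
      Matrix.mulVec_zero] at h1
    rw [Finset.sum_eq_single a] at h1
    · rw [fw_orth_self ψ R hRadd hq] at h1
      rcases smul_eq_zero.mp h1 with h | h
      · exact h
      · exact absurd h (hx a)
    · intro b _ hb
      rw [fw_orth_ne ψ hψ R hRadd (fun h : a.1 = b.1 => hb (Subtype.ext h.symm)),
        Matrix.zero_mulVec, smul_zero]
    · intro h
      exact absurd ha h
  have h2 := hli.fintype_card_le_finrank
  rw [Fintype.card_coe, Module.finrank_fin_fun] at h2
  exact h2

theorem fw_conj (ψ : AddChar F K) (R : (I → F) → Matrix (Fin d) (Fin d) K)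
    (g g' : Matrix (Fin d) (Fin d) K) (A : (I → F) ≃ (I → F)) (B : (I → F) → (I → F))
    (hconj : ∀ v, g * R v * g' = R (A v)) (hdot : ∀ a v, a ⬝ᵥ v = (B a) ⬝ᵥ (A v))
    (a : I → F) : g * fwOp ψ R a * g' = fwOp ψ R (B a) := by
  unfold fwOp
  rw [Matrix.mul_smul, Matrix.smul_mul, Finset.mul_sum, Finset.sum_mul]
  congr 1
  refine Fintype.sum_equiv A _ _ (fun v => ?_)
  rw [Matrix.mul_smul, Matrix.smul_mul, hconj, hdot a v]

theorem fw_conj_ne (ψ : AddChar F K) (R : (I → F) → Matrix (Fin d) (Fin d) K)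
    (g g' : Matrix (Fin d) (Fin d) K) (hgg' : g' * g = 1) (A : (I → F) ≃ (I → F))
    (B : (I → F) → (I → F))
    (hconj : ∀ v, g * R v * g' = R (A v)) (hdot : ∀ a v, a ⬝ᵥ v = (B a) ⬝ᵥ (A v))
    (a : I → F) (ha : fwOp ψ R a ≠ 0) : fwOp ψ R (B a) ≠ 0 := by
  intro h
  apply ha
  have h1 := fw_conj ψ R g g' A B hconj hdot a
  rw [h] at h1
  calc fwOp ψ R a = (g' * g) * fwOp ψ R a * (g' * g) := by
        rw [hgg', Matrix.one_mul, Matrix.mul_one]
    _ = g' * (g * fwOp ψ R a * g') * g := by simp only [Matrix.mul_assoc]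
    _ = 0 := by rw [h1, Matrix.mul_zero, Matrix.zero_mul]

end FourierWt

theorem fw_fill {I : Type*} [DecidableEq I] [Fintype I] {F : Type*} [Field F]
    (Q : (I → F) → Prop)
    (hstep : ∀ (a : I → F) (k l : I), k ≠ l → ∀ s : F, Q a →
      Q (a + (s * a l) • Pi.single k (1 : F)))
    (a c : I → F) (i : I) (hai : a i ≠ 0) (hci : c i = a i) (ha : Q a) : Q c := by
  classical
  have key : ∀ J : Finset I, i ∉ J → Q (fun j => if j ∈ J then c j else a j) := by
    intro J
    induction J using Finset.induction_on with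
    | empty =>
      intro _
      have h0 : (fun j => if j ∈ (∅ : Finset I) then c j else a j) = a := by
        funext j
        simp
      rw [h0]
      exact ha
    | insert j J hj ih =>
      intro hi
      have hij : i ≠ j := fun h => hi (by rw [h]; exact Finset.mem_insert_self j J)
      have hiJ : i ∉ J := fun h => hi (Finset.mem_insert_of_mem h)
      have h1 := hstep _ j i (Ne.symm hij) ((c j - a j) / a i) (ih hiJ)
      have h2 : (fun x => if x ∈ J then c x else a x) +
          ((c j - a j) / a i * (if i ∈ J then c i else a i)) • Pi.single j (1 : F)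
          = (fun x => if x ∈ insert j J then c x else a x) := by
        funext x
        by_cases hx : x = j
        · rw [hx, Pi.add_apply, Pi.smul_apply, Pi.single_eq_same, if_neg hj, if_neg hiJ,
            if_pos (Finset.mem_insert_self j J), smul_eq_mul, mul_one]
          field_simp
          ring
        · rw [Pi.add_apply, Pi.smul_apply, Pi.single_eq_of_ne hx, smul_zero, add_zero]
          by_cases hxJ : x ∈ J
          · rw [if_pos hxJ, if_pos (Finset.mem_insert_of_mem hxJ)]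
          · rw [if_neg hxJ, if_neg (fun h => by
              rcases Finset.mem_insert.mp h with h | h
              · exact hx h
              · exact hxJ h)]
      rw [← h2]
      exact h1
  have h3 := key (Finset.univ.erase i) (Finset.notMem_erase i _)
  have h4 : (fun j => if j ∈ Finset.univ.erase i then c j else a j) = c := by
    funext j
    by_cases hj : j = i
    · rw [if_neg (by rw [hj]; exact Finset.notMem_erase i _), hj, hci]
    · rw [if_pos (Finset.mem_erase.mpr ⟨hj, Finset.mem_univ j⟩)]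
  rw [h4] at h3
  exact h3

theorem fw_trans {I : Type*} [DecidableEq I] [Fintype I] {F : Type*} [Field F]
    (Q : (I → F) → Prop)
    (hstep : ∀ (a : I → F) (k l : I), k ≠ l → ∀ s : F, Q a →
      Q (a + (s * a l) • Pi.single k (1 : F)))
    (hI : ∀ i : I, ∃ k : I, k ≠ i)
    (a b : I → F) (ha0 : a ≠ 0) (hb0 : b ≠ 0) (ha : Q a) : Q b := by
  classical
  obtain ⟨i, hi⟩ := Function.ne_iff.mp ha0
  have hi' : a i ≠ 0 := hi
  by_cases hbi : b i = 0
  · obtain ⟨k, hk⟩ := Function.ne_iff.mp hb0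
    have hk' : b k ≠ 0 := hk
    have hki : k ≠ i := fun h => hk' (by rw [h]; exact hbi)
    have h1 : Q (fun j => if j = i then a i else b j) :=
      fw_fill Q hstep a _ i hi' (if_pos rfl) ha
    refine fw_fill Q hstep _ b k ?_ ?_ h1
    · show (if k = i then a i else b k) ≠ 0
      rw [if_neg hki]
      exact hk'
    · show b k = (if k = i then a i else b k)
      rw [if_neg hki]
  · obtain ⟨k', hk'⟩ := hI i
    have h1 : Q (fun j => if j = i then a i else if j = k' then 1 else b j) :=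
      fw_fill Q hstep a _ i hi' (if_pos rfl) ha
    have h2 : Q (fun j => if j = k' then 1 else b j) := by
      refine fw_fill Q hstep _ _ k' ?_ ?_ h1
      · show (if k' = i then a i else if k' = k' then (1 : F) else b k') ≠ 0
        rw [if_neg hk', if_pos rfl]
        exact one_ne_zero
      · show (if k' = k' then (1 : F) else b k') = (if k' = i then a i else if k' = k' then 1 else b k')
        rw [if_neg hk']
    refine fw_fill Q hstep _ b i ?_ ?_ h2
    · show (if i = k' then (1 : F) else b i) ≠ 0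
      rw [if_neg (Ne.symm hk')]
      exact hbi
    · show b i = (if i = k' then (1 : F) else b i)
      rw [if_neg (Ne.symm hk')]

end Cfsg.Agent.Helper13
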