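import Mathlib
import Cfsg.Agent.Helper13.Codeg
import Cfsg.Agent.Helper25.FSIndicator
import Cfsg.Agent.Helper25.FrobSchur
import Cfsg.Agent.Helper2.CharCount
import Cfsg.Agent.Helper2.ConjClass

/-!
# Involution counting (Brauer–Fowler type bounds)
-/

set_option autoImplicit false

namespace Cfsg.Agent.Helper13

open Cfsg
open scoped ComplexConjugate

section InvCount

/-- The real nonprincipal irreducible characters: their degrees sum to at least the number of
involutions, their squared degrees sum to at most `|G| - 1`, and there are fewer of them than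
conjugacy classes. -/
theorem involution_count_data {G : Type*} [Group G] [Fintype G] :
    ∃ R : Finset (IrrCharacter G),
      (∀ χ ∈ R, (χ : G → ℂ) ≠ (fun _ => 1) ∧ ∀ g : G, ((χ : G → ℂ) g).im = 0) ∧
      Nat.card {x : G // orderOf x = 2} ≤ ∑ χ ∈ R, charDegree (χ : G → ℂ) ∧
      ∑ χ ∈ R, charDegree (χ : G → ℂ) ^ 2 + 1 ≤ Nat.card G ∧
      ((R.card : ℝ) + 1 ≤ ∑ x : G, ((Subgroup.centralizer ({x} : Set G)).index : ℝ)⁻¹) := by
  classical
  haveI : Finite (IrrCharacter G) := Helper24.finite_irrCharacter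
  haveI : Fintype (IrrCharacter G) := Fintype.ofFinite _
  obtain ⟨triv, htriv⟩ : ∃ t : IrrCharacter G,
      t = ⟨fun _ => (1 : ℂ), Helper2.isIrrCharacter_one_fun⟩ := ⟨_, rfl⟩
  obtain ⟨Rall, hRall⟩ : ∃ R : Finset (IrrCharacter G), R = Finset.univ.filter
      (fun χ : IrrCharacter G => ∀ g : G, ((χ : G → ℂ) g).im = 0) := ⟨_, rfl⟩
  have htrivR : triv ∈ Rall := by
    rw [hRall, Finset.mem_filter]
    refine ⟨Finset.mem_univ _, fun g => ?_⟩
    rw [htriv]
    simp
  have ht1 : charDegree (triv : G → ℂ) = 1 := by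
    rw [htriv]; unfold charDegree; simp
  refine ⟨Rall.erase triv, ?_, ?_, ?_, ?_⟩
  · intro χ hχ
    obtain ⟨hne, hmem⟩ := Finset.mem_erase.mp hχ
    rw [hRall, Finset.mem_filter] at hmem
    refine ⟨fun h => hne ?_, hmem.2⟩
    rw [htriv]; exact Subtype.ext h
  · have hfs := Helper25.sqrt_count (G := G) 1
    have hterm : ∀ χ : IrrCharacter G,
        (((Nat.card G : ℂ)⁻¹ * ∑ s : G, (χ : G → ℂ) (s * s)) * (χ : G → ℂ) 1).re ≤
          (if χ ∈ Rall then (charDegree (χ : G → ℂ) : ℝ) else 0) := by
      intro χ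
      have hspec := Helper24.charDegree_spec (Helper24.isCharacter_of_irr χ.2)
      obtain ⟨h1, h2⟩ := Helper25.fs_indicator χ.2
      rw [hspec]
      by_cases hreal : ∀ s : G, ((χ : G → ℂ) s).im = 0
      · have hmem : χ ∈ Rall := by
          rw [hRall, Finset.mem_filter]; exact ⟨Finset.mem_univ _, hreal⟩
        rw [if_pos hmem]
        rcases h1 hreal with h | h
        · rw [h]; simp
        · rw [h]; simp
      · have hmem : χ ∉ Rall := by
          rw [hRall, Finset.mem_filter]; exact fun h => hreal h.2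
        rw [if_neg hmem]
        have hreal' : ∃ s : G, ((χ : G → ℂ) s).im ≠ 0 := by
          by_contra hcon
          apply hreal
          intro s
          by_contra hs
          exact hcon ⟨s, hs⟩
        rw [h2 hreal']; simp
    have hcount : (Nat.card {s : G // s * s = 1} : ℝ) ≤
        ∑ χ ∈ Rall, (charDegree (χ : G → ℂ) : ℝ) := by
      have h1 := congrArg Complex.re hfs
      rw [Complex.natCast_re, Complex.re_sum] at h1
      rw [h1]
      calc _ ≤ ∑ χ : IrrCharacter G,
            (if χ ∈ Rall then (charDegree (χ : G → ℂ) : ℝ) else 0) :=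
            Finset.sum_le_sum fun χ _ => hterm χ
        _ = _ := by rw [Finset.sum_ite_mem, Finset.univ_inter]
    have hcountN : Nat.card {s : G // s * s = 1} ≤ ∑ χ ∈ Rall, charDegree (χ : G → ℂ) := by
      have : (Nat.card {s : G // s * s = 1} : ℝ) ≤
          ((∑ χ ∈ Rall, charDegree (χ : G → ℂ) : ℕ) : ℝ) := by
        push_cast
        exact hcount
      exact_mod_cast this
    have hsq : Nat.card {s : G // s * s = 1} = Nat.card {t : G // orderOf t = 2} + 1 := by
      rw [Nat.card_eq_fintype_card, Nat.card_eq_fintype_card, Fintype.card_subtype,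
        Fintype.card_subtype]
      have : Finset.univ.filter (fun s : G => s * s = 1) =
          insert 1 (Finset.univ.filter (fun s : G => orderOf s = 2)) := by
        ext s
        rw [Finset.mem_filter, Finset.mem_insert, Finset.mem_filter]
        constructor
        · intro h
          by_cases hs1 : s = 1
          · exact Or.inl hs1
          · refine Or.inr ⟨Finset.mem_univ _, orderOf_eq_prime ?_ hs1⟩
            rw [pow_two]; exact h.2
        · rintro (rfl | h)
          · exact ⟨Finset.mem_univ _, mul_one 1⟩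
          · refine ⟨Finset.mem_univ _, ?_⟩
            have := pow_orderOf_eq_one s
            rwa [h.2, pow_two] at this
      rw [this, Finset.card_insert_of_notMem]
      rw [Finset.mem_filter]
      intro h
      simp at h
    rw [← Finset.add_sum_erase Rall _ htrivR, ht1] at hcountN
    omega
  · have hsum := sum_charDegree_sq (G := G)
    rw [← Finset.add_sum_erase Finset.univ _ (Finset.mem_univ triv), ht1] at hsum
    have hsub : Rall.erase triv ⊆ Finset.univ.erase triv :=
      Finset.erase_subset_erase _ (Finset.subset_univ _)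
    have hle := Finset.sum_le_sum_of_subset
      (f := fun χ : IrrCharacter G => charDegree (χ : G → ℂ) ^ 2) hsub
    omega
  · have hk := Helper2.sum_class_weight (G := G) (fun _ => True)
    simp only [if_true] at hk
    have hkc : Nat.card {C : ConjClasses G // True} = Nat.card (ConjClasses G) :=
      Nat.card_congr (Equiv.subtypeUnivEquiv (fun _ => trivial))
    rw [hkc, ← Helper2.card_irrCharacter, Nat.card_eq_fintype_card] at hk
    have hk' : ((Fintype.card (IrrCharacter G) : ℝ) : ℂ) =
        ((∑ x : G, ((Subgroup.centralizer ({x} : Set G)).index : ℝ)⁻¹ : ℝ) : ℂ) := by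
      rw [Complex.ofReal_sum, Complex.ofReal_natCast, ← hk]
      refine Finset.sum_congr rfl fun x _ => ?_
      rw [Helper2.index_centralizer_eq_card_conj]
      push_cast
      rfl
    have hk'' := Complex.ofReal_injective hk'
    rw [← hk'']
    have hcard : (Rall.erase triv).card + 1 = Rall.card := Finset.card_erase_add_one htrivR
    have hle : Rall.card ≤ Fintype.card (IrrCharacter G) := by
      rw [← Finset.card_univ]
      exact Finset.card_le_card (Finset.subset_univ _)
    have : (Rall.erase triv).card + 1 ≤ Fintype.card (IrrCharacter G) := by omega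
    exact_mod_cast this

/-- **Brauer–Fowler type bounds**: in a group of even order `g` with `t` involutions, some
non-identity class has size at most `((g - 1) / t) ^ 2`, and some nonprincipal real irreducible
character has degree at most `(g - 1) / t`. -/
theorem involution_count_main {G : Type*} [Group G] [Fintype G] (heven : Even (Nat.card G))
    (t : ℕ) (ht : Nat.card {x : G // orderOf x = 2} = t) :
    (∃ x : G, x ≠ 1 ∧ ((Subgroup.centralizer ({x} : Set G)).index : ℚ) ≤
        (((Nat.card G : ℚ) - 1) / t) ^ 2) ∧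
    ∃ χ : IrrCharacter G, (χ : G → ℂ) ≠ (fun _ => 1) ∧ (∀ g : G, ((χ : G → ℂ) g).im = 0) ∧
      (charDegree (χ : G → ℂ) : ℚ) ≤ ((Nat.card G : ℚ) - 1) / t := by
  classical
  obtain ⟨R, hR, hS, hQ, hk⟩ := involution_count_data (G := G)
  rw [ht] at hS
  have ht1 : 1 ≤ t := by
    rw [← ht]
    obtain ⟨x, hx⟩ := exists_prime_orderOf_dvd_card' (G := G) 2 (even_iff_two_dvd.mp heven)
    exact Nat.card_pos_iff.mpr ⟨⟨⟨x, hx⟩⟩, inferInstance⟩
  have hcardG : Nat.card G = Fintype.card G := Nat.card_eq_fintype_card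
  obtain ⟨g, hg⟩ : ∃ g, g = Nat.card G := ⟨_, rfl⟩
  rw [← hg] at hQ heven ⊢
  have hg2 : 2 ≤ g := by
    have hpos : 0 < g := by rw [hg]; exact Nat.card_pos
    obtain ⟨k, hk⟩ := heven
    omega
  have htQ : (0 : ℚ) < t := by exact_mod_cast ht1
  have hgcast : ((g - 1 : ℕ) : ℚ) = (g : ℚ) - 1 := by
    rw [Nat.cast_sub (by omega)]; simp
  have hgcastR : ((g - 1 : ℕ) : ℝ) = (g : ℝ) - 1 := by
    rw [Nat.cast_sub (by omega)]; simp
  obtain ⟨S, hSdef⟩ : ∃ S, S = ∑ χ ∈ R, charDegree (χ : G → ℂ) := ⟨_, rfl⟩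
  obtain ⟨Q, hQdef⟩ : ∃ Q, Q = ∑ χ ∈ R, charDegree (χ : G → ℂ) ^ 2 := ⟨_, rfl⟩
  rw [← hSdef] at hS
  rw [← hQdef] at hQ
  have hCS : S ^ 2 ≤ R.card * Q := by
    rw [hSdef, hQdef]; exact sq_sum_le_card_mul_sum_sq
  constructor
  · by_contra hcon
    have hall : ∀ x : G, x ≠ 1 →
        (g - 1) ^ 2 < (Subgroup.centralizer ({x} : Set G)).index * t ^ 2 := by
      intro x hx
      by_contra hle
      apply hcon
      refine ⟨x, hx, ?_⟩
      have h1 : (Subgroup.centralizer ({x} : Set G)).index * t ^ 2 ≤ (g - 1) ^ 2 := not_lt.mp hle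
      have h2 : (((Subgroup.centralizer ({x} : Set G)).index : ℚ)) * (t : ℚ) ^ 2 ≤
          ((g : ℚ) - 1) ^ 2 := by
        rw [← hgcast]
        exact_mod_cast h1
      rw [div_pow, le_div_iff₀ (by positivity)]
      exact h2
    have hidx1 : (Subgroup.centralizer ({(1 : G)} : Set G)).index = 1 := by
      rw [Subgroup.index_eq_one, eq_top_iff]
      intro y _
      rw [Subgroup.mem_centralizer_iff]
      intro z hz
      rw [Set.mem_singleton_iff] at hz
      rw [hz, one_mul, mul_one]
    have hlt : ∑ x ∈ Finset.univ.erase (1 : G), ((g : ℝ) - 1) ^ 2 *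
        ((Subgroup.centralizer ({x} : Set G)).index : ℝ)⁻¹ <
          ∑ x ∈ Finset.univ.erase (1 : G), (t : ℝ) ^ 2 := by
      apply Finset.sum_lt_sum_of_nonempty
      · rw [← Finset.card_pos, Finset.card_erase_of_mem (Finset.mem_univ _), Finset.card_univ,
          ← hcardG, ← hg]
        omega
      · intro x hx
        have hx1 := Finset.ne_of_mem_erase hx
        have h3 := hall x hx1
        have hidx : (0 : ℝ) < ((Subgroup.centralizer ({x} : Set G)).index : ℝ) := by
          have : 0 < (Subgroup.centralizer ({x} : Set G)).index :=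
            Nat.pos_of_ne_zero Subgroup.index_ne_zero_of_finite
          exact_mod_cast this
        rw [← div_eq_mul_inv, div_lt_iff₀ hidx, ← hgcastR]
        have : (((g - 1 : ℕ) : ℝ)) ^ 2 <
            ((Subgroup.centralizer ({x} : Set G)).index : ℝ) * (t : ℝ) ^ 2 := by
          exact_mod_cast h3
        rw [mul_comm]
        exact this
    rw [Finset.sum_const, Finset.card_erase_of_mem (Finset.mem_univ _), Finset.card_univ,
      nsmul_eq_mul, ← hcardG, ← hg, hgcastR, ← Finset.mul_sum] at hlt
    have hsplit : ∑ x : G, ((Subgroup.centralizer ({x} : Set G)).index : ℝ)⁻¹ =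
        1 + ∑ x ∈ Finset.univ.erase (1 : G),
          ((Subgroup.centralizer ({x} : Set G)).index : ℝ)⁻¹ := by
      rw [← Finset.add_sum_erase Finset.univ _ (Finset.mem_univ (1 : G)), hidx1, Nat.cast_one,
        inv_one]
    rw [hsplit] at hk
    obtain ⟨K, hKdef⟩ : ∃ K : ℝ, K = ∑ x ∈ Finset.univ.erase (1 : G),
        ((Subgroup.centralizer ({x} : Set G)).index : ℝ)⁻¹ := ⟨_, rfl⟩
    rw [← hKdef] at hk hlt
    have ha : (1 : ℝ) ≤ (g : ℝ) - 1 := by
      have : (2 : ℝ) ≤ (g : ℝ) := by exact_mod_cast hg2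
      linarith
    have hrK : (R.card : ℝ) ≤ K := by linarith
    have h5 : ((g : ℝ) - 1) ^ 2 * (R.card : ℝ) < ((g : ℝ) - 1) * (t : ℝ) ^ 2 := by
      have : ((g : ℝ) - 1) ^ 2 * (R.card : ℝ) ≤ ((g : ℝ) - 1) ^ 2 * K :=
        mul_le_mul_of_nonneg_left hrK (by positivity)
      linarith
    have h6 : ((g : ℝ) - 1) * (R.card : ℝ) < (t : ℝ) ^ 2 := by
      have hpos : (0 : ℝ) < (g : ℝ) - 1 := by linarith
      have : ((g : ℝ) - 1) * (((g : ℝ) - 1) * (R.card : ℝ)) < ((g : ℝ) - 1) * (t : ℝ) ^ 2 := by
        calc ((g : ℝ) - 1) * (((g : ℝ) - 1) * (R.card : ℝ))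
            = ((g : ℝ) - 1) ^ 2 * (R.card : ℝ) := by ring
          _ < _ := h5
      exact lt_of_mul_lt_mul_left this hpos.le
    have h7 : t ^ 2 ≤ R.card * (g - 1) := by
      calc t ^ 2 ≤ S ^ 2 := Nat.pow_le_pow_left hS 2
        _ ≤ R.card * Q := hCS
        _ ≤ R.card * (g - 1) := Nat.mul_le_mul_left _ (by omega)
    have h8 : (t : ℝ) ^ 2 ≤ (R.card : ℝ) * ((g : ℝ) - 1) := by
      rw [← hgcastR]
      exact_mod_cast h7
    linarith
  · by_contra hcon
    have hall : ∀ χ ∈ R, g ≤ charDegree (χ : G → ℂ) * t := by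
      intro χ hχ
      by_contra hlt
      apply hcon
      refine ⟨χ, (hR χ hχ).1, (hR χ hχ).2, ?_⟩
      have h1 : charDegree (χ : G → ℂ) * t ≤ g - 1 := by omega
      rw [le_div_iff₀ htQ, ← hgcast]
      exact_mod_cast h1
    have h1 : g * S ≤ t * Q := by
      rw [hSdef, hQdef, Finset.mul_sum, Finset.mul_sum]
      apply Finset.sum_le_sum
      intro χ hχ
      have := hall χ hχ
      calc g * charDegree (χ : G → ℂ) ≤ (charDegree (χ : G → ℂ) * t) * charDegree (χ : G → ℂ) :=
            Nat.mul_le_mul_right _ this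
        _ = t * charDegree (χ : G → ℂ) ^ 2 := by ring
    have h2 : g * t ≤ g * S := Nat.mul_le_mul_left g hS
    have h3 : t * Q < t * g := Nat.mul_lt_mul_of_pos_left (by omega) (by omega)
    have h4 := h2.trans h1
    rw [mul_comm g t] at h4
    exact absurd h4 (not_le.mpr h3)

end InvCount

end Cfsg.Agent.Helper13
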