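import Mathlib

/-!
# Rank-one Steinberg pairs

A pair of homomorphisms `X, Y : K → G` from the additive group of a field, subject to the
rank-one Steinberg relations.  We derive the conjugation formulas for the elements
`W t = X t * Y (-t⁻¹) * X t` and `h t = W t * W (-1)`.
-/

set_option autoImplicit false

namespace Cfsg.Agent.Helper13

/-- A rank-one Steinberg pair in a group. -/
structure RankOnePair (K : Type*) [Field K] (G : Type*) [Group G] where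
  /-- the upper root subgroup -/
  X : K → G
  /-- the lower root subgroup -/
  Y : K → G
  X_add : ∀ t u : K, X t * X u = X (t + u)
  Y_add : ∀ t u : K, Y t * Y u = Y (t + u)
  relX : ∀ t u : K, t ≠ 0 →
    (X t * Y (-t⁻¹) * X t) * X u * (X t * Y (-t⁻¹) * X t)⁻¹ = Y (-(t⁻¹ ^ 2 * u))
  relY : ∀ t u : K, t ≠ 0 →
    (Y t * X (-t⁻¹) * Y t) * Y u * (Y t * X (-t⁻¹) * Y t)⁻¹ = X (-(t⁻¹ ^ 2 * u))

namespace RankOnePair

variable {K : Type*} [Field K] {G : Type*} [Group G] (P : RankOnePair K G)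

theorem X_zero : P.X 0 = 1 := by
  have h := P.X_add 0 0
  rw [add_zero] at h
  exact mul_left_cancel (a := P.X 0) (by rw [h, mul_one])

theorem Y_zero : P.Y 0 = 1 := by
  have h := P.Y_add 0 0
  rw [add_zero] at h
  exact mul_left_cancel (a := P.Y 0) (by rw [h, mul_one])

theorem X_neg (t : K) : (P.X t)⁻¹ = P.X (-t) := by
  apply inv_eq_of_mul_eq_one_right
  rw [P.X_add, add_neg_cancel, P.X_zero]

theorem Y_neg (t : K) : (P.Y t)⁻¹ = P.Y (-t) := by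
  apply inv_eq_of_mul_eq_one_right
  rw [P.Y_add, add_neg_cancel, P.Y_zero]

/-- The Weyl-type element `W t = X t * Y (-t⁻¹) * X t`. -/
def W (t : K) : G := P.X t * P.Y (-t⁻¹) * P.X t

theorem W_def (t : K) : P.W t = P.X t * P.Y (-t⁻¹) * P.X t := rfl

theorem W_inv (t : K) : (P.W t)⁻¹ = P.W (-t) := by
  rw [P.W_def, P.W_def, mul_inv_rev, mul_inv_rev, P.X_neg, P.Y_neg, inv_neg, neg_neg, mul_assoc]

theorem conjX (t u v : K) (ht : t ≠ 0) (hv : v = -(t⁻¹ ^ 2 * u)) :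
    P.W t * P.X u * (P.W t)⁻¹ = P.Y v := by
  rw [hv]
  exact P.relX t u ht

/-- The braid form of `W`. -/
theorem braid (t : K) (ht : t ≠ 0) : P.W t = P.Y (-t⁻¹) * P.X t * P.Y (-t⁻¹) := by
  have h := P.conjX t t (-t⁻¹) ht (by field_simp)
  have h' : P.W t * P.X t = P.Y (-t⁻¹) * P.W t := by
    rw [← h]
    group
  calc P.W t = (P.W t * P.X t) * (P.X t)⁻¹ := by group
    _ = P.Y (-t⁻¹) * P.W t * (P.X t)⁻¹ := by rw [h']
    _ = P.Y (-t⁻¹) * P.X t * P.Y (-t⁻¹) := by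
      rw [P.W_def]
      group

theorem conjY (t u v : K) (ht : t ≠ 0) (hv : v = -(t ^ 2 * u)) :
    P.W t * P.Y u * (P.W t)⁻¹ = P.X v := by
  have ht' : -t⁻¹ ≠ 0 := neg_ne_zero.mpr (inv_ne_zero ht)
  have h := P.relY (-t⁻¹) u ht'
  have e1 : -(-t⁻¹)⁻¹ = t := by
    rw [inv_neg, inv_inv, neg_neg]
  have e2 : -((-t⁻¹)⁻¹ ^ 2 * u) = v := by
    rw [hv, inv_neg, inv_inv]
    ring
  rw [e1, e2, ← P.braid t ht] at h
  exact h

theorem conjW (t u v : K) (ht : t ≠ 0) (hu : u ≠ 0) (hv : v = t ^ 2 * u⁻¹) :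
    P.W t * P.W u * (P.W t)⁻¹ = P.W v := by
  have hv0 : v ≠ 0 := by
    rw [hv]
    exact mul_ne_zero (pow_ne_zero 2 ht) (inv_ne_zero hu)
  have h1 := P.conjX t u (-v⁻¹) ht (by rw [hv]; field_simp)
  have h2 := P.conjY t (-u⁻¹) v ht (by rw [hv]; ring)
  calc P.W t * P.W u * (P.W t)⁻¹
      = (P.W t * P.X u * (P.W t)⁻¹) * (P.W t * P.Y (-u⁻¹) * (P.W t)⁻¹) *
        (P.W t * P.X u * (P.W t)⁻¹) := by
        rw [P.W_def u]
        group
    _ = P.Y (-v⁻¹) * P.X v * P.Y (-v⁻¹) := by rw [h1, h2]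
    _ = P.W v := (P.braid v hv0).symm

/-- The torus-type element `h t = W t * W (-1)`. -/
def h (t : K) : G := P.W t * P.W (-1)

theorem h_def (t : K) : P.h t = P.W t * P.W (-1) := rfl

theorem W_neg_one : P.W (-1) = (P.W 1)⁻¹ := (P.W_inv 1).symm

theorem h_one : P.h 1 = 1 := by
  rw [P.h_def, P.W_neg_one, mul_inv_cancel]

theorem W_eq (t : K) : P.W t = P.h t * P.W 1 := by
  rw [P.h_def, P.W_neg_one]
  group

theorem hX (t u v : K) (ht : t ≠ 0) (hv : v = t ^ 2 * u) :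
    P.h t * P.X u * (P.h t)⁻¹ = P.X v := by
  have h1 := P.conjX (-1) u (-u) (by norm_num) (by norm_num)
  have h2 := P.conjY t (-u) v ht (by rw [hv]; ring)
  calc P.h t * P.X u * (P.h t)⁻¹
      = P.W t * (P.W (-1) * P.X u * (P.W (-1))⁻¹) * (P.W t)⁻¹ := by
        rw [P.h_def]
        group
    _ = P.X v := by rw [h1, h2]

theorem hY (t u v : K) (ht : t ≠ 0) (hv : v = t⁻¹ ^ 2 * u) :
    P.h t * P.Y u * (P.h t)⁻¹ = P.Y v := by
  have h1 := P.conjY (-1) u (-u) (by norm_num) (by norm_num)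
  have h2 := P.conjX t (-u) v ht (by rw [hv]; ring)
  calc P.h t * P.Y u * (P.h t)⁻¹
      = P.W t * (P.W (-1) * P.Y u * (P.W (-1))⁻¹) * (P.W t)⁻¹ := by
        rw [P.h_def]
        group
    _ = P.Y v := by rw [h1, h2]

/-- Moving a torus element past an upper unipotent element. -/
theorem h_mul_X (t u v : K) (ht : t ≠ 0) (hv : v = t ^ 2 * u) :
    P.h t * P.X u = P.X v * P.h t := by
  rw [← P.hX t u v ht hv]
  group

theorem X_mul_h (t u v : K) (ht : t ≠ 0) (hv : v = t⁻¹ ^ 2 * u) :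
    P.X u * P.h t = P.h t * P.X v := by
  rw [P.h_mul_X t v u ht (by rw [hv]; field_simp)]

theorem wh (t : K) (ht : t ≠ 0) : P.W 1 * P.h t = P.h t⁻¹ * P.W 1 := by
  have h1 := P.conjW 1 t t⁻¹ one_ne_zero ht (by ring)
  calc P.W 1 * P.h t = (P.W 1 * P.W t * (P.W 1)⁻¹) * (P.W 1)⁻¹ * P.W 1 := by
        rw [P.h_def, P.W_neg_one]
        group
    _ = P.h t⁻¹ * P.W 1 := by
        rw [h1, P.h_def, P.W_neg_one]

theorem hW (t u v : K) (ht : t ≠ 0) (hu : u ≠ 0) (hv : v = t ^ 2 * u) :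
    P.h t * P.W u * (P.h t)⁻¹ = P.W v := by
  have h1 := P.conjW (-1) u u⁻¹ (by norm_num) hu (by norm_num)
  have h2 := P.conjW t u⁻¹ v ht (inv_ne_zero hu) (by rw [hv, inv_inv])
  calc P.h t * P.W u * (P.h t)⁻¹
      = P.W t * (P.W (-1) * P.W u * (P.W (-1))⁻¹) * (P.W t)⁻¹ := by
        rw [P.h_def]
        group
    _ = P.W v := by rw [h1, h2]

theorem hh (t u : K) (ht : t ≠ 0) (hu : u ≠ 0) :
    P.h t * P.h u * (P.h t)⁻¹ = P.h (t ^ 2 * u) * (P.h (t ^ 2))⁻¹ := by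
  have h1 := P.hW t u (t ^ 2 * u) ht hu rfl
  have h2 := P.hW t (-1) (-(t ^ 2)) ht (by norm_num) (by ring)
  calc P.h t * P.h u * (P.h t)⁻¹
      = (P.h t * P.W u * (P.h t)⁻¹) * (P.h t * P.W (-1) * (P.h t)⁻¹) := by
        rw [P.h_def u]
        group
    _ = P.W (t ^ 2 * u) * P.W (-(t ^ 2)) := by rw [h1, h2]
    _ = P.h (t ^ 2 * u) * (P.h (t ^ 2))⁻¹ := by
        rw [P.h_def (t ^ 2 * u), P.h_def (t ^ 2), ← P.W_inv (t ^ 2)]
        group

end RankOnePair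

end Cfsg.Agent.Helper13
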