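import Mathlib
import Cfsg.Agent.Helper13.RankOnePair
import Cfsg.Agent.Helper6.FinSq

/-!
# Rank-one Steinberg pairs over finite fields: multiplicativity of the torus elements
-/

set_option autoImplicit false

namespace Cfsg.Agent.Helper13

/-- In a finite field with a non-square there are two non-squares with sum `1`. -/
theorem exists_nonsq_add {K : Type*} [Field K] [Finite K] {g : K} (hg : ¬ IsSquare g) :
    ∃ t u : K, ¬ IsSquare t ∧ ¬ IsSquare u ∧ t + u = 1 := by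
  by_contra hno
  have hg0 : g ≠ 0 := by
    rintro rfl
    exact hg IsSquare.zero
  have h1 : ∀ t : K, ¬ IsSquare t → IsSquare (1 - t) := by
    intro t ht
    by_contra h
    exact hno ⟨t, 1 - t, ht, h, by ring⟩
  have hψ : ∀ t : {t : K // ¬ IsSquare t}, ¬ IsSquare (g * (1 - (t : K))) := by
    intro t hsq
    have h2 := h1 t t.2
    have h3 : (1 : K) - t ≠ 0 := by
      intro h0
      apply t.2
      have h4 : (t : K) = 1 := by linear_combination -h0
      rw [h4]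
      exact IsSquare.one
    apply hg
    obtain ⟨a, ha⟩ := hsq
    obtain ⟨b, hb⟩ := h2
    have hb0 : b ≠ 0 := by
      rintro rfl
      apply h3
      rw [hb, mul_zero]
    refine ⟨a / b, ?_⟩
    rw [hb] at ha
    field_simp
    linear_combination ha
  obtain ⟨ψ, hψ'⟩ : ∃ ψ : {t : K // ¬ IsSquare t} → {t : K // ¬ IsSquare t},
      ∀ t, (ψ t : K) = g * (1 - (t : K)) := ⟨fun t => ⟨g * (1 - (t : K)), hψ t⟩, fun _ => rfl⟩
  have hinj : Function.Injective ψ := by
    intro a b hab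
    have h := congrArg Subtype.val hab
    rw [hψ', hψ'] at h
    apply Subtype.ext
    have h5 := mul_left_cancel₀ hg0 h
    linear_combination -h5
  have hsurj := Finite.surjective_of_injective hinj
  obtain ⟨t, ht⟩ := hsurj ⟨g, hg⟩
  have h := congrArg Subtype.val ht
  rw [hψ'] at h
  have h' : g * (1 - (t : K)) = g * 1 := by
    rw [mul_one]
    exact h
  have h5 := mul_left_cancel₀ hg0 h'
  have h6 : (t : K) = 0 := by linear_combination -h5
  apply t.2
  rw [h6]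
  exact IsSquare.zero

namespace RankOnePair

variable {K : Type*} [Field K] {G : Type*} [Group G] (P : RankOnePair K G)

theorem h_mul_Y (t u v : K) (ht : t ≠ 0) (hv : v = t⁻¹ ^ 2 * u) :
    P.h t * P.Y u = P.Y v * P.h t := by
  rw [← P.hY t u v ht hv]
  group

theorem inv_h_mul_X (t u v : K) (ht : t ≠ 0) (hv : v = t⁻¹ ^ 2 * u) :
    (P.h t)⁻¹ * P.X u = P.X v * (P.h t)⁻¹ := by
  have h1 := P.X_mul_h t u v ht hv
  calc (P.h t)⁻¹ * P.X u = (P.h t)⁻¹ * (P.X u * P.h t) * (P.h t)⁻¹ := by group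
    _ = P.X v * (P.h t)⁻¹ := by
      rw [h1]
      group

theorem inv_h_mul_Y (t u v : K) (ht : t ≠ 0) (hv : v = t ^ 2 * u) :
    (P.h t)⁻¹ * P.Y u = P.Y v * (P.h t)⁻¹ := by
  have h1 := P.h_mul_Y t v u ht (by rw [hv]; field_simp)
  calc (P.h t)⁻¹ * P.Y u = (P.h t)⁻¹ * (P.Y u * P.h t) * (P.h t)⁻¹ := by group
    _ = P.Y v * (P.h t)⁻¹ := by
      rw [← h1]
      group

/-- Elements commuting with both root subgroups. -/
def Cen (z : G) : Prop := (∀ s : K, Commute z (P.X s)) ∧ (∀ s : K, Commute z (P.Y s))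

theorem cen_one : P.Cen 1 := ⟨fun _ => Commute.one_left _, fun _ => Commute.one_left _⟩

theorem cen_mul {z z' : G} (hz : P.Cen z) (hz' : P.Cen z') : P.Cen (z * z') :=
  ⟨fun s => (hz.1 s).mul_left (hz'.1 s), fun s => (hz.2 s).mul_left (hz'.2 s)⟩

theorem cen_commute_W {z : G} (hz : P.Cen z) (t : K) : Commute z (P.W t) := by
  rw [P.W_def]
  exact ((hz.1 t).mul_right (hz.2 _)).mul_right (hz.1 t)

theorem cen_commute_h {z : G} (hz : P.Cen z) (t : K) : Commute z (P.h t) := by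
  rw [P.h_def]
  exact (P.cen_commute_W hz t).mul_right (P.cen_commute_W hz _)

/-- The defect of multiplicativity of `h` is central. -/
theorem cen_defect (t u : K) (ht : t ≠ 0) (hu : u ≠ 0) :
    P.Cen (P.h (t * u) * (P.h t * P.h u)⁻¹) := by
  have htu : t * u ≠ 0 := mul_ne_zero ht hu
  constructor
  · intro s
    have h1 := P.inv_h_mul_X t s (t⁻¹ ^ 2 * s) ht rfl
    have h2 := P.inv_h_mul_X u (t⁻¹ ^ 2 * s) (u⁻¹ ^ 2 * (t⁻¹ ^ 2 * s)) hu rfl
    have h3 := P.h_mul_X (t * u) (u⁻¹ ^ 2 * (t⁻¹ ^ 2 * s)) s htu (by field_simp)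
    show P.h (t * u) * (P.h t * P.h u)⁻¹ * P.X s = P.X s * (P.h (t * u) * (P.h t * P.h u)⁻¹)
    calc P.h (t * u) * (P.h t * P.h u)⁻¹ * P.X s
        = P.h (t * u) * (P.h u)⁻¹ * ((P.h t)⁻¹ * P.X s) := by group
      _ = P.h (t * u) * ((P.h u)⁻¹ * P.X (t⁻¹ ^ 2 * s)) * (P.h t)⁻¹ := by
        rw [h1]
        group
      _ = (P.h (t * u) * P.X (u⁻¹ ^ 2 * (t⁻¹ ^ 2 * s))) * (P.h u)⁻¹ * (P.h t)⁻¹ := by
        rw [h2]
        group
      _ = P.X s * (P.h (t * u) * (P.h t * P.h u)⁻¹) := by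
        rw [h3]
        group
  · intro s
    have h1 := P.inv_h_mul_Y t s (t ^ 2 * s) ht rfl
    have h2 := P.inv_h_mul_Y u (t ^ 2 * s) (u ^ 2 * (t ^ 2 * s)) hu rfl
    have h3 := P.h_mul_Y (t * u) (u ^ 2 * (t ^ 2 * s)) s htu (by field_simp)
    show P.h (t * u) * (P.h t * P.h u)⁻¹ * P.Y s = P.Y s * (P.h (t * u) * (P.h t * P.h u)⁻¹)
    calc P.h (t * u) * (P.h t * P.h u)⁻¹ * P.Y s
        = P.h (t * u) * (P.h u)⁻¹ * ((P.h t)⁻¹ * P.Y s) := by group
      _ = P.h (t * u) * ((P.h u)⁻¹ * P.Y (t ^ 2 * s)) * (P.h t)⁻¹ := by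
        rw [h1]
        group
      _ = (P.h (t * u) * P.Y (u ^ 2 * (t ^ 2 * s))) * (P.h u)⁻¹ * (P.h t)⁻¹ := by
        rw [h2]
        group
      _ = P.Y s * (P.h (t * u) * (P.h t * P.h u)⁻¹) := by
        rw [h3]
        group

theorem cen_pow (g : K) (hg : g ≠ 0) (n : ℕ) : P.Cen (P.h (g ^ n) * ((P.h g) ^ n)⁻¹) := by
  induction n with
  | zero =>
    rw [pow_zero, pow_zero, P.h_one, inv_one, mul_one]
    exact P.cen_one
  | succ n ih =>
    have e : P.h (g ^ (n + 1)) * ((P.h g) ^ (n + 1))⁻¹ =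
        (P.h (g ^ n * g) * (P.h (g ^ n) * P.h g)⁻¹) * (P.h (g ^ n) * ((P.h g) ^ n)⁻¹) := by
      rw [pow_succ g n, pow_succ (P.h g) n]
      group
    rw [e]
    exact P.cen_mul (P.cen_defect (g ^ n) g (pow_ne_zero n hg) hg) ih

section Fin

variable [Finite K]

/-- Over a finite field the torus elements commute. -/
theorem h_comm (t u : K) (ht : t ≠ 0) (hu : u ≠ 0) : Commute (P.h t) (P.h u) := by
  obtain ⟨g, hg⟩ := IsCyclic.exists_monoid_generator (α := Kˣ)
  obtain ⟨n, hn⟩ := (Submonoid.mem_powers_iff (Units.mk0 t ht) g).mp (hg (Units.mk0 t ht))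
  obtain ⟨m, hm⟩ := (Submonoid.mem_powers_iff (Units.mk0 u hu) g).mp (hg (Units.mk0 u hu))
  have hn' : t = (g : K) ^ n := by
    have h := congrArg Units.val hn
    rw [Units.val_pow_eq_pow_val, Units.val_mk0] at h
    exact h.symm
  have hm' : u = (g : K) ^ m := by
    have h := congrArg Units.val hm
    rw [Units.val_pow_eq_pow_val, Units.val_mk0] at h
    exact h.symm
  have hg0 : (g : K) ≠ 0 := g.ne_zero
  have hcn := P.cen_pow (g : K) hg0 n
  have hcm := P.cen_pow (g : K) hg0 m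
  have e1 : P.h t = (P.h ((g : K) ^ n) * ((P.h (g : K)) ^ n)⁻¹) * (P.h (g : K)) ^ n := by
    rw [hn']
    group
  have e2 : P.h u = (P.h ((g : K) ^ m) * ((P.h (g : K)) ^ m)⁻¹) * (P.h (g : K)) ^ m := by
    rw [hm']
    group
  have hA : Commute (P.h (g : K)) (P.h u) := by
    rw [e2]
    exact (P.cen_commute_h hcm _).symm.mul_right (Commute.pow_right (Commute.refl _) m)
  rw [e1]
  exact (P.cen_commute_h hcn u).mul_left (hA.pow_left n)

theorem h_sq_mul (t u : K) (ht : t ≠ 0) (hu : u ≠ 0) :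
    P.h (t ^ 2 * u) = P.h u * P.h (t ^ 2) := by
  have h1 := P.hh t u ht hu
  have h2 := (P.h_comm t u ht hu).eq
  have h3 : P.h u = P.h (t ^ 2 * u) * (P.h (t ^ 2))⁻¹ := by
    rw [← h1, h2]
    group
  calc P.h (t ^ 2 * u) = (P.h (t ^ 2 * u) * (P.h (t ^ 2))⁻¹) * P.h (t ^ 2) := by group
    _ = P.h u * P.h (t ^ 2) := by rw [← h3]

end Fin

end RankOnePair

end Cfsg.Agent.Helper13
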