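import Mathlib
import Cfsg.Agent.Helper13.RankOnePair2

/-!
# Rank-one Steinberg pairs over finite fields: the torus elements are multiplicative
-/

set_option autoImplicit false

namespace Cfsg.Agent.Helper13

namespace RankOnePair

variable {K : Type*} [Field K] {G : Type*} [Group G] (P : RankOnePair K G)

theorem Y_eq (t : K) : P.Y (-t⁻¹) = P.X (-t) * P.W t * P.X (-t) := by
  rw [P.W_def, ← P.X_neg]
  group

theorem W_mul_of_add (t u : K) (ht : t ≠ 0) (hu : u ≠ 0) (htu : t + u = 1) :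
    P.W (t * u) = P.W (-(t ^ 2)) * P.W t * P.W u := by
  have hu' : u = 1 - t := by linear_combination htu
  have e0 : -(t * u)⁻¹ = -t⁻¹ + -u⁻¹ := by
    field_simp
    linear_combination htu
  have e1 : t * u + -t = -(t ^ 2) := by
    rw [hu']
    ring
  have e2 : -t + -u = -1 := by linear_combination -htu
  have e3 : -u + t * u = -(u ^ 2) := by
    have ht' : t = 1 - u := by linear_combination htu
    rw [ht']
    ring
  have h1 := P.conjX t (-1) (t⁻¹ ^ 2) ht (by ring)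
  have h2 := P.conjX u (-(u ^ 2)) 1 hu (by field_simp)
  have h3 := P.conjY t 1 (-(t ^ 2)) ht (by ring)
  have e4 : -(-(t ^ 2))⁻¹ = t⁻¹ ^ 2 := by
    rw [inv_neg, neg_neg, inv_pow]
  calc P.W (t * u) = P.X (t * u) * (P.Y (-t⁻¹) * P.Y (-u⁻¹)) * P.X (t * u) := by
        rw [P.W_def, e0, P.Y_add]
    _ = (P.X (t * u) * P.X (-t)) * P.W t * (P.X (-t) * P.X (-u)) * P.W u *
          (P.X (-u) * P.X (t * u)) := by
        rw [P.Y_eq t, P.Y_eq u]
        group
    _ = P.X (-(t ^ 2)) * P.W t * P.X (-1) * P.W u * P.X (-(u ^ 2)) := by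
        rw [P.X_add, P.X_add, P.X_add, e1, e2, e3]
    _ = P.X (-(t ^ 2)) * (P.W t * P.X (-1) * (P.W t)⁻¹) * P.W t *
          (P.W u * P.X (-(u ^ 2)) * (P.W u)⁻¹) * P.W u := by group
    _ = P.X (-(t ^ 2)) * P.Y (t⁻¹ ^ 2) * (P.W t * P.Y 1 * (P.W t)⁻¹) * P.W t * P.W u := by
        rw [h1, h2]
        group
    _ = P.W (-(t ^ 2)) * P.W t * P.W u := by
        rw [h3, P.W_def (-(t ^ 2)), e4]

section Fin

variable [Finite K]

theorem h_mul_of_add (t u : K) (ht : t ≠ 0) (hu : u ≠ 0) (htu : t + u = 1) :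
    P.h (t * u) = P.h t * P.h u := by
  have hti : t⁻¹ ≠ 0 := inv_ne_zero ht
  have h1 := P.W_mul_of_add t u ht hu htu
  have h2 := P.wh t ht
  have h3 : P.h (-(t ^ 2)) = P.h (-1) * P.h (t ^ 2) := by
    have h := P.h_sq_mul t (-1) ht (by norm_num)
    have e : t ^ 2 * -1 = -(t ^ 2) := by ring
    rw [e] at h
    exact h
  have h4 : P.h t = P.h t⁻¹ * P.h (t ^ 2) := by
    have h := P.h_sq_mul t t⁻¹ ht hti
    have e : t ^ 2 * t⁻¹ = t := by field_simp
    rw [e] at h
    exact h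
  have hc1 : Commute (P.h (-1)) (P.h (t ^ 2) * P.h t⁻¹) :=
    (P.h_comm (-1) (t ^ 2) (by norm_num) (pow_ne_zero 2 ht)).mul_right
      (P.h_comm (-1) t⁻¹ (by norm_num) hti)
  have hc2 := (P.h_comm (t ^ 2) t⁻¹ (pow_ne_zero 2 ht) hti).eq
  have hw2 : (P.h (-1))⁻¹ = P.W 1 * P.W 1 := by
    rw [P.h_def, P.W_neg_one, mul_inv_rev, inv_inv]
  calc P.h (t * u) = P.W (-(t ^ 2)) * P.W t * (P.W u * P.W (-1)) := by
        rw [P.h_def, h1]
        group
    _ = P.h (-(t ^ 2)) * (P.W 1 * P.h t) * P.W 1 * P.h u := by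
        rw [P.W_eq (-(t ^ 2)), P.W_eq t, ← P.h_def u]
        group
    _ = P.h (-(t ^ 2)) * P.h t⁻¹ * (P.h (-1))⁻¹ * P.h u := by
        rw [h2, hw2]
        simp only [mul_assoc]
    _ = (P.h (-1) * (P.h (t ^ 2) * P.h t⁻¹)) * (P.h (-1))⁻¹ * P.h u := by
        rw [h3]
        group
    _ = (P.h (t ^ 2) * P.h t⁻¹) * P.h u := by
        rw [hc1.eq]
        group
    _ = P.h t * P.h u := by rw [hc2, ← h4]

/-- Over a finite field the torus elements are multiplicative. -/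
theorem h_mul (t u : K) (ht : t ≠ 0) (hu : u ≠ 0) : P.h (t * u) = P.h t * P.h u := by
  by_cases ht2 : IsSquare t
  · obtain ⟨s, hs⟩ := ht2
    have hs0 : s ≠ 0 := by
      rintro rfl
      apply ht
      rw [hs, mul_zero]
    have e : t = s ^ 2 := by rw [hs, sq]
    rw [e, P.h_sq_mul s u hs0 hu]
    exact (P.h_comm u (s ^ 2) hu (pow_ne_zero 2 hs0)).eq
  · by_cases hu2 : IsSquare u
    · obtain ⟨r, hr⟩ := hu2
      have hr0 : r ≠ 0 := by
        rintro rfl
        apply hu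
        rw [hr, mul_zero]
      have e : t * u = r ^ 2 * t := by
        rw [hr]
        ring
      have e' : u = r ^ 2 := by rw [hr, sq]
      rw [e, P.h_sq_mul r t hr0 ht, e']
    · obtain ⟨t₀, u₀, ht₀, hu₀, hsum⟩ := exists_nonsq_add ht2
      have ht₀0 : t₀ ≠ 0 := by
        rintro rfl
        exact ht₀ IsSquare.zero
      have hu₀0 : u₀ ≠ 0 := by
        rintro rfl
        exact hu₀ IsSquare.zero
      obtain ⟨a, ha⟩ := Helper6.isSquare_div_of_not_isSquare ht2 ht₀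
      obtain ⟨b, hb⟩ := Helper6.isSquare_div_of_not_isSquare hu2 hu₀
      have ha' : t = a ^ 2 * t₀ := by
        field_simp at ha
        linear_combination ha
      have hb' : u = b ^ 2 * u₀ := by
        field_simp at hb
        linear_combination hb
      have ha0 : a ≠ 0 := by
        rintro rfl
        apply ht
        rw [ha']
        ring
      have hb0 : b ≠ 0 := by
        rintro rfl
        apply hu
        rw [hb']
        ring
      have ha2 : a ^ 2 ≠ 0 := pow_ne_zero 2 ha0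
      have hb2 : b ^ 2 ≠ 0 := pow_ne_zero 2 hb0
      have e1 : t * u = a ^ 2 * (b ^ 2 * (t₀ * u₀)) := by
        rw [ha', hb']
        ring
      have h0 := P.h_mul_of_add t₀ u₀ ht₀0 hu₀0 hsum
      have hc : Commute (P.h (a ^ 2)) (P.h u₀ * P.h (b ^ 2)) :=
        (P.h_comm (a ^ 2) u₀ ha2 hu₀0).mul_right (P.h_comm (a ^ 2) (b ^ 2) ha2 hb2)
      calc P.h (t * u) = P.h t₀ * P.h u₀ * P.h (b ^ 2) * P.h (a ^ 2) := by
            rw [e1, P.h_sq_mul a _ ha0 (mul_ne_zero hb2 (mul_ne_zero ht₀0 hu₀0)),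
              P.h_sq_mul b _ hb0 (mul_ne_zero ht₀0 hu₀0), h0]
        _ = P.h t₀ * ((P.h u₀ * P.h (b ^ 2)) * P.h (a ^ 2)) := by group
        _ = P.h t₀ * (P.h (a ^ 2) * (P.h u₀ * P.h (b ^ 2))) := by rw [hc.eq]
        _ = P.h t * P.h u := by
            rw [ha', hb', P.h_sq_mul a t₀ ha0 ht₀0, P.h_sq_mul b u₀ hb0 hu₀0]
            group

end Fin

end RankOnePair

end Cfsg.Agent.Helper13
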