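import Mathlib
import Cfsg.Agent.Helper13.RankOnePair3

/-!
# Rank-one Steinberg pairs over finite fields: the Bruhat cells and the order bound
-/

set_option autoImplicit false

namespace Cfsg.Agent.Helper13

namespace RankOnePair

variable {K : Type*} [Field K] {G : Type*} [Group G] (P : RankOnePair K G)

/-- The small Bruhat cell. -/
def cellB (g : G) : Prop := ∃ a t : K, t ≠ 0 ∧ g = P.X a * P.h t

/-- The big Bruhat cell. -/
def cellW (g : G) : Prop := ∃ a t b : K, t ≠ 0 ∧ g = P.X a * P.h t * P.W 1 * P.X b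

/-- The union of the two cells. -/
def cell (g : G) : Prop := P.cellB g ∨ P.cellW g

theorem cell_one : P.cell 1 :=
  Or.inl ⟨0, 1, one_ne_zero, by rw [P.X_zero, P.h_one, mul_one]⟩

theorem cell_X_mul (s : K) {g : G} (hg : P.cell g) : P.cell (P.X s * g) := by
  rcases hg with ⟨a, t, ht, rfl⟩ | ⟨a, t, b, ht, rfl⟩
  · exact Or.inl ⟨s + a, t, ht, by rw [← P.X_add, mul_assoc]⟩
  · exact Or.inr ⟨s + a, t, b, ht, by rw [← P.X_add]; simp only [mul_assoc]⟩

section Fin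

variable [Finite K]

theorem cell_h_mul (v : K) (hv : v ≠ 0) {g : G} (hg : P.cell g) : P.cell (P.h v * g) := by
  rcases hg with ⟨a, t, ht, rfl⟩ | ⟨a, t, b, ht, rfl⟩
  · refine Or.inl ⟨v ^ 2 * a, v * t, mul_ne_zero hv ht, ?_⟩
    rw [P.h_mul v t hv ht, ← mul_assoc, P.h_mul_X v a (v ^ 2 * a) hv rfl, mul_assoc]
  · refine Or.inr ⟨v ^ 2 * a, v * t, b, mul_ne_zero hv ht, ?_⟩
    rw [P.h_mul v t hv ht]
    calc P.h v * (P.X a * P.h t * P.W 1 * P.X b)
        = (P.h v * P.X a) * P.h t * P.W 1 * P.X b := by simp only [mul_assoc]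
      _ = P.X (v ^ 2 * a) * (P.h v * P.h t) * P.W 1 * P.X b := by
        rw [P.h_mul_X v a (v ^ 2 * a) hv rfl]
        simp only [mul_assoc]

theorem cellW_of_cellB {g : G} (hg : P.cellB g) : P.cellW (P.W 1 * g) := by
  obtain ⟨a, t, ht, rfl⟩ := hg
  refine ⟨0, t⁻¹, t⁻¹ ^ 2 * a, inv_ne_zero ht, ?_⟩
  rw [P.X_zero, one_mul, P.X_mul_h t a (t⁻¹ ^ 2 * a) ht rfl, ← mul_assoc, P.wh t ht]

theorem h_neg_one_inv : (P.h (-1))⁻¹ = P.h (-1) := by
  apply inv_eq_of_mul_eq_one_right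
  rw [← P.h_mul (-1) (-1) (by norm_num) (by norm_num)]
  have e : (-1 : K) * -1 = 1 := by ring
  rw [e, P.h_one]

theorem cellB_w (t b : K) (ht : t ≠ 0) : P.cellB (P.W 1 * (P.h t * P.W 1 * P.X b)) := by
  have hti : t⁻¹ ≠ 0 := inv_ne_zero ht
  have hw2 : P.W 1 * P.W 1 = P.h (-1) := by
    rw [← P.h_neg_one_inv, P.h_def, P.W_neg_one, mul_inv_rev, inv_inv]
  have hne : -t⁻¹ ≠ 0 := neg_ne_zero.mpr hti
  refine ⟨(-t⁻¹) ^ 2 * b, -t⁻¹, hne, ?_⟩
  have e : t⁻¹ * -1 = -t⁻¹ := by ring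
  calc P.W 1 * (P.h t * P.W 1 * P.X b) = (P.W 1 * P.h t) * P.W 1 * P.X b := by
        simp only [mul_assoc]
    _ = P.h t⁻¹ * (P.W 1 * P.W 1) * P.X b := by
        rw [P.wh t ht]
        simp only [mul_assoc]
    _ = P.h (-t⁻¹) * P.X b := by
        rw [hw2, ← P.h_mul t⁻¹ (-1) hti (by norm_num), e]
    _ = P.X ((-t⁻¹) ^ 2 * b) * P.h (-t⁻¹) := P.h_mul_X (-t⁻¹) b _ hne rfl

theorem cellW_mul_cellB {g g' : G} (hg : P.cellW g) (hg' : P.cellB g') : P.cellW (g * g') := by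
  obtain ⟨a, t, b, ht, rfl⟩ := hg
  obtain ⟨c, v, hv, rfl⟩ := hg'
  have hvi : v⁻¹ ≠ 0 := inv_ne_zero hv
  refine ⟨a, t * v⁻¹, v⁻¹ ^ 2 * (b + c), mul_ne_zero ht hvi, ?_⟩
  have h1 := P.wh v hv
  calc P.X a * P.h t * P.W 1 * P.X b * (P.X c * P.h v)
      = P.X a * P.h t * P.W 1 * ((P.X b * P.X c) * P.h v) := by simp only [mul_assoc]
    _ = P.X a * P.h t * (P.W 1 * P.h v) * P.X (v⁻¹ ^ 2 * (b + c)) := by
        rw [P.X_add, P.X_mul_h v (b + c) (v⁻¹ ^ 2 * (b + c)) hv rfl]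
        simp only [mul_assoc]
    _ = P.X a * (P.h t * P.h v⁻¹) * P.W 1 * P.X (v⁻¹ ^ 2 * (b + c)) := by
        rw [h1]
        simp only [mul_assoc]
    _ = P.X a * P.h (t * v⁻¹) * P.W 1 * P.X (v⁻¹ ^ 2 * (b + c)) := by
        rw [P.h_mul t v⁻¹ ht hvi]

theorem cell_w_mul {g : G} (hg : P.cell g) : P.cell (P.W 1 * g) := by
  rcases hg with hB | ⟨a, t, b, ht, rfl⟩
  · exact Or.inr (P.cellW_of_cellB hB)
  · by_cases ha : a = 0
    · rw [ha, P.X_zero, one_mul]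
      exact Or.inl (P.cellB_w t b ht)
    · have hai : a⁻¹ ≠ 0 := inv_ne_zero ha
      have h1 := P.conjX 1 a (-a) one_ne_zero (by simp)
      have h2 : P.cellW (P.Y (-a)) := by
        refine ⟨-a⁻¹, a⁻¹, -a⁻¹, hai, ?_⟩
        have h3 := P.Y_eq a⁻¹
        rw [inv_inv] at h3
        rw [h3, P.W_eq a⁻¹]
        simp only [mul_assoc]
      have h4 := P.cellW_mul_cellB h2 (P.cellB_w t b ht)
      have e : P.W 1 * (P.X a * P.h t * P.W 1 * P.X b) =
          P.Y (-a) * (P.W 1 * (P.h t * P.W 1 * P.X b)) := by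
        rw [← h1]
        group
      rw [e]
      exact Or.inr h4

theorem cell_Y_mul (s : K) {g : G} (hg : P.cell g) : P.cell (P.Y s * g) := by
  by_cases hs : s = 0
  · rw [hs, P.Y_zero, one_mul]
    exact hg
  · have hsi : -s⁻¹ ≠ 0 := neg_ne_zero.mpr (inv_ne_zero hs)
    have h1 := P.Y_eq (-s⁻¹)
    have e1 : -(-s⁻¹)⁻¹ = s := by rw [inv_neg, inv_inv, neg_neg]
    rw [e1, neg_neg, P.W_eq (-s⁻¹)] at h1
    have e : P.Y s * g = P.X s⁻¹ * (P.h (-s⁻¹) * (P.W 1 * (P.X s⁻¹ * g))) := by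
      rw [h1]
      simp only [mul_assoc]
    rw [e]
    exact P.cell_X_mul _ (P.cell_h_mul _ hsi (P.cell_w_mul (P.cell_X_mul _ hg)))

/-- Every element generated by the root subgroups lies in a cell. -/
theorem cell_of_mem_closure (g : G)
    (hg : g ∈ Subgroup.closure (Set.range P.X ∪ Set.range P.Y)) : P.cell g := by
  obtain ⟨T, hT⟩ : ∃ T : Subgroup G, ∀ x : G, x ∈ T ↔
      ∀ s : G, P.cell s → (P.cell (x * s) ∧ P.cell (x⁻¹ * s)) := by
    refine ⟨{ carrier := {x | ∀ s : G, P.cell s → (P.cell (x * s) ∧ P.cell (x⁻¹ * s))}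
              mul_mem' := ?_
              one_mem' := ?_
              inv_mem' := ?_ }, fun x => Iff.rfl⟩
    · intro x y hx hy s hs
      constructor
      · rw [mul_assoc]
        exact (hx _ (hy s hs).1).1
      · rw [mul_inv_rev, mul_assoc]
        exact (hy _ (hx s hs).2).2
    · intro s hs
      rw [inv_one, one_mul]
      exact ⟨hs, hs⟩
    · intro x hx s hs
      rw [inv_inv]
      exact ⟨(hx s hs).2, (hx s hs).1⟩
  have hle : Subgroup.closure (Set.range P.X ∪ Set.range P.Y) ≤ T := by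
    rw [Subgroup.closure_le]
    rintro x (⟨t, rfl⟩ | ⟨t, rfl⟩)
    · rw [SetLike.mem_coe, hT]
      intro s hs
      rw [P.X_neg]
      exact ⟨P.cell_X_mul t hs, P.cell_X_mul (-t) hs⟩
    · rw [SetLike.mem_coe, hT]
      intro s hs
      rw [P.Y_neg]
      exact ⟨P.cell_Y_mul t hs, P.cell_Y_mul (-t) hs⟩
  have h1 := ((hT g).mp (hle hg) 1 P.cell_one).1
  rw [mul_one] at h1
  exact h1

/-- A group generated by a rank-one Steinberg pair over a finite field `K` with `q` elements is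
finite of order at most `q (q² - 1)`. -/
theorem card_le (htop : Subgroup.closure (Set.range P.X ∪ Set.range P.Y) = ⊤) :
    Finite G ∧ Nat.card G ≤ Nat.card K * (Nat.card K ^ 2 - 1) := by
  obtain ⟨φ₁, hφ₁⟩ : ∃ φ : K × Kˣ → G, ∀ p, φ p = P.X p.1 * P.h (p.2 : K) :=
    ⟨fun p => P.X p.1 * P.h (p.2 : K), fun _ => rfl⟩
  obtain ⟨φ₂, hφ₂⟩ : ∃ φ : K × Kˣ × K → G,
      ∀ p, φ p = P.X p.1 * P.h (p.2.1 : K) * P.W 1 * P.X p.2.2 :=
    ⟨fun p => P.X p.1 * P.h (p.2.1 : K) * P.W 1 * P.X p.2.2, fun _ => rfl⟩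
  have hsub : (Set.univ : Set G) ⊆ Set.range φ₁ ∪ Set.range φ₂ := by
    intro g _
    have hg : g ∈ Subgroup.closure (Set.range P.X ∪ Set.range P.Y) := by
      rw [htop]
      exact Subgroup.mem_top g
    rcases P.cell_of_mem_closure g hg with ⟨a, t, ht, rfl⟩ | ⟨a, t, b, ht, rfl⟩
    · left
      exact ⟨(a, Units.mk0 t ht), by rw [hφ₁]; rfl⟩
    · right
      exact ⟨(a, Units.mk0 t ht, b), by rw [hφ₂]; rfl⟩
  have hfin : (Set.range φ₁ ∪ Set.range φ₂).Finite :=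
    (Set.finite_range φ₁).union (Set.finite_range φ₂)
  have hG : Finite G := Set.finite_univ_iff.mp (hfin.subset hsub)
  refine ⟨hG, ?_⟩
  have h1 := Set.ncard_le_ncard hsub hfin
  rw [Set.ncard_univ] at h1
  have h2 := Set.ncard_union_le (Set.range φ₁) (Set.range φ₂)
  have h3 : (Set.range φ₁).ncard ≤ Nat.card K * (Nat.card K - 1) := by
    rw [← Nat.card_coe_set_eq]
    have h := Finite.card_range_le φ₁
    rw [Nat.card_prod, Nat.card_units] at h
    exact h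
  have h4 : (Set.range φ₂).ncard ≤ Nat.card K * ((Nat.card K - 1) * Nat.card K) := by
    rw [← Nat.card_coe_set_eq]
    have h := Finite.card_range_le φ₂
    rw [Nat.card_prod, Nat.card_prod, Nat.card_units] at h
    exact h
  have hq : 0 < Nat.card K := Nat.card_pos
  obtain ⟨m, hm⟩ : ∃ m : ℕ, Nat.card K = m + 1 := ⟨Nat.card K - 1, by omega⟩
  rw [hm] at h3 h4 ⊢
  have e : (m + 1) * ((m + 1) ^ 2 - 1) = (m + 1) * (m + 1 - 1) + (m + 1) * ((m + 1 - 1) * (m + 1)) := by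
    have e1 : (m + 1) ^ 2 - 1 = m * m + 2 * m := by
      have : (m + 1) ^ 2 = m * m + 2 * m + 1 := by ring
      omega
    rw [e1, Nat.add_sub_cancel]
    ring
  omega

end Fin

end RankOnePair

end Cfsg.Agent.Helper13
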