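import Mathlib
import Cfsg.Agent.Helper13.SL2Unip

/-!
# Non-split tori of `SL₂(q)`: centralisers of elements without eigenvector
-/

set_option autoImplicit false

namespace Cfsg.Agent.Helper13

open Cfsg
open scoped ComplexConjugate

section TorusAlg

variable {F : Type*} [Field F]

/-- An element of `SL₂` without eigenvector. -/
def IsEll (g : Matrix.SpecialLinearGroup (Fin 2) F) : Prop :=
  ∀ (c : F) (v : Fin 2 → F), v ≠ 0 → (g : Matrix (Fin 2) (Fin 2) F).mulVec v ≠ c • v

theorem mat2_ext {A B : Matrix (Fin 2) (Fin 2) F} (h00 : A 0 0 = B 0 0) (h01 : A 0 1 = B 0 1)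
    (h10 : A 1 0 = B 1 0) (h11 : A 1 1 = B 1 1) : A = B := by
  ext i j
  fin_cases i <;> fin_cases j
  · exact h00
  · exact h01
  · exact h10
  · exact h11

theorem IsEll.entry_ne {g : Matrix.SpecialLinearGroup (Fin 2) F} (hg : IsEll g) :
    (g : Matrix (Fin 2) (Fin 2) F) 1 0 ≠ 0 := by
  intro h10
  have hv : (![1, 0] : Fin 2 → F) ≠ 0 := by
    intro h
    have := congrFun h 0
    simp at this
  apply hg ((g : Matrix (Fin 2) (Fin 2) F) 0 0) ![1, 0] hv
  funext i
  fin_cases i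
  · simp [Matrix.mulVec, dotProduct, Fin.sum_univ_two]
  · simp [Matrix.mulVec, dotProduct, Fin.sum_univ_two, h10]

theorem IsEll.entry_ne' {g : Matrix.SpecialLinearGroup (Fin 2) F} (hg : IsEll g) :
    (g : Matrix (Fin 2) (Fin 2) F) 0 1 ≠ 0 := by
  intro h01
  have hv : (![0, 1] : Fin 2 → F) ≠ 0 := by
    intro h
    have := congrFun h 1
    simp at this
  apply hg ((g : Matrix (Fin 2) (Fin 2) F) 1 1) ![0, 1] hv
  funext i
  fin_cases i
  · simp [Matrix.mulVec, dotProduct, Fin.sum_univ_two, h01]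
  · simp [Matrix.mulVec, dotProduct, Fin.sum_univ_two]

theorem IsEll.charpoly {g : Matrix.SpecialLinearGroup (Fin 2) F} (hg : IsEll g) (c : F) :
    c ^ 2 - ((g : Matrix (Fin 2) (Fin 2) F) 0 0 + (g : Matrix (Fin 2) (Fin 2) F) 1 1) * c + 1
      ≠ 0 :=
  no_eigen_charpoly g hg c

theorem isEll_of_charpoly (g : Matrix.SpecialLinearGroup (Fin 2) F)
    (h : ∀ c : F, c ^ 2 - ((g : Matrix (Fin 2) (Fin 2) F) 0 0 +
      (g : Matrix (Fin 2) (Fin 2) F) 1 1) * c + 1 ≠ 0) : IsEll g := by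
  intro c v hv hgv
  have hdet := g.det_coe
  rw [Matrix.det_fin_two] at hdet
  have h0 := congrFun hgv 0
  have h1 := congrFun hgv 1
  simp only [Matrix.mulVec, dotProduct, Fin.sum_univ_two, Pi.smul_apply, smul_eq_mul] at h0 h1
  have e0 : (c ^ 2 - ((g : Matrix (Fin 2) (Fin 2) F) 0 0 +
      (g : Matrix (Fin 2) (Fin 2) F) 1 1) * c + 1) * v 0 = 0 := by
    linear_combination ((g : Matrix (Fin 2) (Fin 2) F) 1 1 - c) * h0 -
      (g : Matrix (Fin 2) (Fin 2) F) 0 1 * h1 - v 0 * hdet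
  have e1 : (c ^ 2 - ((g : Matrix (Fin 2) (Fin 2) F) 0 0 +
      (g : Matrix (Fin 2) (Fin 2) F) 1 1) * c + 1) * v 1 = 0 := by
    linear_combination ((g : Matrix (Fin 2) (Fin 2) F) 0 0 - c) * h1 -
      (g : Matrix (Fin 2) (Fin 2) F) 1 0 * h0 - v 1 * hdet
  apply hv
  funext i
  fin_cases i
  · exact (mul_eq_zero.mp e0).resolve_left (h c)
  · exact (mul_eq_zero.mp e1).resolve_left (h c)

theorem sl_trace_conj (s g : Matrix.SpecialLinearGroup (Fin 2) F) :
    ((s * g * s⁻¹ : Matrix.SpecialLinearGroup (Fin 2) F) : Matrix (Fin 2) (Fin 2) F) 0 0 +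
      ((s * g * s⁻¹ : Matrix.SpecialLinearGroup (Fin 2) F) : Matrix (Fin 2) (Fin 2) F) 1 1 =
    (g : Matrix (Fin 2) (Fin 2) F) 0 0 + (g : Matrix (Fin 2) (Fin 2) F) 1 1 := by
  have h : Matrix.trace ((s * g * s⁻¹ : Matrix.SpecialLinearGroup (Fin 2) F) :
      Matrix (Fin 2) (Fin 2) F) = Matrix.trace (g : Matrix (Fin 2) (Fin 2) F) := by
    rw [Matrix.SpecialLinearGroup.coe_mul, Matrix.SpecialLinearGroup.coe_mul,
      Matrix.trace_mul_comm, ← Matrix.mul_assoc, ← Matrix.SpecialLinearGroup.coe_mul,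
      inv_mul_cancel, Matrix.SpecialLinearGroup.coe_one, Matrix.one_mul]
  rw [Matrix.trace_fin_two, Matrix.trace_fin_two] at h
  exact h

theorem IsEll.conj {g : Matrix.SpecialLinearGroup (Fin 2) F} (hg : IsEll g)
    (s : Matrix.SpecialLinearGroup (Fin 2) F) : IsEll (s * g * s⁻¹) := by
  apply isEll_of_charpoly
  intro c
  rw [sl_trace_conj]
  exact hg.charpoly c

theorem lin_apply (g : Matrix.SpecialLinearGroup (Fin 2) F) (x y : F) :
    (x • (1 : Matrix (Fin 2) (Fin 2) F) + y • (g : Matrix (Fin 2) (Fin 2) F)) 0 0 =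
        x + y * (g : Matrix (Fin 2) (Fin 2) F) 0 0 ∧
    (x • (1 : Matrix (Fin 2) (Fin 2) F) + y • (g : Matrix (Fin 2) (Fin 2) F)) 0 1 =
        y * (g : Matrix (Fin 2) (Fin 2) F) 0 1 ∧
    (x • (1 : Matrix (Fin 2) (Fin 2) F) + y • (g : Matrix (Fin 2) (Fin 2) F)) 1 0 =
        y * (g : Matrix (Fin 2) (Fin 2) F) 1 0 ∧
    (x • (1 : Matrix (Fin 2) (Fin 2) F) + y • (g : Matrix (Fin 2) (Fin 2) F)) 1 1 =
        x + y * (g : Matrix (Fin 2) (Fin 2) F) 1 1 :=
  ⟨by simp, by simp, by simp, by simp⟩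

theorem det_lin (g : Matrix.SpecialLinearGroup (Fin 2) F) (x y : F) :
    (x • (1 : Matrix (Fin 2) (Fin 2) F) + y • (g : Matrix (Fin 2) (Fin 2) F)).det =
      x ^ 2 + ((g : Matrix (Fin 2) (Fin 2) F) 0 0 + (g : Matrix (Fin 2) (Fin 2) F) 1 1) * x * y
        + y ^ 2 := by
  have hdet := g.det_coe
  rw [Matrix.det_fin_two] at hdet
  obtain ⟨e00, e01, e10, e11⟩ := lin_apply g x y
  rw [Matrix.det_fin_two, e00, e01, e10, e11]
  linear_combination y ^ 2 * hdet

theorem lin_mul (g : Matrix.SpecialLinearGroup (Fin 2) F) (x y x' y' : F) :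
    (x • (1 : Matrix (Fin 2) (Fin 2) F) + y • (g : Matrix (Fin 2) (Fin 2) F)) *
      (x' • (1 : Matrix (Fin 2) (Fin 2) F) + y' • (g : Matrix (Fin 2) (Fin 2) F)) =
    (x * x' - y * y') • (1 : Matrix (Fin 2) (Fin 2) F) +
      (x * y' + x' * y + ((g : Matrix (Fin 2) (Fin 2) F) 0 0 +
        (g : Matrix (Fin 2) (Fin 2) F) 1 1) * y * y') • (g : Matrix (Fin 2) (Fin 2) F) := by
  have hdet := g.det_coe
  rw [Matrix.det_fin_two] at hdet
  obtain ⟨a00, a01, a10, a11⟩ := lin_apply g x y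
  obtain ⟨b00, b01, b10, b11⟩ := lin_apply g x' y'
  obtain ⟨c00, c01, c10, c11⟩ := lin_apply g (x * x' - y * y')
    (x * y' + x' * y + ((g : Matrix (Fin 2) (Fin 2) F) 0 0 +
        (g : Matrix (Fin 2) (Fin 2) F) 1 1) * y * y')
  apply mat2_ext
  · rw [Matrix.mul_apply, Fin.sum_univ_two, a00, a01, b00, b10, c00]
    linear_combination (-y * y') * hdet
  · rw [Matrix.mul_apply, Fin.sum_univ_two, a00, a01, b01, b11, c01]
    ring
  · rw [Matrix.mul_apply, Fin.sum_univ_two, a10, a11, b00, b10, c10]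
    ring
  · rw [Matrix.mul_apply, Fin.sum_univ_two, a10, a11, b01, b11, c11]
    linear_combination (-y * y') * hdet

/-- A matrix commuting with `g` (with `g₁₀ ≠ 0`) is a linear combination of `1` and `g`. -/
theorem comm_eq_lin (g : Matrix.SpecialLinearGroup (Fin 2) F)
    (h10 : (g : Matrix (Fin 2) (Fin 2) F) 1 0 ≠ 0) (M : Matrix (Fin 2) (Fin 2) F)
    (hM : M * (g : Matrix (Fin 2) (Fin 2) F) = (g : Matrix (Fin 2) (Fin 2) F) * M) :
    ∃ x y : F, M = x • (1 : Matrix (Fin 2) (Fin 2) F) + y • (g : Matrix (Fin 2) (Fin 2) F) := by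
  obtain ⟨y, hy⟩ : ∃ y : F, y * (g : Matrix (Fin 2) (Fin 2) F) 1 0 = M 1 0 :=
    ⟨M 1 0 / (g : Matrix (Fin 2) (Fin 2) F) 1 0, div_mul_cancel₀ _ h10⟩
  refine ⟨M 0 0 - y * (g : Matrix (Fin 2) (Fin 2) F) 0 0, y, ?_⟩
  have e00 := congrFun (congrFun hM 0) 0
  have e10 := congrFun (congrFun hM 1) 0
  simp only [Matrix.mul_apply, Fin.sum_univ_two] at e00 e10
  have k01 : M 0 1 = y * (g : Matrix (Fin 2) (Fin 2) F) 0 1 := by
    apply mul_right_cancel₀ h10
    linear_combination e00 - (g : Matrix (Fin 2) (Fin 2) F) 0 1 * hy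
  have k11 : M 1 1 = M 0 0 - y * (g : Matrix (Fin 2) (Fin 2) F) 0 0 +
      y * (g : Matrix (Fin 2) (Fin 2) F) 1 1 := by
    apply mul_right_cancel₀ h10
    linear_combination e10 + ((g : Matrix (Fin 2) (Fin 2) F) 0 0 -
      (g : Matrix (Fin 2) (Fin 2) F) 1 1) * hy
  obtain ⟨c00, c01, c10, c11⟩ := lin_apply g (M 0 0 - y * (g : Matrix (Fin 2) (Fin 2) F) 0 0) y
  apply mat2_ext
  · rw [c00]; ring
  · rw [c01]; exact k01
  · rw [c10]; exact hy.symm
  · rw [c11]; exact k11

theorem norm_ne_zero {g : Matrix.SpecialLinearGroup (Fin 2) F} (hg : IsEll g) (x y : F)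
    (hxy : x ≠ 0 ∨ y ≠ 0) :
    x ^ 2 + ((g : Matrix (Fin 2) (Fin 2) F) 0 0 + (g : Matrix (Fin 2) (Fin 2) F) 1 1) * x * y
        + y ^ 2 ≠ 0 := by
  intro h
  by_cases hy : y = 0
  · rw [hy] at h
    have hx : x ≠ 0 := by
      rcases hxy with h' | h'
      · exact h'
      · exact absurd hy h'
    apply hx
    have h2 : x ^ 2 = 0 := by linear_combination h
    exact pow_eq_zero_iff (two_ne_zero) |>.mp h2
  · obtain ⟨μ, hμ⟩ : ∃ μ : F, μ * y = -x := ⟨-x / y, div_mul_cancel₀ _ hy⟩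
    apply hg.charpoly μ
    have h3 : (μ ^ 2 - ((g : Matrix (Fin 2) (Fin 2) F) 0 0 +
        (g : Matrix (Fin 2) (Fin 2) F) 1 1) * μ + 1) * y ^ 2 = 0 := by
      linear_combination h + (μ * y - x - ((g : Matrix (Fin 2) (Fin 2) F) 0 0 +
        (g : Matrix (Fin 2) (Fin 2) F) 1 1) * y) * hμ
    exact (mul_eq_zero.mp h3).resolve_right (pow_ne_zero 2 hy)

/-- Coordinates of the elements of the centraliser of an element without eigenvector. -/
theorem centralizer_coords {g : Matrix.SpecialLinearGroup (Fin 2) F} (hg : IsEll g)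
    (s : Matrix.SpecialLinearGroup (Fin 2) F) (hs : s * g = g * s) :
    ∃ x y : F, (s : Matrix (Fin 2) (Fin 2) F) =
        x • (1 : Matrix (Fin 2) (Fin 2) F) + y • (g : Matrix (Fin 2) (Fin 2) F) ∧
      x ^ 2 + ((g : Matrix (Fin 2) (Fin 2) F) 0 0 + (g : Matrix (Fin 2) (Fin 2) F) 1 1) * x * y
        + y ^ 2 = 1 := by
  have hM : (s : Matrix (Fin 2) (Fin 2) F) * (g : Matrix (Fin 2) (Fin 2) F) =
      (g : Matrix (Fin 2) (Fin 2) F) * (s : Matrix (Fin 2) (Fin 2) F) := by
    rw [← Matrix.SpecialLinearGroup.coe_mul, ← Matrix.SpecialLinearGroup.coe_mul, hs]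
  obtain ⟨x, y, hxy⟩ := comm_eq_lin g hg.entry_ne _ hM
  refine ⟨x, y, hxy, ?_⟩
  rw [← det_lin g x y, ← hxy]
  exact s.det_coe

/-- Elements of the centraliser of an element without eigenvector which are not scalar have no
eigenvector. -/
theorem isEll_of_centralizer {g : Matrix.SpecialLinearGroup (Fin 2) F} (hg : IsEll g)
    (s : Matrix.SpecialLinearGroup (Fin 2) F) (hs : s * g = g * s)
    (hne : (s : Matrix (Fin 2) (Fin 2) F) 1 0 ≠ 0) : IsEll s := by
  obtain ⟨x, y, hxy, hn⟩ := centralizer_coords hg s hs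
  obtain ⟨e00, e01, e10, e11⟩ := lin_apply g x y
  rw [← hxy] at e00 e01 e10 e11
  have hy : y ≠ 0 := by
    rintro rfl
    apply hne
    rw [e10, zero_mul]
  apply isEll_of_charpoly
  intro l hl
  rw [e00, e11] at hl
  obtain ⟨μ, hμ⟩ : ∃ μ : F, μ * y = l - x := ⟨(l - x) / y, div_mul_cancel₀ _ hy⟩
  apply hg.charpoly μ
  have h3 : (μ ^ 2 - ((g : Matrix (Fin 2) (Fin 2) F) 0 0 +
      (g : Matrix (Fin 2) (Fin 2) F) 1 1) * μ + 1) * y ^ 2 = 0 := by
    linear_combination hl + (μ * y + l - x - ((g : Matrix (Fin 2) (Fin 2) F) 0 0 +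
      (g : Matrix (Fin 2) (Fin 2) F) 1 1) * y) * hμ + hn
  exact (mul_eq_zero.mp h3).resolve_right (pow_ne_zero 2 hy)

/-- The only involution of `SL₂` in odd characteristic. -/
theorem involution_eq (h2 : (2 : F) ≠ 0) (s : Matrix.SpecialLinearGroup (Fin 2) F)
    (hs : s * s = 1) (hne : s ≠ 1) : s = sBorelMat (-1) 0 := by
  have hinv : s⁻¹ = s := inv_eq_of_mul_eq_one_right hs
  have hM : Matrix.adjugate (s : Matrix (Fin 2) (Fin 2) F) = (s : Matrix (Fin 2) (Fin 2) F) := by
    rw [← Matrix.SpecialLinearGroup.coe_inv, hinv]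
  have a00 : Matrix.adjugate (s : Matrix (Fin 2) (Fin 2) F) 0 0 =
      (s : Matrix (Fin 2) (Fin 2) F) 1 1 := by
    rw [Matrix.adjugate_fin_two]; rfl
  have a01 : Matrix.adjugate (s : Matrix (Fin 2) (Fin 2) F) 0 1 =
      -(s : Matrix (Fin 2) (Fin 2) F) 0 1 := by
    rw [Matrix.adjugate_fin_two]; rfl
  have a10 : Matrix.adjugate (s : Matrix (Fin 2) (Fin 2) F) 1 0 =
      -(s : Matrix (Fin 2) (Fin 2) F) 1 0 := by
    rw [Matrix.adjugate_fin_two]; rfl
  rw [hM] at a00 a01 a10
  have h01 : (s : Matrix (Fin 2) (Fin 2) F) 0 1 = 0 := by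
    have : (2 : F) * (s : Matrix (Fin 2) (Fin 2) F) 0 1 = 0 := by linear_combination a01
    exact (mul_eq_zero.mp this).resolve_left h2
  have h10 : (s : Matrix (Fin 2) (Fin 2) F) 1 0 = 0 := by
    have : (2 : F) * (s : Matrix (Fin 2) (Fin 2) F) 1 0 = 0 := by linear_combination a10
    exact (mul_eq_zero.mp this).resolve_left h2
  have hdet := s.det_coe
  rw [Matrix.det_fin_two, h01, zero_mul, sub_zero, ← a00] at hdet
  have hcases : ((s : Matrix (Fin 2) (Fin 2) F) 0 0 - 1) *
      ((s : Matrix (Fin 2) (Fin 2) F) 0 0 + 1) = 0 := by linear_combination hdet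
  rcases mul_eq_zero.mp hcases with h | h
  · exfalso
    apply hne
    apply Subtype.ext
    rw [Matrix.SpecialLinearGroup.coe_one]
    apply mat2_ext
    · rw [Matrix.one_apply_eq]; exact sub_eq_zero.mp h
    · rw [Matrix.one_apply_ne (by decide)]; exact h01
    · rw [Matrix.one_apply_ne (by decide)]; exact h10
    · rw [Matrix.one_apply_eq, ← a00]; exact sub_eq_zero.mp h
  · have h00 : (s : Matrix (Fin 2) (Fin 2) F) 0 0 = -1 := eq_neg_of_add_eq_zero_left h
    apply Subtype.ext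
    rw [sBorelMat_coe]
    apply mat2_ext
    · show (s : Matrix (Fin 2) (Fin 2) F) 0 0 = ((-1 : Fˣ) : F)
      rw [h00]; simp
    · exact h01
    · exact h10
    · show (s : Matrix (Fin 2) (Fin 2) F) 1 1 = (((-1 : Fˣ)⁻¹ : Fˣ) : F)
      rw [← a00, h00]; simp

/-- Two elements of the centraliser of an element without eigenvector with the same trace are
equal or inverse to each other. -/
theorem torus_trace_eq (h2 : (2 : F) ≠ 0) {g : Matrix.SpecialLinearGroup (Fin 2) F}
    (hg : IsEll g) (s s' : Matrix.SpecialLinearGroup (Fin 2) F) (hs : s * g = g * s)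
    (hs' : s' * g = g * s')
    (htr : (s : Matrix (Fin 2) (Fin 2) F) 0 0 + (s : Matrix (Fin 2) (Fin 2) F) 1 1 =
      (s' : Matrix (Fin 2) (Fin 2) F) 0 0 + (s' : Matrix (Fin 2) (Fin 2) F) 1 1) :
    s' = s ∨ s' = s⁻¹ := by
  obtain ⟨x, y, hxy, hn⟩ := centralizer_coords hg s hs
  obtain ⟨x', y', hxy', hn'⟩ := centralizer_coords hg s' hs'
  obtain ⟨e00, e01, e10, e11⟩ := lin_apply g x y
  obtain ⟨f00, f01, f10, f11⟩ := lin_apply g x' y'
  rw [← hxy] at e00 e01 e10 e11
  rw [← hxy'] at f00 f01 f10 f11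
  obtain ⟨τ, hτ⟩ : ∃ τ : F, τ = (g : Matrix (Fin 2) (Fin 2) F) 0 0 +
      (g : Matrix (Fin 2) (Fin 2) F) 1 1 := ⟨_, rfl⟩
  rw [← hτ] at hn hn'
  have ht : 2 * x + y * τ = 2 * x' + y' * τ := by
    rw [e00, e11, f00, f11] at htr
    rw [hτ]
    linear_combination htr
  have h4 : (4 : F) ≠ 0 := by
    have : (4 : F) = 2 * 2 := by norm_num
    rw [this]
    exact mul_ne_zero h2 h2
  have hD : (4 - τ ^ 2 : F) ≠ 0 := by
    intro h
    obtain ⟨c, hc⟩ : ∃ c : F, 2 * c = τ := ⟨τ / 2, by field_simp⟩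
    have hcp := hg.charpoly c
    rw [← hτ, ← hc] at hcp
    rw [← hc] at h
    have h4' : (4 : F) * (c ^ 2 - 2 * c * c + 1) = 0 := by linear_combination h
    rcases mul_eq_zero.mp h4' with h5 | h5
    · exact h4 h5
    · exact hcp h5
  have hyy : (4 - τ ^ 2) * ((y' - y) * (y' + y)) = 0 := by
    linear_combination 4 * hn' - 4 * hn + (2 * x + y * τ + 2 * x' + y' * τ) * ht
  rcases mul_eq_zero.mp ((mul_eq_zero.mp hyy).resolve_left hD) with h5 | h5
  · left
    have hy : y' = y := sub_eq_zero.mp h5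
    have hx : x' = x := by
      rw [hy] at ht
      have : (2 : F) * (x' - x) = 0 := by linear_combination -ht
      exact sub_eq_zero.mp ((mul_eq_zero.mp this).resolve_left h2)
    apply Subtype.ext
    rw [hxy, hxy', hx, hy]
  · right
    have hy : y' = -y := eq_neg_of_add_eq_zero_left h5
    have hx : x' = x + y * τ := by
      rw [hy] at ht
      have : (2 : F) * (x' - (x + y * τ)) = 0 := by linear_combination -ht
      exact sub_eq_zero.mp ((mul_eq_zero.mp this).resolve_left h2)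
    apply Subtype.ext
    rw [Matrix.SpecialLinearGroup.coe_inv, Matrix.adjugate_fin_two]
    apply mat2_ext
    · show (s' : Matrix (Fin 2) (Fin 2) F) 0 0 = (s : Matrix (Fin 2) (Fin 2) F) 1 1
      rw [f00, e11, hx, hy, hτ]; ring
    · show (s' : Matrix (Fin 2) (Fin 2) F) 0 1 = -(s : Matrix (Fin 2) (Fin 2) F) 0 1
      rw [f01, e01, hy]; ring
    · show (s' : Matrix (Fin 2) (Fin 2) F) 1 0 = -(s : Matrix (Fin 2) (Fin 2) F) 1 0
      rw [f10, e10, hy]; ring
    · show (s' : Matrix (Fin 2) (Fin 2) F) 1 1 = (s : Matrix (Fin 2) (Fin 2) F) 0 0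
      rw [f11, e00, hx, hy, hτ]; ring

end TorusAlg

section TorusCount

variable {F : Type*} [Field F] [Fintype F] [DecidableEq F]

/-- The centraliser in `GL₂(q)` of an element of `SL₂(q)` without eigenvector has order
`q² - 1`. -/
theorem card_centralizer_GL {g : Matrix.SpecialLinearGroup (Fin 2) F} (hg : IsEll g) :
    Nat.card (Subgroup.centralizer ({Matrix.SpecialLinearGroup.toGL g} :
      Set (Matrix.GeneralLinearGroup (Fin 2) F))) = Fintype.card F ^ 2 - 1 := by
  classical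
  have hne : ∀ p : {p : F × F // p ≠ 0},
      (p.1.1 • (1 : Matrix (Fin 2) (Fin 2) F) +
        p.1.2 • (g : Matrix (Fin 2) (Fin 2) F)).det ≠ 0 := by
    rintro ⟨⟨x, y⟩, hp⟩
    rw [det_lin]
    apply norm_ne_zero hg
    by_contra hcon
    apply hp
    have hx : x = 0 := by
      by_contra h
      exact hcon (Or.inl h)
    have hy : y = 0 := by
      by_contra h
      exact hcon (Or.inr h)
    rw [hx, hy]
    rfl
  have hmem : ∀ p : {p : F × F // p ≠ 0},
      Matrix.GeneralLinearGroup.mkOfDetNeZero _ (hne p) ∈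
        Subgroup.centralizer ({Matrix.SpecialLinearGroup.toGL g} :
          Set (Matrix.GeneralLinearGroup (Fin 2) F)) := by
    intro p
    rw [Subgroup.mem_centralizer_singleton_iff]
    apply Units.ext
    show (p.1.1 • (1 : Matrix (Fin 2) (Fin 2) F) + p.1.2 • (g : Matrix (Fin 2) (Fin 2) F)) *
        (g : Matrix (Fin 2) (Fin 2) F) = (g : Matrix (Fin 2) (Fin 2) F) *
        (p.1.1 • (1 : Matrix (Fin 2) (Fin 2) F) + p.1.2 • (g : Matrix (Fin 2) (Fin 2) F))
    rw [add_mul, mul_add, Matrix.smul_mul, Matrix.mul_smul, Matrix.smul_mul, Matrix.mul_smul,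
      one_mul, mul_one]
  have hbij : Function.Bijective (fun p : {p : F × F // p ≠ 0} =>
      (⟨Matrix.GeneralLinearGroup.mkOfDetNeZero _ (hne p), hmem p⟩ :
        Subgroup.centralizer ({Matrix.SpecialLinearGroup.toGL g} :
          Set (Matrix.GeneralLinearGroup (Fin 2) F)))) := by
    constructor
    · rintro ⟨⟨x, y⟩, hp⟩ ⟨⟨x', y'⟩, hp'⟩ h
      have h' : (x • (1 : Matrix (Fin 2) (Fin 2) F) + y • (g : Matrix (Fin 2) (Fin 2) F)) =
          x' • (1 : Matrix (Fin 2) (Fin 2) F) + y' • (g : Matrix (Fin 2) (Fin 2) F) := by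
        have := congrArg (fun k : Subgroup.centralizer ({Matrix.SpecialLinearGroup.toGL g} :
          Set (Matrix.GeneralLinearGroup (Fin 2) F)) =>
            ((k : Matrix.GeneralLinearGroup (Fin 2) F) : Matrix (Fin 2) (Fin 2) F)) h
        exact this
      have e10 := congrFun (congrFun h' 1) 0
      have e00 := congrFun (congrFun h' 0) 0
      rw [(lin_apply g x y).2.2.1, (lin_apply g x' y').2.2.1] at e10
      rw [(lin_apply g x y).1, (lin_apply g x' y').1] at e00
      have hy : y = y' := mul_right_cancel₀ hg.entry_ne e10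
      have hx : x = x' := by
        rw [hy] at e00
        exact add_right_cancel e00
      apply Subtype.ext
      show (x, y) = (x', y')
      rw [hx, hy]
    · rintro ⟨k, hk⟩
      rw [Subgroup.mem_centralizer_singleton_iff] at hk
      have hM : (k : Matrix (Fin 2) (Fin 2) F) * (g : Matrix (Fin 2) (Fin 2) F) =
          (g : Matrix (Fin 2) (Fin 2) F) * (k : Matrix (Fin 2) (Fin 2) F) := by
        have := congrArg (fun k : Matrix.GeneralLinearGroup (Fin 2) F =>
          (k : Matrix (Fin 2) (Fin 2) F)) hk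
        exact this
      obtain ⟨x, y, hxy⟩ := comm_eq_lin g hg.entry_ne _ hM
      have hp : ((x, y) : F × F) ≠ 0 := by
        intro h
        have hx : x = 0 := congrArg Prod.fst h
        have hy : y = 0 := congrArg Prod.snd h
        rw [hx, hy, zero_smul, zero_smul, add_zero] at hxy
        have hdet : (k : Matrix (Fin 2) (Fin 2) F).det ≠ 0 :=
          ((Matrix.isUnit_iff_isUnit_det _).mp (Units.isUnit _)).ne_zero
        rw [hxy, Matrix.det_zero] at hdet
        exact hdet rfl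
      refine ⟨⟨(x, y), hp⟩, ?_⟩
      apply Subtype.ext
      apply Units.ext
      exact hxy.symm
  rw [← Nat.card_congr (Equiv.ofBijective _ hbij), Nat.card_eq_fintype_card,
    Fintype.card_subtype_compl, Fintype.card_subtype_eq, Fintype.card_prod, sq]

/-- The centraliser in `SL₂(q)`, `q` odd, of an element without eigenvector has order
`q + 1`. -/
theorem card_centralizer_SL (hodd : Odd (Fintype.card F))
    {g : Matrix.SpecialLinearGroup (Fin 2) F} (hg : IsEll g) :
    Nat.card (Subgroup.centralizer ({g} : Set (Matrix.SpecialLinearGroup (Fin 2) F))) =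
      Fintype.card F + 1 := by
  classical
  obtain ⟨K, hKdef⟩ : ∃ K : Subgroup (Matrix.GeneralLinearGroup (Fin 2) F),
      K = Subgroup.centralizer ({Matrix.SpecialLinearGroup.toGL g} :
        Set (Matrix.GeneralLinearGroup (Fin 2) F)) := ⟨_, rfl⟩
  have hK : Nat.card K = Fintype.card F ^ 2 - 1 := by
    rw [hKdef]
    exact card_centralizer_GL hg
  obtain ⟨φ, hφdef⟩ : ∃ φ : K →* Fˣ, φ = Matrix.GeneralLinearGroup.det.comp K.subtype :=
    ⟨_, rfl⟩
  have hφ : ∀ k : K, φ k =
      Matrix.GeneralLinearGroup.det (k : Matrix.GeneralLinearGroup (Fin 2) F) := by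
    intro k
    rw [hφdef]
    rfl
  have hsurj : Function.Surjective φ := by
    intro t
    obtain ⟨x, y, hxy⟩ := norm_elliptic hodd g hg t
    obtain ⟨c, hc, hdet⟩ := centralizer_of_norm g t x y hxy
    refine ⟨⟨c, ?_⟩, ?_⟩
    · rw [hKdef, Subgroup.mem_centralizer_singleton_iff]
      exact hc
    · rw [hφ]
      exact hdet
  have h1 : Nat.card φ.ker * (Fintype.card F - 1) = Fintype.card F ^ 2 - 1 := by
    have := Subgroup.card_mul_index φ.ker
    rw [Subgroup.index_ker, MonoidHom.range_eq_top.mpr hsurj, Subgroup.card_top, hK,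
      Nat.card_eq_fintype_card (α := Fˣ), Fintype.card_units] at this
    exact this
  have h2 : Nat.card (Subgroup.centralizer ({g} :
      Set (Matrix.SpecialLinearGroup (Fin 2) F))) = Nat.card φ.ker := by
    have hmem1 : ∀ s : Subgroup.centralizer ({g} : Set (Matrix.SpecialLinearGroup (Fin 2) F)),
        Matrix.SpecialLinearGroup.toGL (s : Matrix.SpecialLinearGroup (Fin 2) F) ∈ K := by
      intro s
      have hs := Subgroup.mem_centralizer_singleton_iff.mp s.2
      rw [hKdef, Subgroup.mem_centralizer_singleton_iff, ← map_mul, ← map_mul, hs]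
    have hmem2 : ∀ s : Subgroup.centralizer ({g} : Set (Matrix.SpecialLinearGroup (Fin 2) F)),
        (⟨Matrix.SpecialLinearGroup.toGL (s : Matrix.SpecialLinearGroup (Fin 2) F), hmem1 s⟩ : K)
          ∈ φ.ker := by
      intro s
      rw [MonoidHom.mem_ker, hφ]
      apply Units.ext
      exact (s : Matrix.SpecialLinearGroup (Fin 2) F).det_coe
    apply Nat.card_congr
    refine Equiv.ofBijective (fun s => (⟨⟨Matrix.SpecialLinearGroup.toGL
      (s : Matrix.SpecialLinearGroup (Fin 2) F), hmem1 s⟩, hmem2 s⟩ : φ.ker)) ⟨?_, ?_⟩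
    · intro s s' h
      have h' : Matrix.SpecialLinearGroup.toGL (s : Matrix.SpecialLinearGroup (Fin 2) F) =
          Matrix.SpecialLinearGroup.toGL (s' : Matrix.SpecialLinearGroup (Fin 2) F) :=
        congrArg (fun k : φ.ker => ((k : K) : Matrix.GeneralLinearGroup (Fin 2) F)) h
      exact Subtype.ext (Matrix.SpecialLinearGroup.toGL_injective h')
    · rintro ⟨⟨k, hkK⟩, hker⟩
      rw [MonoidHom.mem_ker, hφ] at hker
      obtain ⟨s, hs⟩ := exists_toGL_eq_of_det k hker
      have hsg : s * g = g * s := by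
        apply Matrix.SpecialLinearGroup.toGL_injective
        rw [map_mul, map_mul, hs]
        rw [hKdef, Subgroup.mem_centralizer_singleton_iff] at hkK
        exact hkK
      refine ⟨⟨s, Subgroup.mem_centralizer_singleton_iff.mpr hsg⟩, ?_⟩
      apply Subtype.ext
      apply Subtype.ext
      exact hs
  rw [h2]
  have hq1 : 1 < Fintype.card F := Fintype.one_lt_card
  have h3 : Fintype.card F ^ 2 - 1 = (Fintype.card F + 1) * (Fintype.card F - 1) := by
    obtain ⟨n, hn⟩ : ∃ n, Fintype.card F = n + 1 := ⟨Fintype.card F - 1, by omega⟩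
    rw [hn, Nat.add_sub_cancel]
    have : (n + 1) ^ 2 = (n + 1 + 1) * n + 1 := by ring
    omega
  rw [h3] at h1
  exact Nat.eq_of_mul_eq_mul_right (by omega) h1

/-- The centraliser in `SL₂(q)` of an element without eigenvector is cyclic. -/
theorem isCyclic_centralizer {g : Matrix.SpecialLinearGroup (Fin 2) F} (hg : IsEll g) :
    IsCyclic (Subgroup.centralizer ({g} : Set (Matrix.SpecialLinearGroup (Fin 2) F))) := by
  classical
  obtain ⟨τ, hτ⟩ : ∃ τ : F, τ = (g : Matrix (Fin 2) (Fin 2) F) 0 0 +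
      (g : Matrix (Fin 2) (Fin 2) F) 1 1 := ⟨_, rfl⟩
  obtain ⟨ι, hι⟩ : ∃ ι : F →+* AlgebraicClosure F, ι = algebraMap F (AlgebraicClosure F) :=
    ⟨_, rfl⟩
  have hιinj : Function.Injective ι := ι.injective
  have hdeg : (Polynomial.C (1 : AlgebraicClosure F) * Polynomial.X ^ 2 +
      Polynomial.C (-(ι τ)) * Polynomial.X + Polynomial.C 1 :
      Polynomial (AlgebraicClosure F)).degree = 2 := Polynomial.degree_quadratic one_ne_zero
  obtain ⟨μ, hμ⟩ := IsAlgClosed.exists_root (Polynomial.C (1 : AlgebraicClosure F) *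
      Polynomial.X ^ 2 + Polynomial.C (-(ι τ)) * Polynomial.X + Polynomial.C 1)
    (by rw [hdeg]; norm_num)
  have hμ' : μ ^ 2 - ι τ * μ + 1 = 0 := by
    rw [Polynomial.IsRoot.def] at hμ
    simp only [Polynomial.eval_add, Polynomial.eval_mul, Polynomial.eval_C, Polynomial.eval_pow,
      Polynomial.eval_X] at hμ
    linear_combination hμ
  obtain ⟨Φ, hΦ⟩ : ∃ Φ : Matrix.SpecialLinearGroup (Fin 2) F → AlgebraicClosure F,
      Φ = fun c : Matrix.SpecialLinearGroup (Fin 2) F => ι ((c : Matrix (Fin 2) (Fin 2) F) 0 0 -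
        (c : Matrix (Fin 2) (Fin 2) F) 1 0 / (g : Matrix (Fin 2) (Fin 2) F) 1 0 *
          (g : Matrix (Fin 2) (Fin 2) F) 0 0) +
        ι ((c : Matrix (Fin 2) (Fin 2) F) 1 0 / (g : Matrix (Fin 2) (Fin 2) F) 1 0) * μ :=
    ⟨_, rfl⟩
  have hcoord : ∀ (s : Matrix.SpecialLinearGroup (Fin 2) F) (x y : F),
      (s : Matrix (Fin 2) (Fin 2) F) =
        x • (1 : Matrix (Fin 2) (Fin 2) F) + y • (g : Matrix (Fin 2) (Fin 2) F) →
      Φ s = ι x + ι y * μ := by
    intro s x y hs
    have e10 : (s : Matrix (Fin 2) (Fin 2) F) 1 0 = y * (g : Matrix (Fin 2) (Fin 2) F) 1 0 := by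
      rw [hs]
      exact (lin_apply g x y).2.2.1
    have e00 : (s : Matrix (Fin 2) (Fin 2) F) 0 0 =
        x + y * (g : Matrix (Fin 2) (Fin 2) F) 0 0 := by
      rw [hs]
      exact (lin_apply g x y).1
    rw [hΦ]
    show ι ((s : Matrix (Fin 2) (Fin 2) F) 0 0 -
        (s : Matrix (Fin 2) (Fin 2) F) 1 0 / (g : Matrix (Fin 2) (Fin 2) F) 1 0 *
          (g : Matrix (Fin 2) (Fin 2) F) 0 0) +
        ι ((s : Matrix (Fin 2) (Fin 2) F) 1 0 / (g : Matrix (Fin 2) (Fin 2) F) 1 0) * μ = _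
    rw [e10, e00, mul_div_cancel_right₀ _ hg.entry_ne, add_sub_cancel_right]
  have hC : ∀ s : Subgroup.centralizer ({g} : Set (Matrix.SpecialLinearGroup (Fin 2) F)),
      ∃ x y : F, ((s : Matrix.SpecialLinearGroup (Fin 2) F) : Matrix (Fin 2) (Fin 2) F) =
        x • (1 : Matrix (Fin 2) (Fin 2) F) + y • (g : Matrix (Fin 2) (Fin 2) F) := by
    intro s
    obtain ⟨x, y, h, _⟩ := centralizer_coords hg s
      (Subgroup.mem_centralizer_singleton_iff.mp s.2)
    exact ⟨x, y, h⟩
  have h1 : Φ 1 = 1 := by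
    rw [hcoord 1 1 0 (by rw [Matrix.SpecialLinearGroup.coe_one, one_smul, zero_smul, add_zero]),
      map_one, map_zero, zero_mul, add_zero]
  have hmul : ∀ s s' : Subgroup.centralizer ({g} : Set (Matrix.SpecialLinearGroup (Fin 2) F)),
      Φ ((s * s' : Subgroup.centralizer ({g} : Set (Matrix.SpecialLinearGroup (Fin 2) F))) :
        Matrix.SpecialLinearGroup (Fin 2) F) =
      Φ (s : Matrix.SpecialLinearGroup (Fin 2) F) *
        Φ (s' : Matrix.SpecialLinearGroup (Fin 2) F) := by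
    intro s s'
    obtain ⟨x, y, hs⟩ := hC s
    obtain ⟨x', y', hs'⟩ := hC s'
    have hprod : (((s * s' : Subgroup.centralizer ({g} :
        Set (Matrix.SpecialLinearGroup (Fin 2) F))) : Matrix.SpecialLinearGroup (Fin 2) F) :
        Matrix (Fin 2) (Fin 2) F) = (x * x' - y * y') • (1 : Matrix (Fin 2) (Fin 2) F) +
          (x * y' + x' * y + τ * y * y') • (g : Matrix (Fin 2) (Fin 2) F) := by
      rw [Subgroup.coe_mul, Matrix.SpecialLinearGroup.coe_mul, hs, hs', lin_mul, hτ]
    rw [hcoord _ _ _ hprod, hcoord _ _ _ hs, hcoord _ _ _ hs']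
    simp only [map_sub, map_add, map_mul]
    linear_combination (-(ι y * ι y')) * hμ'
  have hinj : Function.Injective (fun s : Subgroup.centralizer ({g} :
      Set (Matrix.SpecialLinearGroup (Fin 2) F)) =>
        Φ (s : Matrix.SpecialLinearGroup (Fin 2) F)) := by
    intro s s' h
    obtain ⟨x, y, hs⟩ := hC s
    obtain ⟨x', y', hs'⟩ := hC s'
    have h' : ι x + ι y * μ = ι x' + ι y' * μ := by
      rw [← hcoord _ _ _ hs, ← hcoord _ _ _ hs']
      exact h
    have hy : y = y' := by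
      by_contra hne
      have hne' : y - y' ≠ 0 := sub_ne_zero.mpr hne
      obtain ⟨e, he⟩ : ∃ e : F, e * (y - y') = x' - x :=
        ⟨(x' - x) / (y - y'), div_mul_cancel₀ _ hne'⟩
      have hμe : μ = ι e := by
        have h3 : (μ - ι e) * ι (y - y') = 0 := by
          have he' := congrArg ι he
          rw [map_mul] at he'
          simp only [map_sub] at he' ⊢
          linear_combination h' - he'
        rcases mul_eq_zero.mp h3 with h4 | h4
        · exact sub_eq_zero.mp h4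
        · exact absurd (hιinj (h4.trans (map_zero ι).symm)) hne'
      apply hg.charpoly e
      apply hιinj
      rw [map_zero, ← hτ]
      simp only [map_add, map_sub, map_mul, map_pow, map_one]
      rw [← hμe]
      exact hμ'
    have hx : x = x' := by
      rw [hy] at h'
      exact hιinj (add_right_cancel h')
    apply Subtype.ext
    apply Subtype.ext
    rw [hs, hs', hx, hy]
  exact isCyclic_of_injective_ringHom
    ({ toFun := fun s => Φ (s : Matrix.SpecialLinearGroup (Fin 2) F)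
       map_one' := h1
       map_mul' := hmul } : Subgroup.centralizer ({g} :
        Set (Matrix.SpecialLinearGroup (Fin 2) F)) →* AlgebraicClosure F) hinj

/-- A generator of the centraliser of an element without eigenvector. -/
theorem exists_torus_generator (hodd : Odd (Fintype.card F))
    {g : Matrix.SpecialLinearGroup (Fin 2) F} (hg : IsEll g) :
    ∃ c₀ : Matrix.SpecialLinearGroup (Fin 2) F, orderOf c₀ = Fintype.card F + 1 ∧
      (∀ c : Matrix.SpecialLinearGroup (Fin 2) F, c * g = g * c ↔ c ∈ Subgroup.zpowers c₀) ∧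
      c₀ ^ ((Fintype.card F + 1) / 2) = sBorelMat (-1) 0 := by
  haveI := isCyclic_centralizer hg
  obtain ⟨⟨c₀, hc₀⟩, hgen⟩ := IsCyclic.exists_generator
    (α := Subgroup.centralizer ({g} : Set (Matrix.SpecialLinearGroup (Fin 2) F)))
  have hord : orderOf c₀ = Fintype.card F + 1 := by
    rw [← card_centralizer_SL hodd hg, ← orderOf_eq_card_of_forall_mem_zpowers hgen,
      Subgroup.orderOf_mk]
  refine ⟨c₀, hord, ?_, ?_⟩
  · intro c
    constructor
    · intro hc
      have hmem : c ∈ Subgroup.centralizer ({g} : Set (Matrix.SpecialLinearGroup (Fin 2) F)) :=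
        Subgroup.mem_centralizer_singleton_iff.mpr hc
      obtain ⟨k, hk⟩ := Subgroup.mem_zpowers_iff.mp (hgen ⟨c, hmem⟩)
      rw [Subgroup.mem_zpowers_iff]
      refine ⟨k, ?_⟩
      have := congrArg Subtype.val hk
      rw [Subgroup.coe_zpow] at this
      exact this
    · intro hc
      have h1 : Subgroup.zpowers c₀ ≤
          Subgroup.centralizer ({g} : Set (Matrix.SpecialLinearGroup (Fin 2) F)) := by
        rw [Subgroup.zpowers_le]
        exact hc₀
      exact Subgroup.mem_centralizer_singleton_iff.mp (h1 hc)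
  · have h2F := two_ne_zero_of_odd_card hodd
    obtain ⟨k, hk⟩ := hodd
    have hh : (Fintype.card F + 1) / 2 = k + 1 := by omega
    apply involution_eq h2F
    · rw [← pow_add, hh]
      have : k + 1 + (k + 1) = orderOf c₀ := by omega
      rw [this, pow_orderOf_eq_one]
    · intro h
      have := orderOf_le_of_pow_eq_one (by omega) h
      omega

/-- Class functions take the same value at an element without eigenvector and at its
inverse. -/
theorem cf_inv_of_isEll (hodd : Odd (Fintype.card F))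
    {θ : Matrix.SpecialLinearGroup (Fin 2) F → ℂ}
    (hθ : IsClassFunction (Matrix.SpecialLinearGroup (Fin 2) F) θ)
    {c : Matrix.SpecialLinearGroup (Fin 2) F} (hc : IsEll c) : θ c⁻¹ = θ c := by
  have h10 := hc.entry_ne
  have h01 := hc.entry_ne'
  have hdetx : (!![0, (c : Matrix (Fin 2) (Fin 2) F) 0 1;
      -(c : Matrix (Fin 2) (Fin 2) F) 1 0, 0] : Matrix (Fin 2) (Fin 2) F).det ≠ 0 := by
    rw [Matrix.det_fin_two_of]
    simp [h01, h10]
  obtain ⟨x, hx⟩ : ∃ x : Matrix.GeneralLinearGroup (Fin 2) F,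
      (x : Matrix (Fin 2) (Fin 2) F) = !![0, (c : Matrix (Fin 2) (Fin 2) F) 0 1;
        -(c : Matrix (Fin 2) (Fin 2) F) 1 0, 0] :=
    ⟨Matrix.GeneralLinearGroup.mkOfDetNeZero _ hdetx, rfl⟩
  have hconj : cxS x c = c⁻¹ := by
    apply Matrix.SpecialLinearGroup.toGL_injective
    rw [toGL_cxS, mul_inv_eq_iff_eq_mul]
    apply Units.ext
    show (x : Matrix (Fin 2) (Fin 2) F) * (c : Matrix (Fin 2) (Fin 2) F) =
      ((c⁻¹ : Matrix.SpecialLinearGroup (Fin 2) F) : Matrix (Fin 2) (Fin 2) F) *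
        (x : Matrix (Fin 2) (Fin 2) F)
    rw [hx, Matrix.SpecialLinearGroup.coe_inv, Matrix.adjugate_fin_two]
    apply mat2_ext <;> simp [Matrix.mul_apply, Fin.sum_univ_two] <;> ring
  obtain ⟨xx, yy, hxy⟩ := norm_elliptic hodd c hc (Matrix.GeneralLinearGroup.det x)
  obtain ⟨k, hk, hdet⟩ := centralizer_of_norm c _ xx yy hxy
  rw [← hconj]
  exact cf_cxS_of_comm hθ x k c hk hdet

end TorusCount

end Cfsg.Agent.Helper13
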