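import Mathlib
import Cfsg.Agent.Helper13.SL2Torus

/-!
# Sums of class functions of `SL₂(q)` over the elements without eigenvector
-/

set_option autoImplicit false

namespace Cfsg.Agent.Helper13

open Cfsg
open scoped ComplexConjugate

section EllSum

variable {F : Type*} [Field F] [Fintype F] [DecidableEq F]

theorem sBorelMat_one_zero : sBorelMat (1 : Fˣ) (0 : F) = 1 := by
  apply Subtype.ext
  rw [sBorelMat_coe, Matrix.SpecialLinearGroup.coe_one]
  apply mat2_ext <;> simp

theorem neg_one_units_inv : ((-1 : Fˣ))⁻¹ = -1 := by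
  apply inv_eq_of_mul_eq_one_right
  simp

/-- An upper triangular element with distinct eigenvalues is conjugate to a diagonal one. -/
theorem sBorelMat_conj_diag (a : Fˣ) (c : F) (ha : (a : F) ^ 2 ≠ 1) :
    ∃ s : Matrix.SpecialLinearGroup (Fin 2) F, s * sBorelMat a c * s⁻¹ = sBorelMat a 0 := by
  have ha0 : (a : F) ≠ 0 := a.ne_zero
  have hainv : ((a⁻¹ : Fˣ) : F) = (a : F)⁻¹ := Units.val_inv_eq_inv_val a
  have h1 : (a : F) * (a : F)⁻¹ = 1 := mul_inv_cancel₀ ha0
  have hne : (a : F) - (a : F)⁻¹ ≠ 0 := by
    intro h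
    apply ha
    have h2 : (a : F) ^ 2 - 1 = (a : F) * ((a : F) - (a : F)⁻¹) := by linear_combination h1
    rw [h, mul_zero] at h2
    exact sub_eq_zero.mp h2
  obtain ⟨t, ht⟩ : ∃ t : F, t * ((a : F) - (a : F)⁻¹) = c := ⟨c / _, div_mul_cancel₀ _ hne⟩
  refine ⟨sBorelMat 1 t, ?_⟩
  rw [mul_inv_eq_iff_eq_mul]
  apply Subtype.ext
  rw [Matrix.SpecialLinearGroup.coe_mul, Matrix.SpecialLinearGroup.coe_mul, sBorelMat_coe,
    sBorelMat_coe, sBorelMat_coe, hainv]
  apply mat2_ext
  · simp [Matrix.mul_apply, Fin.sum_univ_two]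
  · simp [Matrix.mul_apply, Fin.sum_univ_two]
    linear_combination -ht
  · simp [Matrix.mul_apply, Fin.sum_univ_two]
  · simp [Matrix.mul_apply, Fin.sum_univ_two]

/-- The sum of a class function vanishing at the split regular elements over the elements
without eigenvector. -/
theorem sum_elliptic (hodd : Odd (Fintype.card F))
    [DecidablePred (fun g : Matrix.SpecialLinearGroup (Fin 2) F => IsEll g)]
    {f : Matrix.SpecialLinearGroup (Fin 2) F → ℂ}
    (hf : IsClassFunction (Matrix.SpecialLinearGroup (Fin 2) F) f)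
    (hsplit : ∀ g : Matrix.SpecialLinearGroup (Fin 2) F,
      (g : Matrix (Fin 2) (Fin 2) F) 0 1 = 0 → (g : Matrix (Fin 2) (Fin 2) F) 1 0 = 0 →
      (g : Matrix (Fin 2) (Fin 2) F) 0 0 ^ 2 ≠ 1 → f g = 0) :
    ∑ g : Matrix.SpecialLinearGroup (Fin 2) F, (if IsEll g then f g else 0) =
      ∑ g : Matrix.SpecialLinearGroup (Fin 2) F, f g -
        ((Fintype.card F : ℂ) + 1) * ∑ c : F, (f (sBorelMat 1 c) + f (sBorelMat (-1) c)) +
        (Fintype.card F : ℂ) * (f 1 + f (sBorelMat (-1) 0)) := by
  classical
  have h2F := two_ne_zero_of_odd_card hodd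
  have hq := card_ne_zero_aux (F := F)
  obtain ⟨z, hz⟩ : ∃ z : Matrix.SpecialLinearGroup (Fin 2) F, z = sBorelMat (-1) 0 := ⟨_, rfl⟩
  rw [← hz]
  have hzc : z ∈ Subgroup.center (Matrix.SpecialLinearGroup (Fin 2) F) := by
    rw [hz]
    exact sBorelMat_scalar_central (-1) neg_one_units_inv
  have hz01 : (z : Matrix (Fin 2) (Fin 2) F) 0 1 = 0 := by
    rw [hz]
    rfl
  have hz10 : (z : Matrix (Fin 2) (Fin 2) F) 1 0 = 0 := by
    rw [hz]
    rfl
  have h1z : (1 : Matrix.SpecialLinearGroup (Fin 2) F) ≠ z := by
    intro h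
    have h' : ((1 : Matrix.SpecialLinearGroup (Fin 2) F) : Matrix (Fin 2) (Fin 2) F) 0 0 =
        (z : Matrix (Fin 2) (Fin 2) F) 0 0 := by rw [← h]
    have h'' : (z : Matrix (Fin 2) (Fin 2) F) 0 0 = -1 := by
      rw [hz]
      show ((-1 : Fˣ) : F) = -1
      simp
    rw [h'', Matrix.SpecialLinearGroup.coe_one, Matrix.one_apply_eq] at h'
    apply h2F
    linear_combination h'
  have hvan : ∀ (a : Fˣ) (c : F), (a : F) ^ 2 ≠ 1 → f (sBorelMat a c) = 0 := by
    intro a c ha
    obtain ⟨s, hs⟩ := sBorelMat_conj_diag a c ha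
    rw [← hf (sBorelMat a c) s, hs]
    exact hsplit _ rfl rfl ha
  have hsq : ∀ a : Fˣ, (a : F) ^ 2 = 1 → a = 1 ∨ a = -1 := by
    intro a ha
    have h0 : ((a : F) - 1) * ((a : F) + 1) = 0 := by linear_combination ha
    rcases mul_eq_zero.mp h0 with h | h
    · left
      exact Units.ext (by rw [Units.val_one]; exact sub_eq_zero.mp h)
    · right
      exact Units.ext (by
        rw [Units.val_neg, Units.val_one]
        exact eq_neg_of_add_eq_zero_left h)
  have hV : ∀ g : Matrix.SpecialLinearGroup (Fin 2) F, (if IsEll g then f g else 0) =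
      f g - rFun (1 : MulChar F ℂ) g * f g +
        (Fintype.card F : ℂ) * (if g = 1 then f g else 0) +
        (Fintype.card F : ℂ) * (if g = z then f g else 0) := by
    intro g
    by_cases hE : IsEll g
    · have hg1 : g ≠ 1 := by
        intro h
        apply hE.entry_ne
        rw [h, Matrix.SpecialLinearGroup.coe_one]
        exact Matrix.one_apply_ne (by decide)
      have hgz : g ≠ z := by
        intro h
        apply hE.entry_ne
        rw [h]
        exact hz10
      rw [if_pos hE, rFun_one_elliptic g hE, if_neg hg1, if_neg hgz]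
      ring
    · rw [if_neg hE]
      obtain ⟨s, a, c, hs⟩ := exists_conj_sBorelMat g hE
      have hN : rFun (1 : MulChar F ℂ) g = rFun (1 : MulChar F ℂ) (sBorelMat a c) := by
        rw [← hs]
        exact (Helper2.isClassFunction_indFun _ _ g s).symm
      have hf' : f g = f (sBorelMat a c) := by
        rw [← hs]
        exact (hf g s).symm
      by_cases ha : (a : F) ^ 2 = 1
      · have hainv : a⁻¹ = a := by
          apply inv_eq_of_mul_eq_one_right
          apply Units.ext
          rw [Units.val_mul, Units.val_one, ← sq]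
          exact ha
        by_cases hc0 : c = 0
        · have hcen := sBorelMat_scalar_central a hainv
          have hg : g = sBorelMat a 0 := by
            rw [hc0] at hs
            have h1 : g = s⁻¹ * sBorelMat a 0 * s := by
              rw [← hs]
              group
            rw [h1, Subgroup.mem_center_iff.mp hcen s⁻¹, mul_assoc, inv_mul_cancel, mul_one]
          rw [hg, rFun_one_scalar a hainv]
          rcases hsq a ha with h | h
          · rw [h, sBorelMat_one_zero, if_pos rfl, if_neg h1z]
            ring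
          · rw [h, ← hz, if_neg (Ne.symm h1z), if_pos rfl]
            ring
        · have hgc : ∀ w : Matrix.SpecialLinearGroup (Fin 2) F,
              w ∈ Subgroup.center (Matrix.SpecialLinearGroup (Fin 2) F) →
              (w : Matrix (Fin 2) (Fin 2) F) 0 1 = 0 → g ≠ w := by
            intro w hw hw01 hgw
            apply hc0
            have h1 : sBorelMat a c = w := by
              rw [← hs, hgw, Subgroup.mem_center_iff.mp hw s, mul_assoc, mul_inv_cancel, mul_one]
            have h2 : (sBorelMat a c : Matrix (Fin 2) (Fin 2) F) 0 1 = 0 := by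
              rw [h1]
              exact hw01
            exact h2
          have hg1 := hgc 1 (Subgroup.one_mem _) (by
            rw [Matrix.SpecialLinearGroup.coe_one]
            exact Matrix.one_apply_ne (by decide))
          have hgz := hgc z hzc hz01
          rw [if_neg hg1, if_neg hgz, hN, hf', rFun_one_unip a hainv c hc0]
          ring
      · have h0 : f g = 0 := by
          rw [hf']
          exact hvan a c ha
        rw [h0]
        simp
  have hπ : ∑ g : Matrix.SpecialLinearGroup (Fin 2) F, rFun (1 : MulChar F ℂ) g * f g =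
      ((Fintype.card F : ℂ) + 1) * ∑ c : F, (f (sBorelMat 1 c) + f (sBorelMat (-1) c)) := by
    have hfc : IsClassFunction (Matrix.SpecialLinearGroup (Fin 2) F) (fun g => conj (f g)) := by
      intro g h
      show conj (f (h * g * h⁻¹)) = conj (f g)
      rw [hf g h]
    have h1 := classInner_rFun_one_eq hfc
    unfold classInner at h1
    simp only [Complex.conj_conj] at h1
    have hG0 : (Nat.card (Matrix.SpecialLinearGroup (Fin 2) F) : ℂ) ≠ 0 := by
      exact_mod_cast Nat.card_pos.ne'
    rw [inv_mul_eq_iff_eq_mul₀ hG0] at h1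
    rw [h1, card_sBorel_cast, S2301.card_SL2]
    have h3 : ∑ a : Fˣ, ∑ c : F, f (sBorelMat a c) =
        ∑ c : F, (f (sBorelMat 1 c) + f (sBorelMat (-1) c)) := by
      have hne1 : (1 : Fˣ) ≠ -1 := by
        intro h
        have h' := congrArg Units.val h
        rw [Units.val_one, Units.val_neg, Units.val_one] at h'
        apply h2F
        linear_combination h'
      rw [Finset.sum_eq_add (1 : Fˣ) (-1) hne1, Finset.sum_add_distrib]
      · rintro a _ ⟨h1, h2⟩
        apply Finset.sum_eq_zero
        intro c _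
        apply hvan
        intro hsq'
        rcases hsq a hsq' with h | h
        · exact h1 h
        · exact h2 h
      · intro h
        exact absurd (Finset.mem_univ _) h
      · intro h
        exact absurd (Finset.mem_univ _) h
    rw [h3]
    have hcast : ((Fintype.card F * (Fintype.card F ^ 2 - 1) : ℕ) : ℂ) =
        ((Fintype.card F : ℂ) + 1) * (((Fintype.card F : ℂ) - 1) * (Fintype.card F : ℂ)) := by
      have : 1 ≤ Fintype.card F ^ 2 := Nat.one_le_pow _ _ Fintype.card_pos
      push_cast [Nat.cast_sub this]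
      ring
    rw [hcast, mul_assoc, mul_inv_cancel_left₀ (mul_ne_zero hq.2 hq.1)]
  rw [Finset.sum_congr rfl (fun g _ => hV g), Finset.sum_add_distrib, Finset.sum_add_distrib,
    Finset.sum_sub_distrib, ← Finset.mul_sum, ← Finset.mul_sum,
    Finset.sum_ite_eq' Finset.univ (1 : Matrix.SpecialLinearGroup (Fin 2) F) f,
    Finset.sum_ite_eq' Finset.univ z f, if_pos (Finset.mem_univ _), if_pos (Finset.mem_univ _),
    hπ]
  ring

end EllSum

end Cfsg.Agent.Helper13
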