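import Mathlib
import Cfsg.Agent.Helper13.SL2EllSum

/-!
# The characters of degree `(q - 1) / 2` of `SL₂(q)`: sums over the elements without eigenvector
-/

set_option autoImplicit false

namespace Cfsg.Agent.Helper13

open Cfsg
open scoped ComplexConjugate

section HalfSum

variable {F : Type*} [Field F] [Fintype F] [DecidableEq F]

/-- The values at the unipotent elements of a character of degree `(q - 1) / 2`. -/
theorem half_sub_unip_sq (hodd : Odd (Fintype.card F)) (hq : 5 ≤ Fintype.card F)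
    {η : Matrix.SpecialLinearGroup (Fin 2) F → ℂ}
    (hη : IsIrrCharacter (Matrix.SpecialLinearGroup (Fin 2) F) η)
    (hdeg : η 1 = (((Fintype.card F - 1) / 2 : ℕ) : ℂ)) (c : F) (hc : c ≠ 0) :
    (2 * η (sBorelMat 1 c) + 1) ^ 2 =
      (-1 : ℂ) ^ ((Fintype.card F - 1) / 2) * (Fintype.card F : ℂ) := by
  obtain ⟨ψ, hψ, hcusp, hn, hin⟩ := irr_deg_half_sub hodd hq hη hdeg
  obtain ⟨θ', hθ', hne, hsum, t, ht⟩ := half_data hψ hn hη hin
  have hηcf := Helper2.IsIrrCharacter.isClassFunction hη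
  have hψu := (cusp_main.1 ψ hψ hcusp).2
  have h1 := unip_diff_sq hodd hψ hn hη hin
  rw [hψu] at h1
  have hin' : classInner (resS ψ) θ' ≠ 0 := by
    rw [hsum, Helper2.classInner_add_left, Helper2.classInner_irr hη hθ',
      Helper2.classInner_irr hθ' hθ', if_pos rfl, if_neg (Ne.symm hne)]
    norm_num
  have h2 := unip_diff_sq hodd hψ hn hθ' hin'
  rw [hψu, ht, cxS_diag_sBorelMat, mul_one] at h2
  have htns : ¬ IsSquare (t : F) := by
    rintro ⟨r, hr⟩
    have hr0 : r ≠ 0 := by
      rintro rfl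
      rw [mul_zero] at hr
      exact t.ne_zero hr
    apply hne
    funext g
    rw [ht g]
    have ht' : t = Units.mk0 r hr0 * Units.mk0 r hr0 :=
      Units.ext (by rw [Units.val_mul, Units.val_mk0]; exact hr)
    rw [ht']
    exact cf_cxS_sq hηcf (Units.mk0 r hr0) g
  obtain ⟨d, hd0, hd | hd⟩ := Helper6.exists_sq_or_nonsq_mul_sq htns c hc
  · have e : η (sBorelMat 1 c) = η (sBorelMat 1 1) := by
      rw [hd, ← mul_one (d * d)]
      exact cf_sBorelMat_sq hηcf 1 d 1 hd0
    rw [e]
    linear_combination h1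
  · have e : η (sBorelMat 1 c) = η (sBorelMat 1 (t : F)) := by
      rw [hd, mul_comm]
      exact cf_sBorelMat_sq hηcf 1 d (t : F) hd0
    rw [e]
    linear_combination h2

/-- The sum of the squared absolute values at the unipotent elements of a character of degree
`(q - 1) / 2`. -/
theorem half_sub_unip_normSq_sum (hodd : Odd (Fintype.card F)) (hq : 5 ≤ Fintype.card F)
    {η : Matrix.SpecialLinearGroup (Fin 2) F → ℂ}
    (hη : IsIrrCharacter (Matrix.SpecialLinearGroup (Fin 2) F) η)
    (hdeg : η 1 = (((Fintype.card F - 1) / 2 : ℕ) : ℂ)) :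
    ∑ c : F, η (sBorelMat 1 c) * conj (η (sBorelMat 1 c)) = η 1 * (Fintype.card F : ℂ) := by
  have hsum0 := sum_unip_deg_half_sub hodd hq hη hdeg
  have hdeg0 := hdeg
  obtain ⟨k, hk⟩ := hodd
  have hhalf : (Fintype.card F - 1) / 2 = k := by omega
  have hqC : (Fintype.card F : ℂ) = 2 * (k : ℂ) + 1 := by rw [hk]; push_cast; ring
  rw [hhalf] at hdeg
  have hpt : ∀ c : F, c ≠ 0 → 4 * (η (sBorelMat 1 c) * conj (η (sBorelMat 1 c))) =
      (Fintype.card F : ℂ) - 1 - 2 * η (sBorelMat 1 c) - 2 * conj (η (sBorelMat 1 c)) := by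
    intro c hc
    have h1 := half_sub_unip_sq ⟨k, hk⟩ hq hη hdeg0 c hc
    obtain ⟨w, hw⟩ : ∃ w : ℂ, w = 2 * η (sBorelMat 1 c) + 1 := ⟨_, rfl⟩
    rw [← hw] at h1
    have hnorm : w * conj w = (Fintype.card F : ℂ) := by
      rw [Complex.mul_conj]
      have h2 : Complex.normSq w ^ 2 = (Fintype.card F : ℝ) ^ 2 := by
        rw [← map_pow, h1, map_mul, map_pow, Complex.normSq_neg, map_one, one_pow, one_mul,
          Complex.normSq_natCast]
        ring
      have h3 : Complex.normSq w = (Fintype.card F : ℝ) :=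
        (sq_eq_sq₀ (Complex.normSq_nonneg w) (Nat.cast_nonneg _)).mp h2
      rw [h3]
      simp
    rw [hw] at hnorm
    simp only [map_add, map_mul, map_one, map_ofNat] at hnorm
    linear_combination hnorm
  have hA : 4 * ∑ c : F, η (sBorelMat 1 c) * conj (η (sBorelMat 1 c)) =
      4 * (η 1 * conj (η 1)) + ∑ c ∈ Finset.univ.erase (0 : F),
        ((Fintype.card F : ℂ) - 1 - 2 * η (sBorelMat 1 c) - 2 * conj (η (sBorelMat 1 c))) := by
    rw [← Finset.add_sum_erase Finset.univ _ (Finset.mem_univ (0 : F)), sBorelMat_one_zero,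
      mul_add, Finset.mul_sum]
    congr 1
    exact Finset.sum_congr rfl (fun c hc => hpt c (Finset.ne_of_mem_erase hc))
  have hB : ∑ c ∈ Finset.univ.erase (0 : F), η (sBorelMat 1 c) = -η 1 := by
    have h := Finset.add_sum_erase Finset.univ (fun c : F => η (sBorelMat 1 c))
      (Finset.mem_univ (0 : F))
    beta_reduce at h
    rw [hsum0, sBorelMat_one_zero] at h
    linear_combination h
  have hB' : ∑ c ∈ Finset.univ.erase (0 : F), conj (η (sBorelMat 1 c)) = -conj (η 1) := by
    rw [← map_sum, hB, map_neg]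
  rw [Finset.sum_sub_distrib, Finset.sum_sub_distrib, Finset.sum_const,
    Finset.card_erase_of_mem (Finset.mem_univ _), Finset.card_univ, nsmul_eq_mul,
    ← Finset.mul_sum, ← Finset.mul_sum, hB, hB', Nat.cast_sub Fintype.card_pos,
    Nat.cast_one] at hA
  rw [hdeg, Complex.conj_natCast, hqC] at hA
  rw [hdeg, hqC]
  linear_combination hA / 4

/-- The sum over the elements without eigenvector of the squared absolute values of a character
of degree `(q - 1) / 2`. -/
theorem half_sub_ell_normSq (hodd : Odd (Fintype.card F)) (hq : 5 ≤ Fintype.card F)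
    [DecidablePred (fun g : Matrix.SpecialLinearGroup (Fin 2) F => IsEll g)]
    {η : Matrix.SpecialLinearGroup (Fin 2) F → ℂ}
    (hη : IsIrrCharacter (Matrix.SpecialLinearGroup (Fin 2) F) η)
    (hdeg : η 1 = (((Fintype.card F - 1) / 2 : ℕ) : ℂ)) :
    ∑ g : Matrix.SpecialLinearGroup (Fin 2) F, (if IsEll g then η g * conj (η g) else 0) =
      2 * (Fintype.card F : ℂ) * (η 1) ^ 2 := by
  have hηcf := Helper2.IsIrrCharacter.isClassFunction hη
  have hfcf : IsClassFunction (Matrix.SpecialLinearGroup (Fin 2) F)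
      (fun g => η g * conj (η g)) := by
    intro g h
    show η (h * g * h⁻¹) * conj (η (h * g * h⁻¹)) = η g * conj (η g)
    rw [hηcf g h]
  have hsplit : ∀ g : Matrix.SpecialLinearGroup (Fin 2) F,
      (g : Matrix (Fin 2) (Fin 2) F) 0 1 = 0 → (g : Matrix (Fin 2) (Fin 2) F) 1 0 = 0 →
      (g : Matrix (Fin 2) (Fin 2) F) 0 0 ^ 2 ≠ 1 → (fun g => η g * conj (η g)) g = 0 := by
    intro g h01 h10 hsq
    show η g * conj (η g) = 0
    rw [vanish_split hodd hη g (Or.inr hdeg) h01 h10 hsq, zero_mul]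
  have h := sum_elliptic hodd hfcf hsplit
  beta_reduce at h
  rw [h]
  have hG0 : (Nat.card (Matrix.SpecialLinearGroup (Fin 2) F) : ℂ) ≠ 0 := by
    exact_mod_cast Nat.card_pos.ne'
  have hnorm : ∑ g : Matrix.SpecialLinearGroup (Fin 2) F, η g * conj (η g) =
      (Nat.card (Matrix.SpecialLinearGroup (Fin 2) F) : ℂ) := by
    have h1 := Helper2.classInner_irr hη hη
    rw [if_pos rfl] at h1
    unfold classInner at h1
    rw [inv_mul_eq_iff_eq_mul₀ hG0, mul_one] at h1
    exact h1
  have hzc : sBorelMat (-1 : Fˣ) (0 : F) ∈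
      Subgroup.center (Matrix.SpecialLinearGroup (Fin 2) F) :=
    sBorelMat_scalar_central (-1) neg_one_units_inv
  obtain ⟨ω, hω1, hω⟩ := central_char_unit hη _ hzc
  have hneg : ∀ c : F, η (sBorelMat (-1) c) * conj (η (sBorelMat (-1) c)) =
      η (sBorelMat 1 (-c)) * conj (η (sBorelMat 1 (-c))) := by
    intro c
    rw [sBorelMat_split_scalar (-1) neg_one_units_inv c, hω, map_mul]
    have h3 : ((-1 : Fˣ) : F) * c = -c := by simp
    rw [h3]
    linear_combination (η (sBorelMat 1 (-c)) * conj (η (sBorelMat 1 (-c)))) * hω1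
  have hsumneg : ∑ c : F, η (sBorelMat 1 (-c)) * conj (η (sBorelMat 1 (-c))) =
      ∑ c : F, η (sBorelMat 1 c) * conj (η (sBorelMat 1 c)) :=
    Equiv.sum_comp (Equiv.neg F) (fun c => η (sBorelMat 1 c) * conj (η (sBorelMat 1 c)))
  have hfz : η (sBorelMat (-1) 0) * conj (η (sBorelMat (-1) 0)) = η 1 * conj (η 1) := by
    have h3 := hω 1
    rw [mul_one] at h3
    rw [h3, map_mul]
    linear_combination (η 1 * conj (η 1)) * hω1
  rw [Finset.sum_add_distrib, Finset.sum_congr rfl (fun c _ => hneg c), hsumneg,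
    half_sub_unip_normSq_sum hodd hq hη hdeg, hnorm, S2301.card_SL2, hfz]
  obtain ⟨k, hk⟩ := hodd
  have hhalf : (Fintype.card F - 1) / 2 = k := by omega
  have hqC : (Fintype.card F : ℂ) = 2 * (k : ℂ) + 1 := by rw [hk]; push_cast; ring
  have hcast : ((Fintype.card F * (Fintype.card F ^ 2 - 1) : ℕ) : ℂ) =
      (Fintype.card F : ℂ) * ((Fintype.card F : ℂ) ^ 2 - 1) := by
    have : 1 ≤ Fintype.card F ^ 2 := Nat.one_le_pow _ _ Fintype.card_pos
    push_cast [Nat.cast_sub this]
    ring
  rw [hhalf] at hdeg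
  rw [hcast, hdeg, Complex.conj_natCast, hqC]
  ring

/-- The sum over the elements without eigenvector of a character of degree `(q - 1) / 2`. -/
theorem half_sub_ell_sum (hodd : Odd (Fintype.card F)) (hq : 5 ≤ Fintype.card F)
    [DecidablePred (fun g : Matrix.SpecialLinearGroup (Fin 2) F => IsEll g)]
    {η : Matrix.SpecialLinearGroup (Fin 2) F → ℂ}
    (hη : IsIrrCharacter (Matrix.SpecialLinearGroup (Fin 2) F) η)
    (hdeg : η 1 = (((Fintype.card F - 1) / 2 : ℕ) : ℂ)) (ω : ℂ)
    (hω : ∀ g, η (sBorelMat (-1) 0 * g) = ω * η g) :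
    ∑ g : Matrix.SpecialLinearGroup (Fin 2) F, (if IsEll g then η g else 0) =
      (Fintype.card F : ℂ) * η 1 * (1 + ω) := by
  have hηcf := Helper2.IsIrrCharacter.isClassFunction hη
  have h := sum_elliptic hodd hηcf
    (fun g h01 h10 hsq => vanish_split hodd hη g (Or.inr hdeg) h01 h10 hsq)
  rw [h]
  have hG0 : (Nat.card (Matrix.SpecialLinearGroup (Fin 2) F) : ℂ) ≠ 0 := by
    exact_mod_cast Nat.card_pos.ne'
  have hne1 : η ≠ (fun _ => (1 : ℂ)) := by
    intro h1
    have h2 := congrFun h1 1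
    rw [hdeg] at h2
    have h3 : (Fintype.card F - 1) / 2 = 1 := by exact_mod_cast h2
    omega
  have hsum0 : ∑ g : Matrix.SpecialLinearGroup (Fin 2) F, η g = 0 := by
    have h1 := Helper2.classInner_irr hη Helper2.isIrrCharacter_one_fun
    rw [if_neg hne1] at h1
    unfold classInner at h1
    simp only [map_one, mul_one] at h1
    rcases mul_eq_zero.mp h1 with h2 | h2
    · exact absurd (inv_eq_zero.mp h2) hG0
    · exact h2
  have hu := sum_unip_deg_half_sub hodd hq hη hdeg
  have hneg : ∀ c : F, η (sBorelMat (-1) c) = ω * η (sBorelMat 1 (-c)) := by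
    intro c
    rw [sBorelMat_split_scalar (-1) neg_one_units_inv c, hω]
    have h3 : ((-1 : Fˣ) : F) * c = -c := by simp
    rw [h3]
  have hsumneg : ∑ c : F, η (sBorelMat 1 (-c)) = ∑ c : F, η (sBorelMat 1 c) :=
    Equiv.sum_comp (Equiv.neg F) (fun c => η (sBorelMat 1 c))
  have hz : η (sBorelMat (-1) 0) = ω * η 1 := by
    have h3 := hω 1
    rw [mul_one] at h3
    exact h3
  rw [Finset.sum_add_distrib, Finset.sum_congr rfl (fun c _ => hneg c), ← Finset.mul_sum,
    hsumneg, hu, hsum0, hz]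
  ring

end HalfSum

end Cfsg.Agent.Helper13
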