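import Mathlib
import Cfsg.Agent.Helper13.SL2HalfSum

/-!
# The characters of degree `q - 1` of `SL₂(q)`: sums over the elements without eigenvector
-/

set_option autoImplicit false

namespace Cfsg.Agent.Helper13

open Cfsg
open scoped ComplexConjugate

section CuspSum

variable {F : Type*} [Field F] [Fintype F] [DecidableEq F]

/-- Restrictions of cuspidal characters take the value `-1` at the non-trivial unipotent
elements. -/
theorem resS_cusp_unip {ψ : Matrix.GeneralLinearGroup (Fin 2) F → ℂ}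
    (hψ : IsIrrCharacter (Matrix.GeneralLinearGroup (Fin 2) F) ψ) (hcusp : IsCusp ψ)
    (c : F) (hc : c ≠ 0) : resS ψ (sBorelMat 1 c) = -1 := by
  rw [resS_apply, toGL_sBorelMat_one]
  obtain ⟨x, hx⟩ := isConj_iff.mp (uMat_isConj _ hc)
  rw [← hx, Helper2.IsIrrCharacter.isClassFunction hψ]
  exact (cusp_main.1 ψ hψ hcusp).2

/-- Irreducible characters of degree `q - 1` take the value `-1` at the non-trivial unipotent
elements. -/
theorem cusp_unip (hq : 4 ≤ Fintype.card F)
    {χ : Matrix.SpecialLinearGroup (Fin 2) F → ℂ}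
    (hχ : IsIrrCharacter (Matrix.SpecialLinearGroup (Fin 2) F) χ)
    (hdeg : χ 1 = (Fintype.card F : ℂ) - 1) (c : F) (hc : c ≠ 0) :
    χ (sBorelMat 1 c) = -1 := by
  obtain ⟨ψ, hψ, hcusp, rfl⟩ := irr_deg_q_sub_one hq hχ hdeg
  exact resS_cusp_unip hψ hcusp c hc

/-- The sum over the elements without eigenvector of the squared absolute values of a character
of degree `q - 1`. -/
theorem cusp_ell_normSq (hodd : Odd (Fintype.card F)) (hq : 5 ≤ Fintype.card F)
    [DecidablePred (fun g : Matrix.SpecialLinearGroup (Fin 2) F => IsEll g)]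
    {χ : Matrix.SpecialLinearGroup (Fin 2) F → ℂ}
    (hχ : IsIrrCharacter (Matrix.SpecialLinearGroup (Fin 2) F) χ)
    (hdeg : χ 1 = (Fintype.card F : ℂ) - 1) :
    ∑ g : Matrix.SpecialLinearGroup (Fin 2) F, (if IsEll g then χ g * conj (χ g) else 0) =
      (Fintype.card F : ℂ) * ((Fintype.card F : ℂ) - 1) * ((Fintype.card F : ℂ) - 3) := by
  have hχcf := Helper2.IsIrrCharacter.isClassFunction hχ
  have hfcf : IsClassFunction (Matrix.SpecialLinearGroup (Fin 2) F)
      (fun g => χ g * conj (χ g)) := by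
    intro g h
    show χ (h * g * h⁻¹) * conj (χ (h * g * h⁻¹)) = χ g * conj (χ g)
    rw [hχcf g h]
  have hsplit : ∀ g : Matrix.SpecialLinearGroup (Fin 2) F,
      (g : Matrix (Fin 2) (Fin 2) F) 0 1 = 0 → (g : Matrix (Fin 2) (Fin 2) F) 1 0 = 0 →
      (g : Matrix (Fin 2) (Fin 2) F) 0 0 ^ 2 ≠ 1 → (fun g => χ g * conj (χ g)) g = 0 := by
    intro g h01 h10 hsq
    show χ g * conj (χ g) = 0
    rw [vanish_split hodd hχ g (Or.inl hdeg) h01 h10 hsq, zero_mul]
  have h := sum_elliptic hodd hfcf hsplit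
  beta_reduce at h
  rw [h]
  have hG0 : (Nat.card (Matrix.SpecialLinearGroup (Fin 2) F) : ℂ) ≠ 0 := by
    exact_mod_cast Nat.card_pos.ne'
  have hnorm : ∑ g : Matrix.SpecialLinearGroup (Fin 2) F, χ g * conj (χ g) =
      (Nat.card (Matrix.SpecialLinearGroup (Fin 2) F) : ℂ) := by
    have h1 := Helper2.classInner_irr hχ hχ
    rw [if_pos rfl] at h1
    unfold classInner at h1
    rw [inv_mul_eq_iff_eq_mul₀ hG0, mul_one] at h1
    exact h1
  have hzc : sBorelMat (-1 : Fˣ) (0 : F) ∈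
      Subgroup.center (Matrix.SpecialLinearGroup (Fin 2) F) :=
    sBorelMat_scalar_central (-1) neg_one_units_inv
  obtain ⟨ω, hω1, hω⟩ := central_char_unit hχ _ hzc
  have hneg : ∀ c : F, χ (sBorelMat (-1) c) * conj (χ (sBorelMat (-1) c)) =
      χ (sBorelMat 1 (-c)) * conj (χ (sBorelMat 1 (-c))) := by
    intro c
    rw [sBorelMat_split_scalar (-1) neg_one_units_inv c, hω, map_mul]
    have h3 : ((-1 : Fˣ) : F) * c = -c := by simp
    rw [h3]
    linear_combination (χ (sBorelMat 1 (-c)) * conj (χ (sBorelMat 1 (-c)))) * hω1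
  have hsumneg : ∑ c : F, χ (sBorelMat 1 (-c)) * conj (χ (sBorelMat 1 (-c))) =
      ∑ c : F, χ (sBorelMat 1 c) * conj (χ (sBorelMat 1 c)) :=
    Equiv.sum_comp (Equiv.neg F) (fun c => χ (sBorelMat 1 c) * conj (χ (sBorelMat 1 c)))
  have hfz : χ (sBorelMat (-1) 0) * conj (χ (sBorelMat (-1) 0)) = χ 1 * conj (χ 1) := by
    have h3 := hω 1
    rw [mul_one] at h3
    rw [h3, map_mul]
    linear_combination (χ 1 * conj (χ 1)) * hω1
  have hconjq : conj ((Fintype.card F : ℂ) - 1) = (Fintype.card F : ℂ) - 1 := by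
    rw [map_sub, Complex.conj_natCast, map_one]
  have hunip : ∑ c : F, χ (sBorelMat 1 c) * conj (χ (sBorelMat 1 c)) =
      ((Fintype.card F : ℂ) - 1) ^ 2 + ((Fintype.card F : ℂ) - 1) * 1 := by
    rw [← sum_ite_zero (F := F) (((Fintype.card F : ℂ) - 1) ^ 2) 1]
    refine Finset.sum_congr rfl (fun c _ => ?_)
    by_cases hc : c = 0
    · rw [if_pos hc, hc, sBorelMat_one_zero, hdeg, hconjq]
      ring
    · rw [if_neg hc, cusp_unip (by omega) hχ hdeg c hc]
      simp
  have hcast : ((Fintype.card F * (Fintype.card F ^ 2 - 1) : ℕ) : ℂ) =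
      (Fintype.card F : ℂ) * ((Fintype.card F : ℂ) ^ 2 - 1) := by
    have : 1 ≤ Fintype.card F ^ 2 := Nat.one_le_pow _ _ Fintype.card_pos
    push_cast [Nat.cast_sub this]
    ring
  rw [Finset.sum_add_distrib, Finset.sum_congr rfl (fun c _ => hneg c), hsumneg, hunip, hnorm,
    S2301.card_SL2, hfz, hcast, hdeg, hconjq]
  ring

/-- The sum over the elements without eigenvector of a character of degree `q - 1`. -/
theorem cusp_ell_sum (hodd : Odd (Fintype.card F)) (hq : 5 ≤ Fintype.card F)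
    [DecidablePred (fun g : Matrix.SpecialLinearGroup (Fin 2) F => IsEll g)]
    {χ : Matrix.SpecialLinearGroup (Fin 2) F → ℂ}
    (hχ : IsIrrCharacter (Matrix.SpecialLinearGroup (Fin 2) F) χ)
    (hdeg : χ 1 = (Fintype.card F : ℂ) - 1) (ω : ℂ)
    (hω : ∀ g, χ (sBorelMat (-1) 0 * g) = ω * χ g) :
    ∑ g : Matrix.SpecialLinearGroup (Fin 2) F, (if IsEll g then χ g else 0) =
      (Fintype.card F : ℂ) * χ 1 * (1 + ω) := by
  have hχcf := Helper2.IsIrrCharacter.isClassFunction hχ
  have h := sum_elliptic hodd hχcf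
    (fun g h01 h10 hsq => vanish_split hodd hχ g (Or.inl hdeg) h01 h10 hsq)
  rw [h]
  have hG0 : (Nat.card (Matrix.SpecialLinearGroup (Fin 2) F) : ℂ) ≠ 0 := by
    exact_mod_cast Nat.card_pos.ne'
  have hne1 : χ ≠ (fun _ => (1 : ℂ)) := by
    intro h1
    have h2 := congrFun h1 1
    rw [hdeg] at h2
    have h3 : ((Fintype.card F : ℕ) : ℂ) = ((2 : ℕ) : ℂ) := by
      push_cast
      linear_combination h2
    have := Nat.cast_injective h3
    omega
  have hsum0 : ∑ g : Matrix.SpecialLinearGroup (Fin 2) F, χ g = 0 := by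
    have h1 := Helper2.classInner_irr hχ Helper2.isIrrCharacter_one_fun
    rw [if_neg hne1] at h1
    unfold classInner at h1
    simp only [map_one, mul_one] at h1
    rcases mul_eq_zero.mp h1 with h2 | h2
    · exact absurd (inv_eq_zero.mp h2) hG0
    · exact h2
  have hu := sum_unip_deg_q_sub_one (by omega) hχ hdeg
  have hneg : ∀ c : F, χ (sBorelMat (-1) c) = ω * χ (sBorelMat 1 (-c)) := by
    intro c
    rw [sBorelMat_split_scalar (-1) neg_one_units_inv c, hω]
    have h3 : ((-1 : Fˣ) : F) * c = -c := by simp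
    rw [h3]
  have hsumneg : ∑ c : F, χ (sBorelMat 1 (-c)) = ∑ c : F, χ (sBorelMat 1 c) :=
    Equiv.sum_comp (Equiv.neg F) (fun c => χ (sBorelMat 1 c))
  have hz : χ (sBorelMat (-1) 0) = ω * χ 1 := by
    have h3 := hω 1
    rw [mul_one] at h3
    exact h3
  rw [Finset.sum_add_distrib, Finset.sum_congr rfl (fun c _ => hneg c), ← Finset.mul_sum,
    hsumneg, hu, hsum0, hz]
  ring

end CuspSum

end Cfsg.Agent.Helper13
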