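import Mathlib
import Cfsg.Agent.Helper13.SL2HalfSum
import Cfsg.Agent.Helper13.CycDFT

/-!
# The characters of degree `(q ± 1) / 2` of `SL₂(q)` on the tori
-/

set_option autoImplicit false

namespace Cfsg.Agent.Helper13

open Cfsg
open scoped ComplexConjugate

section DoubleCount

/-- Double counting of the conjugates of a set of elements. -/
theorem conj_double_count {G : Type*} [Group G] [Fintype G] [DecidableEq G] {R : Type*}
    [CommSemiring R] (P : G → Prop) [DecidablePred P] (f : G → R)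
    (hf : ∀ g h : G, f (h * g * h⁻¹) = f g) :
    (Fintype.card G : R) * ∑ c : G, (if P c then f c else 0) =
      ∑ g : G, f g * ((Finset.univ.filter (fun x : G => P (x⁻¹ * g * x))).card : R) := by
  have h1 : ∀ x : G, ∑ c : G, (if P c then f c else 0) =
      ∑ g : G, (if P (x⁻¹ * g * x) then f g else 0) := by
    intro x
    rw [← Equiv.sum_comp (MulAut.conj x⁻¹).toEquiv (fun c => if P c then f c else 0)]
    refine Finset.sum_congr rfl (fun g _ => ?_)
    show (if P (x⁻¹ * g * x⁻¹⁻¹) then f (x⁻¹ * g * x⁻¹⁻¹) else 0) = _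
    have h2 := hf g x⁻¹
    rw [inv_inv] at h2 ⊢
    rw [h2]
  calc (Fintype.card G : R) * ∑ c : G, (if P c then f c else 0)
      = ∑ x : G, ∑ c : G, (if P c then f c else 0) := by
        rw [Finset.sum_const, Finset.card_univ, nsmul_eq_mul]
    _ = ∑ x : G, ∑ g : G, (if P (x⁻¹ * g * x) then f g else 0) :=
        Finset.sum_congr rfl (fun x _ => h1 x)
    _ = ∑ g : G, ∑ x : G, (if P (x⁻¹ * g * x) then f g else 0) := Finset.sum_comm
    _ = _ := by
        refine Finset.sum_congr rfl (fun g _ => ?_)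
        rw [← Finset.sum_filter, Finset.sum_const, nsmul_eq_mul, mul_comm]

/-- Sums over the non-central part of a cyclic subgroup of even order. -/
theorem sum_zpowers_off {G : Type*} [Group G] [Fintype G] {R : Type*} [AddCommMonoid R]
    (c₀ z : G) (h : ℕ) (hh : 0 < h) (hord : orderOf c₀ = 2 * h) (hz : c₀ ^ h = z)
    (P : G → Prop) [DecidablePred P]
    (hP : ∀ c, P c ↔ (c ∈ Subgroup.zpowers c₀ ∧ ¬ (c = 1 ∨ c = z))) (f : G → R) :
    ∑ c : G, (if P c then f c else 0) =
      ∑ j ∈ Finset.range (2 * h), (if h ∣ j then 0 else f (c₀ ^ j)) := by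
  classical
  have h1 : ∀ c : G, (if P c then f c else 0) =
      if c ∈ Subgroup.zpowers c₀ then (if (c = 1 ∨ c = z) then 0 else f c) else 0 := by
    intro c
    by_cases hc : c ∈ Subgroup.zpowers c₀
    · by_cases hc' : c = 1 ∨ c = z
      · rw [if_neg (fun h => ((hP c).mp h).2 hc'), if_pos hc, if_pos hc']
      · rw [if_pos ((hP c).mpr ⟨hc, hc'⟩), if_pos hc, if_neg hc']
    · rw [if_neg (fun h => hc ((hP c).mp h).1), if_neg hc]
  rw [Finset.sum_congr rfl (fun c _ => h1 c),
    sum_zpowers c₀ (fun c => if (c = 1 ∨ c = z) then 0 else f c), hord]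
  refine Finset.sum_congr rfl (fun j hj => ?_)
  have hj' : j < orderOf c₀ := by
    rw [hord]
    exact Finset.mem_range.mp hj
  have h0' : 0 < orderOf c₀ := by
    rw [hord]
    omega
  have hh' : h < orderOf c₀ := by
    rw [hord]
    omega
  have hiff : (c₀ ^ j = 1 ∨ c₀ ^ j = z) ↔ h ∣ j := by
    constructor
    · rintro (h2 | h2)
      · have : j = 0 := pow_injOn_Iio_orderOf hj' h0' (by
          show c₀ ^ j = c₀ ^ 0
          rw [h2, pow_zero])
        rw [this]
        exact dvd_zero h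
      · have : j = h := pow_injOn_Iio_orderOf hj' hh' (by
          show c₀ ^ j = c₀ ^ h
          rw [h2, hz])
        rw [this]
    · rintro ⟨t, ht⟩
      have hj2 : j < 2 * h := Finset.mem_range.mp hj
      have ht2 : t < 2 := by
        by_contra hcon
        have h2 : 2 ≤ t := by omega
        have h3 : h * 2 ≤ h * t := Nat.mul_le_mul_left _ h2
        omega
      interval_cases t
      · left
        rw [ht, mul_zero, pow_zero]
      · right
        rw [ht, mul_one, hz]
  by_cases hd : h ∣ j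
  · rw [if_pos hd, if_pos (hiff.mpr hd)]
  · rw [if_neg hd, if_neg (fun h2 => hd (hiff.mp h2))]

end DoubleCount

section HalfEll

variable {F : Type*} [Field F] [Fintype F] [DecidableEq F]

theorem sBorelMat_neg_one_ne_one (h2F : (2 : F) ≠ 0) :
    sBorelMat (-1 : Fˣ) (0 : F) ≠ 1 := by
  intro h
  have h' : ((sBorelMat (-1 : Fˣ) (0 : F) : Matrix.SpecialLinearGroup (Fin 2) F) :
      Matrix (Fin 2) (Fin 2) F) 0 0 =
      ((1 : Matrix.SpecialLinearGroup (Fin 2) F) : Matrix (Fin 2) (Fin 2) F) 0 0 := by rw [h]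
  have h'' : ((sBorelMat (-1 : Fˣ) (0 : F) : Matrix.SpecialLinearGroup (Fin 2) F) :
      Matrix (Fin 2) (Fin 2) F) 0 0 = -1 := by
    show ((-1 : Fˣ) : F) = -1
    simp
  rw [h'', Matrix.SpecialLinearGroup.coe_one, Matrix.one_apply_eq] at h'
  apply h2F
  linear_combination -h'

/-- The scalar elements of the centraliser of an element without eigenvector. -/
theorem centralizer_scalar {g : Matrix.SpecialLinearGroup (Fin 2) F} (hg : IsEll g)
    (s : Matrix.SpecialLinearGroup (Fin 2) F) (hs : s * g = g * s)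
    (h10 : (s : Matrix (Fin 2) (Fin 2) F) 1 0 = 0) : s = 1 ∨ s = sBorelMat (-1) 0 := by
  obtain ⟨x, y, hxy, hn⟩ := centralizer_coords hg s hs
  obtain ⟨e00, e01, e10, e11⟩ := lin_apply g x y
  rw [← hxy] at e00 e01 e10 e11
  have hy : y = 0 := by
    rw [e10] at h10
    exact (mul_eq_zero.mp h10).resolve_right hg.entry_ne
  rw [hy] at hn e00 e01 e11
  have hx : (x - 1) * (x + 1) = 0 := by linear_combination hn
  rcases mul_eq_zero.mp hx with h | h
  · left
    apply Subtype.ext
    rw [Matrix.SpecialLinearGroup.coe_one]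
    apply mat2_ext
    · rw [e00, Matrix.one_apply_eq]
      linear_combination h
    · rw [e01, Matrix.one_apply_ne (by decide)]
      ring
    · rw [h10, Matrix.one_apply_ne (by decide)]
    · rw [e11, Matrix.one_apply_eq]
      linear_combination h
  · right
    apply Subtype.ext
    rw [sBorelMat_coe]
    apply mat2_ext
    · show (s : Matrix (Fin 2) (Fin 2) F) 0 0 = ((-1 : Fˣ) : F)
      rw [e00, Units.val_neg, Units.val_one]
      linear_combination h
    · show (s : Matrix (Fin 2) (Fin 2) F) 0 1 = 0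
      rw [e01]
      ring
    · exact h10
    · show (s : Matrix (Fin 2) (Fin 2) F) 1 1 = (((-1 : Fˣ)⁻¹ : Fˣ) : F)
      rw [e11, neg_one_units_inv, Units.val_neg, Units.val_one]
      linear_combination h

/-- The number of conjugating elements taking a given element into the non-central part of a
non-split torus. -/
theorem conj_count_le (hodd : Odd (Fintype.card F))
    {g₀ : Matrix.SpecialLinearGroup (Fin 2) F} (hg₀ : IsEll g₀)
    (P : Matrix.SpecialLinearGroup (Fin 2) F → Prop) [DecidablePred P]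
    (hP : ∀ c, P c → c * g₀ = g₀ * c ∧ IsEll c) (g : Matrix.SpecialLinearGroup (Fin 2) F) :
    (IsEll g → (Finset.univ.filter (fun x : Matrix.SpecialLinearGroup (Fin 2) F =>
        P (x⁻¹ * g * x))).card ≤ 2 * (Fintype.card F + 1)) ∧
    (¬ IsEll g → (Finset.univ.filter (fun x : Matrix.SpecialLinearGroup (Fin 2) F =>
        P (x⁻¹ * g * x))).card = 0) := by
  classical
  have h2F := two_ne_zero_of_odd_card hodd
  constructor
  · intro hg
    by_cases hX : (Finset.univ.filter (fun x : Matrix.SpecialLinearGroup (Fin 2) F =>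
        P (x⁻¹ * g * x))) = ∅
    · rw [hX, Finset.card_empty]
      exact Nat.zero_le _
    · obtain ⟨x₀, hx₀⟩ := Finset.nonempty_iff_ne_empty.mpr hX
      rw [Finset.mem_filter] at hx₀
      have hc₁ := hP _ hx₀.2
      obtain ⟨x₁, hx₁⟩ : ∃ x₁ : Matrix.SpecialLinearGroup (Fin 2) F, ∀ x,
          x⁻¹ * g * x = (x₀⁻¹ * g * x₀)⁻¹ → x⁻¹ * g * x = x₁⁻¹ * g * x₁ := by
        by_cases h : ∃ x₁ : Matrix.SpecialLinearGroup (Fin 2) F,
            x₁⁻¹ * g * x₁ = (x₀⁻¹ * g * x₀)⁻¹
        · obtain ⟨x₁, h1⟩ := h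
          exact ⟨x₁, fun x hx => hx.trans h1.symm⟩
        · exact ⟨x₀, fun x hx => absurd ⟨x, hx⟩ h⟩
      obtain ⟨Z, hZdef⟩ : ∃ Z : Finset (Matrix.SpecialLinearGroup (Fin 2) F),
          Z = Finset.univ.filter (fun y => y * g = g * y) := ⟨_, rfl⟩
      have hZ : Z.card = Fintype.card F + 1 := by
        rw [← card_centralizer_SL hodd hg, Nat.card_eq_fintype_card]
        symm
        apply Fintype.card_of_subtype
        intro y
        rw [hZdef, Finset.mem_filter, Subgroup.mem_centralizer_singleton_iff]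
        simp
      have hcomm_of : ∀ x x' : Matrix.SpecialLinearGroup (Fin 2) F,
          x⁻¹ * g * x = x'⁻¹ * g * x' → (x * x'⁻¹) * g = g * (x * x'⁻¹) := by
        intro x x' e
        have e2 : g * x = x * (x'⁻¹ * g * x') := by
          rw [← e]
          group
        calc x * x'⁻¹ * g = x * (x'⁻¹ * g * x') * x'⁻¹ := by group
          _ = g * x * x'⁻¹ := by rw [← e2]
          _ = g * (x * x'⁻¹) := by group
      have hsub : (Finset.univ.filter (fun x : Matrix.SpecialLinearGroup (Fin 2) F =>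
          P (x⁻¹ * g * x))) ⊆ Z.image (fun y => y * x₀) ∪ Z.image (fun y => y * x₁) := by
        intro x hx
        rw [Finset.mem_filter] at hx
        have hc := hP _ hx.2
        have htr : ((x₀⁻¹ * g * x₀ : Matrix.SpecialLinearGroup (Fin 2) F) :
              Matrix (Fin 2) (Fin 2) F) 0 0 +
            ((x₀⁻¹ * g * x₀ : Matrix.SpecialLinearGroup (Fin 2) F) :
              Matrix (Fin 2) (Fin 2) F) 1 1 =
            ((x⁻¹ * g * x : Matrix.SpecialLinearGroup (Fin 2) F) :
              Matrix (Fin 2) (Fin 2) F) 0 0 +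
            ((x⁻¹ * g * x : Matrix.SpecialLinearGroup (Fin 2) F) :
              Matrix (Fin 2) (Fin 2) F) 1 1 := by
          have t1 := sl_trace_conj x₀⁻¹ g
          have t2 := sl_trace_conj x⁻¹ g
          rw [inv_inv] at t1 t2
          rw [t1, t2]
        rw [Finset.mem_union, Finset.mem_image, Finset.mem_image]
        rcases torus_trace_eq h2F hg₀ _ _ hc₁.1 hc.1 htr with h1 | h1
        · left
          refine ⟨x * x₀⁻¹, ?_, by group⟩
          rw [hZdef, Finset.mem_filter]
          exact ⟨Finset.mem_univ _, hcomm_of x x₀ h1⟩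
        · right
          refine ⟨x * x₁⁻¹, ?_, by group⟩
          rw [hZdef, Finset.mem_filter]
          exact ⟨Finset.mem_univ _, hcomm_of x x₁ (hx₁ x h1)⟩
      calc (Finset.univ.filter (fun x : Matrix.SpecialLinearGroup (Fin 2) F =>
            P (x⁻¹ * g * x))).card
          ≤ (Z.image (fun y => y * x₀) ∪ Z.image (fun y => y * x₁)).card :=
            Finset.card_le_card hsub
        _ ≤ (Z.image (fun y => y * x₀)).card + (Z.image (fun y => y * x₁)).card :=
            Finset.card_union_le _ _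
        _ ≤ Z.card + Z.card := Nat.add_le_add Finset.card_image_le Finset.card_image_le
        _ = 2 * (Fintype.card F + 1) := by rw [hZ]; ring
  · intro hg
    rw [Finset.card_eq_zero, Finset.filter_eq_empty_iff]
    intro x _ hx
    apply hg
    have h1 := (hP _ hx).2.conj x
    have h2 : x * (x⁻¹ * g * x) * x⁻¹ = g := by group
    rw [h2] at h1
    exact h1

/-- The values at the elements without eigenvector of an irreducible character of `SL₂(q)` of
degree `(q - 1) / 2`, `q ≥ 5` odd. -/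
theorem half_sub_elliptic (hodd : Odd (Fintype.card F)) (hq : 5 ≤ Fintype.card F)
    {η : Matrix.SpecialLinearGroup (Fin 2) F → ℂ}
    (hη : IsIrrCharacter (Matrix.SpecialLinearGroup (Fin 2) F) η)
    (hdeg : η 1 = (((Fintype.card F - 1) / 2 : ℕ) : ℂ))
    (g₀ : Matrix.SpecialLinearGroup (Fin 2) F) (hg₀ : IsEll g₀) :
    (g₀ ^ ((Fintype.card F + 1) / 2) = 1 → η g₀ = -1) ∧
    (g₀ ^ ((Fintype.card F + 1) / 2) ≠ 1 → η g₀ = 1) := by
  classical
  have hodd' := hodd
  obtain ⟨k, hk⟩ := hodd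
  have hhalf : (Fintype.card F - 1) / 2 = k := by omega
  have hhalf' : (Fintype.card F + 1) / 2 = k + 1 := by omega
  have hk2 : 2 ≤ k := by omega
  have hqC : (Fintype.card F : ℂ) = 2 * (k : ℂ) + 1 := by rw [hk]; push_cast; ring
  have hqR : (Fintype.card F : ℝ) = 2 * (k : ℝ) + 1 := by rw [hk]; push_cast; ring
  have hd : η 1 = (k : ℂ) := by rw [hdeg, hhalf]
  have hηcf := Helper2.IsIrrCharacter.isClassFunction hη
  have hηch := Helper24.isCharacter_of_irr hη
  have h2F := two_ne_zero_of_odd_card hodd'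
  obtain ⟨c₀, hord, hgen, hz⟩ := exists_torus_generator hodd' hg₀
  obtain ⟨z, hzdef⟩ : ∃ z : Matrix.SpecialLinearGroup (Fin 2) F, z = sBorelMat (-1) 0 :=
    ⟨_, rfl⟩
  rw [hhalf', ← hzdef] at hz
  have hord' : orderOf c₀ = 2 * (k + 1) := by omega
  have hzc : z ∈ Subgroup.center (Matrix.SpecialLinearGroup (Fin 2) F) := by
    rw [hzdef]
    exact sBorelMat_scalar_central (-1) neg_one_units_inv
  have hz1 : z ≠ 1 := by
    rw [hzdef]
    exact sBorelMat_neg_one_ne_one h2F
  have hz10 : (z : Matrix (Fin 2) (Fin 2) F) 1 0 = 0 := by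
    rw [hzdef]
    rfl
  obtain ⟨ω, hω1, hω⟩ := central_char_unit hη z hzc
  have hzz : z * z = 1 := by
    rw [← hz, ← pow_add]
    have : k + 1 + (k + 1) = orderOf c₀ := by omega
    rw [this, pow_orderOf_eq_one]
  have hk0 : (k : ℂ) ≠ 0 := by exact_mod_cast (by omega : k ≠ 0)
  have hω2 : ω = 1 ∨ ω = -1 := by
    have h1 := hω (z * 1)
    rw [hω 1, ← mul_assoc, hzz, one_mul, hd] at h1
    have h2 : (ω - 1) * (ω + 1) * (k : ℂ) = 0 := by linear_combination -h1
    rcases mul_eq_zero.mp h2 with h3 | h3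
    · rcases mul_eq_zero.mp h3 with h4 | h4
      · exact Or.inl (sub_eq_zero.mp h4)
      · exact Or.inr (eq_neg_of_add_eq_zero_left h4)
    · exact absurd h3 hk0
  have hN : 0 < 2 * (k + 1) := by omega
  have hζ := Complex.isPrimitiveRoot_exp (2 * (k + 1)) hN.ne'
  obtain ⟨ζ, hζdef⟩ : ∃ ζ : ℂ,
      ζ = Complex.exp (2 * Real.pi * Complex.I / ((2 * (k + 1) : ℕ) : ℂ)) := ⟨_, rfl⟩
  rw [← hζdef] at hζ
  have hc₀N : c₀ ^ (2 * (k + 1)) = 1 := by
    rw [← hord', pow_orderOf_eq_one]
  obtain ⟨m, hm⟩ := char_cyclic_dft hηch c₀ (2 * (k + 1)) hN hc₀N ζ hζ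
  obtain ⟨X, hXdef⟩ : ∃ X : ℕ → ℂ, X = fun j => η (c₀ ^ j) := ⟨_, rfl⟩
  have hXη : ∀ j, X j = η (c₀ ^ j) := by
    intro j
    rw [hXdef]
  have hX : ∀ j, X j = ∑ a ∈ Finset.range (2 * (k + 1)), (m a : ℂ) * ζ ^ (a * j) := by
    intro j
    rw [hXη]
    exact hm j
  have hsum : ∑ a ∈ Finset.range (2 * (k + 1)), m a = k := by
    have h1 := hX 0
    rw [hXη, pow_zero, hd] at h1
    simp only [mul_zero, pow_zero, mul_one] at h1
    rw [← Nat.cast_sum] at h1
    exact (Nat.cast_injective h1).symm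
  have hshift : ∀ j, X (j + (k + 1)) = ω * X j := by
    intro j
    rw [hXη, hXη, add_comm j (k + 1), pow_add, hz, hω]
  obtain ⟨P, hPdef⟩ : ∃ P : Matrix.SpecialLinearGroup (Fin 2) F → Prop,
      P = fun c => c ∈ Subgroup.zpowers c₀ ∧ ¬ (c = 1 ∨ c = z) := ⟨_, rfl⟩
  have hP : ∀ c, P c ↔ (c ∈ Subgroup.zpowers c₀ ∧ ¬ (c = 1 ∨ c = z)) := by
    intro c
    rw [hPdef]
  have hPell : ∀ c, P c → c * g₀ = g₀ * c ∧ IsEll c := by
    intro c hc
    rw [hP] at hc
    have hcomm := (hgen c).mpr hc.1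
    refine ⟨hcomm, isEll_of_centralizer hg₀ c hcomm ?_⟩
    intro h10
    apply hc.2
    rw [hzdef]
    exact centralizer_scalar hg₀ c hcomm h10
  obtain ⟨M, hMdef⟩ : ∃ M : Matrix.SpecialLinearGroup (Fin 2) F → ℕ,
      M = fun g => (Finset.univ.filter (fun x : Matrix.SpecialLinearGroup (Fin 2) F =>
        P (x⁻¹ * g * x))).card := ⟨_, rfl⟩
  have hM1 : ∀ g, IsEll g → M g ≤ 2 * (Fintype.card F + 1) := by
    intro g hg
    rw [hMdef]
    exact (conj_count_le hodd' hg₀ P hPell g).1 hg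
  have hM2 : ∀ g, ¬ IsEll g → M g = 0 := by
    intro g hg
    rw [hMdef]
    exact (conj_count_le hodd' hg₀ P hPell g).2 hg
  have hcardN : Fintype.card (Matrix.SpecialLinearGroup (Fin 2) F) =
      Fintype.card F * (Fintype.card F ^ 2 - 1) := by
    rw [← Nat.card_eq_fintype_card]
    exact S2301.card_SL2
  have hGC : (Fintype.card (Matrix.SpecialLinearGroup (Fin 2) F) : ℂ) =
      (Fintype.card F : ℂ) * (2 * (k : ℂ)) * ((Fintype.card F : ℂ) + 1) := by
    rw [hcardN]
    have : 1 ≤ Fintype.card F ^ 2 := Nat.one_le_pow _ _ Fintype.card_pos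
    push_cast [Nat.cast_sub this]
    rw [hqC]
    ring
  have hGR : (Fintype.card (Matrix.SpecialLinearGroup (Fin 2) F) : ℝ) =
      (Fintype.card F : ℝ) * (2 * (k : ℝ)) * ((Fintype.card F : ℝ) + 1) := by
    rw [hcardN]
    have : 1 ≤ Fintype.card F ^ 2 := Nat.one_le_pow _ _ Fintype.card_pos
    push_cast [Nat.cast_sub this]
    rw [hqR]
    ring
  have hqpos : (0 : ℝ) < (Fintype.card F : ℝ) := by exact_mod_cast Fintype.card_pos
  have hkpos : (0 : ℝ) < (k : ℝ) := by exact_mod_cast (by omega : 0 < k)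
  have hGpos : (0 : ℝ) < (Fintype.card F : ℝ) * (2 * (k : ℝ)) * ((Fintype.card F : ℝ) + 1) :=
    mul_pos (mul_pos hqpos (mul_pos two_pos hkpos)) (by linarith)
  obtain ⟨RT, hRT⟩ : ∃ RT : ℝ, RT = ∑ c : Matrix.SpecialLinearGroup (Fin 2) F,
      (if P c then Complex.normSq (η c) else 0) := ⟨_, rfl⟩
  have hdc : (Fintype.card (Matrix.SpecialLinearGroup (Fin 2) F) : ℝ) * RT =
      ∑ g : Matrix.SpecialLinearGroup (Fin 2) F, Complex.normSq (η g) * (M g : ℝ) := by
    rw [hRT, hMdef]
    exact conj_double_count P (fun g => Complex.normSq (η g)) (by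
      intro g h
      show Complex.normSq (η (h * g * h⁻¹)) = Complex.normSq (η g)
      rw [hηcf g h])
  have hS2r : ∑ g : Matrix.SpecialLinearGroup (Fin 2) F,
      (if IsEll g then Complex.normSq (η g) else 0) =
      2 * (Fintype.card F : ℝ) * (k : ℝ) ^ 2 := by
    have h1 := half_sub_ell_normSq hodd' hq hη hdeg
    rw [hd] at h1
    have h2 : ((∑ g : Matrix.SpecialLinearGroup (Fin 2) F,
        (if IsEll g then Complex.normSq (η g) else 0) : ℝ) : ℂ) =
        2 * (Fintype.card F : ℂ) * (k : ℂ) ^ 2 := by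
      rw [Complex.ofReal_sum, ← h1]
      refine Finset.sum_congr rfl (fun g _ => ?_)
      by_cases hE : IsEll g
      · rw [if_pos hE, if_pos hE, Complex.mul_conj]
      · rw [if_neg hE, if_neg hE, Complex.ofReal_zero]
    have h3 : ((2 * (Fintype.card F : ℝ) * (k : ℝ) ^ 2 : ℝ) : ℂ) =
        2 * (Fintype.card F : ℂ) * (k : ℂ) ^ 2 := by
      push_cast
      ring
    exact Complex.ofReal_injective (h2.trans h3.symm)
  have hterm_le : ∀ g ∈ (Finset.univ : Finset (Matrix.SpecialLinearGroup (Fin 2) F)),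
      Complex.normSq (η g) * (M g : ℝ) ≤
        (if IsEll g then Complex.normSq (η g) else 0) * (2 * ((Fintype.card F : ℝ) + 1)) := by
    intro g _
    by_cases hE : IsEll g
    · rw [if_pos hE]
      have h2 : (M g : ℝ) ≤ 2 * ((Fintype.card F : ℝ) + 1) := by
        exact_mod_cast hM1 g hE
      exact mul_le_mul_of_nonneg_left h2 (Complex.normSq_nonneg _)
    · rw [if_neg hE, hM2 g hE]
      simp
  have hRT_le : RT ≤ 2 * (k : ℝ) := by
    have h1 : (Fintype.card (Matrix.SpecialLinearGroup (Fin 2) F) : ℝ) * RT ≤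
        2 * (Fintype.card F : ℝ) * (k : ℝ) ^ 2 * (2 * ((Fintype.card F : ℝ) + 1)) := by
      rw [hdc, ← hS2r, Finset.sum_mul]
      exact Finset.sum_le_sum hterm_le
    rw [hGR] at h1
    have e : 2 * (Fintype.card F : ℝ) * (k : ℝ) ^ 2 * (2 * ((Fintype.card F : ℝ) + 1)) =
        ((Fintype.card F : ℝ) * (2 * (k : ℝ)) * ((Fintype.card F : ℝ) + 1)) * (2 * (k : ℝ)) := by
      ring
    rw [e] at h1
    exact le_of_mul_le_mul_left h1 hGpos
  have hnω : Complex.normSq ω = 1 := by
    rcases hω2 with h | h <;> rw [h] <;> simp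
  have hXsum : ∑ j ∈ Finset.range (2 * (k + 1)), Complex.normSq (X j) =
      2 * (k : ℝ) ^ 2 + RT := by
    have h1 : ∀ j ∈ Finset.range (2 * (k + 1)), Complex.normSq (X j) =
        (if (k + 1) ∣ j then Complex.normSq (X j) else 0) +
          (if (k + 1) ∣ j then 0 else Complex.normSq (X j)) := by
      intro j _
      by_cases h : (k + 1) ∣ j
      · rw [if_pos h, if_pos h, add_zero]
      · rw [if_neg h, if_neg h, zero_add]
    rw [Finset.sum_congr rfl h1, Finset.sum_add_distrib]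
    have h2 : ∑ j ∈ Finset.range (2 * (k + 1)),
        (if (k + 1) ∣ j then 0 else Complex.normSq (X j)) = RT := by
      rw [hRT, sum_zpowers_off c₀ z (k + 1) (by omega) hord' hz P hP
        (fun c => Complex.normSq (η c))]
      exact Finset.sum_congr rfl (fun j _ => by rw [hXη])
    have h3 : ∑ j ∈ Finset.range (2 * (k + 1)),
        (if (k + 1) ∣ j then Complex.normSq (X j) else 0) = 2 * (k : ℝ) ^ 2 := by
      have h4 : 2 * (k + 1) = (k + 1) + (k + 1) := by ring
      rw [h4, Finset.sum_range_add, Finset.sum_eq_single 0, Finset.sum_eq_single 0]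
      · rw [if_pos (dvd_zero _), if_pos (by simp), hXη, hXη, pow_zero, add_zero, hz]
        have h5 := hω 1
        rw [mul_one] at h5
        rw [h5, hd, map_mul, hnω, one_mul, Complex.normSq_natCast]
        ring
      · intro b hb hb0
        rw [if_neg]
        intro hdvd
        have h5 : (k + 1) ∣ b := (Nat.dvd_add_right (dvd_refl (k + 1))).mp hdvd
        have := Nat.le_of_dvd (Nat.pos_of_ne_zero hb0) h5
        have := Finset.mem_range.mp hb
        omega
      · intro h
        exact absurd (Finset.mem_range.mpr (by omega)) h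
      · intro b hb hb0
        rw [if_neg]
        intro hdvd
        have := Nat.le_of_dvd (Nat.pos_of_ne_zero hb0) hdvd
        have := Finset.mem_range.mp hb
        omega
      · intro h
        exact absurd (Finset.mem_range.mpr (by omega)) h
    rw [h2, h3]
  have hparR : ∑ j ∈ Finset.range (2 * (k + 1)), Complex.normSq (X j) =
      ((2 * (k + 1) : ℕ) : ℝ) * ((∑ a ∈ Finset.range (2 * (k + 1)), m a ^ 2 : ℕ) : ℝ) := by
    have hpar := dft_parseval (2 * (k + 1)) hN ζ hζ m X hX
    apply Complex.ofReal_injective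
    rw [Complex.ofReal_sum]
    have h1 : ∀ j ∈ Finset.range (2 * (k + 1)), ((Complex.normSq (X j) : ℝ) : ℂ) =
        X j * conj (X j) := fun j _ => (Complex.mul_conj (X j)).symm
    rw [Finset.sum_congr rfl h1, hpar]
    push_cast
    ring
  have hmsq : ∑ a ∈ Finset.range (2 * (k + 1)), m a ^ 2 ≤
      ∑ a ∈ Finset.range (2 * (k + 1)), m a := by
    rw [hsum]
    have h1 : ((2 * (k + 1) : ℕ) : ℝ) *
        ((∑ a ∈ Finset.range (2 * (k + 1)), m a ^ 2 : ℕ) : ℝ) ≤
        ((2 * (k + 1) : ℕ) : ℝ) * (k : ℝ) := by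
      rw [← hparR, hXsum]
      push_cast
      nlinarith [hRT_le]
    have hNpos : (0 : ℝ) < ((2 * (k + 1) : ℕ) : ℝ) := by exact_mod_cast hN
    have h2 : ((∑ a ∈ Finset.range (2 * (k + 1)), m a ^ 2 : ℕ) : ℝ) ≤ (k : ℝ) :=
      le_of_mul_le_mul_left h1 hNpos
    exact_mod_cast h2
  obtain ⟨hle, hmeq⟩ := nat_sq_le _ m hmsq
  have hRT_eq : RT = 2 * (k : ℝ) := by
    have h1 : ((2 * (k + 1) : ℕ) : ℝ) *
        ((∑ a ∈ Finset.range (2 * (k + 1)), m a ^ 2 : ℕ) : ℝ) = 2 * (k : ℝ) ^ 2 + RT := by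
      rw [← hparR, hXsum]
    rw [hmeq, hsum] at h1
    push_cast at h1
    linarith
  have hterm_eq : ∀ g ∈ (Finset.univ : Finset (Matrix.SpecialLinearGroup (Fin 2) F)),
      Complex.normSq (η g) * (M g : ℝ) =
        (if IsEll g then Complex.normSq (η g) else 0) * (2 * ((Fintype.card F : ℝ) + 1)) := by
    apply (Finset.sum_eq_sum_iff_of_le hterm_le).mp
    rw [← hdc, ← Finset.sum_mul, hS2r, hGR, hRT_eq]
    ring
  have hηM : ∀ g : Matrix.SpecialLinearGroup (Fin 2) F, η g * ((M g : ℕ) : ℂ) =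
      (if IsEll g then η g else 0) * (2 * ((Fintype.card F : ℂ) + 1)) := by
    intro g
    have h1 := hterm_eq g (Finset.mem_univ _)
    by_cases hE : IsEll g
    · rw [if_pos hE] at h1 ⊢
      by_cases h0 : η g = 0
      · rw [h0]
        simp
      · have hn0 : Complex.normSq (η g) ≠ 0 := fun h => h0 (Complex.normSq_eq_zero.mp h)
        have h2 : ((M g : ℕ) : ℝ) = 2 * ((Fintype.card F : ℝ) + 1) := mul_left_cancel₀ hn0 h1
        have h3 : ((M g : ℕ) : ℂ) = 2 * ((Fintype.card F : ℂ) + 1) := by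
          exact_mod_cast h2
        rw [h3]
    · rw [if_neg hE, hM2 g hE]
      simp
  have hω' : ∀ g, η (sBorelMat (-1) 0 * g) = ω * η g := by
    intro g
    rw [← hzdef]
    exact hω g
  have hTsum : ∑ c : Matrix.SpecialLinearGroup (Fin 2) F, (if P c then η c else 0) = 1 + ω := by
    have hdcC : (Fintype.card (Matrix.SpecialLinearGroup (Fin 2) F) : ℂ) *
        ∑ c : Matrix.SpecialLinearGroup (Fin 2) F, (if P c then η c else 0) =
        ∑ g : Matrix.SpecialLinearGroup (Fin 2) F, η g * ((M g : ℕ) : ℂ) := by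
      rw [hMdef]
      exact conj_double_count P η hηcf
    have h1 : (Fintype.card (Matrix.SpecialLinearGroup (Fin 2) F) : ℂ) *
        ∑ c : Matrix.SpecialLinearGroup (Fin 2) F, (if P c then η c else 0) =
        (Fintype.card F : ℂ) * (k : ℂ) * (1 + ω) * (2 * ((Fintype.card F : ℂ) + 1)) := by
      rw [hdcC, Finset.sum_congr rfl (fun g _ => hηM g), ← Finset.sum_mul,
        half_sub_ell_sum hodd' hq hη hdeg ω hω', hd]
    rw [hGC] at h1
    have hne : (Fintype.card F : ℂ) * (2 * (k : ℂ)) * ((Fintype.card F : ℂ) + 1) ≠ 0 := by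
      have h3 : ((Fintype.card F : ℝ) * (2 * (k : ℝ)) * ((Fintype.card F : ℝ) + 1) : ℝ) ≠ 0 :=
        hGpos.ne'
      have h4 : (((Fintype.card F : ℝ) * (2 * (k : ℝ)) * ((Fintype.card F : ℝ) + 1) : ℝ) : ℂ)
          ≠ 0 := Complex.ofReal_ne_zero.mpr h3
      push_cast at h4
      exact h4
    apply mul_left_cancel₀ hne
    linear_combination h1
  have hT : ∑ j ∈ Finset.range (2 * (k + 1)), (if (k + 1) ∣ j then 0 else X j) = 1 + ω := by
    rw [← hTsum, sum_zpowers_off c₀ z (k + 1) (by omega) hord' hz P hP η]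
    exact Finset.sum_congr rfl (fun j _ => by rw [hXη])
  have hc₀P : P c₀ := by
    rw [hP]
    refine ⟨Subgroup.mem_zpowers c₀, ?_⟩
    rintro (h | h)
    · have := orderOf_eq_one_iff.mpr h
      omega
    · have h1 : (1 : ℕ) = k + 1 := pow_injOn_Iio_orderOf
        (show (1 : ℕ) ∈ Set.Iio (orderOf c₀) by rw [Set.mem_Iio]; omega)
        (show k + 1 ∈ Set.Iio (orderOf c₀) by rw [Set.mem_Iio]; omega) (by
          show c₀ ^ 1 = c₀ ^ (k + 1)
          rw [pow_one, hz, h])
      omega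
  have hreal : conj (X 1) = X 1 := by
    rw [hXη, pow_one, ← Helper24.char_inv hηch c₀]
    exact cf_inv_of_isEll hodd' hηcf (hPell c₀ hc₀P).2
  have hval := dft_half (k + 1) (by omega) ζ hζ m X hX ω hω2
    (by rw [Nat.add_sub_cancel]; exact hsum)
    (fun a ha => hle a (Finset.mem_range.mpr ha)) hshift hreal hT
  have hg₀mem : g₀ ∈ Subgroup.zpowers c₀ := (hgen g₀).mp rfl
  obtain ⟨j₀, hj₀, hg₀eq⟩ : ∃ j₀, j₀ < 2 * (k + 1) ∧ c₀ ^ j₀ = g₀ := by
    have h1 : g₀ ∈ Submonoid.powers c₀ := mem_powers_iff_mem_zpowers.mpr hg₀mem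
    rw [mem_powers_iff_mem_range_orderOf] at h1
    obtain ⟨j, hj, hjeq⟩ := Finset.mem_image.mp h1
    exact ⟨j, by rw [← hord']; exact Finset.mem_range.mp hj, hjeq⟩
  have hj₀nd : ¬ (k + 1) ∣ j₀ := by
    rintro ⟨t, ht⟩
    have ht2 : t < 2 := by
      by_contra hcon
      have h2 : 2 ≤ t := by omega
      have h3 : (k + 1) * 2 ≤ (k + 1) * t := Nat.mul_le_mul_left _ h2
      omega
    interval_cases t
    · rw [ht, mul_zero, pow_zero] at hg₀eq
      apply hg₀.entry_ne
      rw [← hg₀eq, Matrix.SpecialLinearGroup.coe_one]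
      exact Matrix.one_apply_ne (by decide)
    · rw [ht, mul_one, hz] at hg₀eq
      apply hg₀.entry_ne
      rw [← hg₀eq]
      exact hz10
  have hηg₀ : η g₀ = -(-1) ^ j₀ := by
    rw [← hg₀eq, ← hXη]
    exact hval j₀ hj₀nd
  have hpow : g₀ ^ (k + 1) = z ^ j₀ := by
    rw [← hg₀eq, ← pow_mul, mul_comm, pow_mul, hz]
  rw [hhalf']
  constructor
  · intro h1
    rw [hpow] at h1
    have hev : Even j₀ := by
      by_contra hodd0
      rw [Nat.not_even_iff_odd] at hodd0
      obtain ⟨t, ht⟩ := hodd0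
      rw [ht, pow_succ, pow_mul, sq, hzz, one_pow, one_mul] at h1
      exact hz1 h1
    rw [hηg₀, hev.neg_one_pow]
  · intro h1
    have hodd0 : Odd j₀ := by
      by_contra hev
      rw [Nat.not_odd_iff_even] at hev
      apply h1
      rw [hpow]
      obtain ⟨t, ht⟩ := hev
      rw [ht, ← two_mul, pow_mul, sq, hzz, one_pow]
    rw [hηg₀, hodd0.neg_one_pow]
    norm_num

theorem mulChar_two_apply (γ : MulChar F ℂ) (hγ : γ ^ 2 = 1) (x : Fˣ) :
    γ (x : F) * γ (x : F) = 1 := by
  have h := congrArg (fun χ : MulChar F ℂ => χ (x : F)) hγ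
  simp only [MulChar.pow_apply_coe, MulChar.one_apply_coe] at h
  rw [← sq]
  exact h

/-- The values at the split regular elements of an irreducible character of `SL₂(q)` of degree
`(q + 1) / 2`, `q ≥ 5` odd. -/
theorem half_add_split (hodd : Odd (Fintype.card F)) (hq : 5 ≤ Fintype.card F)
    {θ : Matrix.SpecialLinearGroup (Fin 2) F → ℂ}
    (hθ : IsIrrCharacter (Matrix.SpecialLinearGroup (Fin 2) F) θ)
    (hdeg : θ 1 = (((Fintype.card F + 1) / 2 : ℕ) : ℂ))
    (g : Matrix.SpecialLinearGroup (Fin 2) F)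
    (h01 : (g : Matrix (Fin 2) (Fin 2) F) 0 1 = 0) (h10 : (g : Matrix (Fin 2) (Fin 2) F) 1 0 = 0)
    (hsq : (g : Matrix (Fin 2) (Fin 2) F) 0 0 ^ 2 ≠ 1) :
    (IsSquare ((g : Matrix (Fin 2) (Fin 2) F) 0 0) → θ g = 1) ∧
    (¬ IsSquare ((g : Matrix (Fin 2) (Fin 2) F) 0 0) → θ g = -1) := by
  obtain ⟨γ, hγ, hγ1, hin⟩ := irr_deg_half_add hodd hq hθ hdeg
  have hps : IsIrrCharacter (Matrix.GeneralLinearGroup (Fin 2) F) (psFun γ 1) :=
    isIrrCharacter_psFun hγ1
  have hres : resS (psFun γ 1) = rFun γ := by rw [resS_psFun, inv_one, mul_one]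
  have hn : classInner (resS (psFun γ 1)) (resS (psFun γ 1)) = 2 := by
    rw [hres]
    exact norm_rFun_two hγ
  have h := two_mul_of_centralizer hps hn hθ (by rw [hres]; exact hin) g
    (centralizer_diag g h01 h10)
  have hdet := g.det_coe
  rw [Matrix.det_fin_two, h01, zero_mul, sub_zero] at hdet
  have hcoe : ((Matrix.SpecialLinearGroup.toGL g : Matrix.GeneralLinearGroup (Fin 2) F) :
      Matrix (Fin 2) (Fin 2) F) = (g : Matrix (Fin 2) (Fin 2) F) := rfl
  obtain ⟨a, d, ha, hd, hgB⟩ := exists_eq_borelMat (Matrix.SpecialLinearGroup.toGL g)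
    (by rw [hcoe]; exact h10)
  rw [hcoe] at ha hd hgB
  rw [h01] at hgB
  have had : (a : F) ≠ (d : F) := by
    intro had
    apply hsq
    rw [← hd, ← had, ha] at hdet
    rw [sq]
    exact hdet
  rw [hgB, psFun_split γ 1 a d had, MulChar.one_apply_coe, MulChar.one_apply_coe, mul_one,
    one_mul] at h
  have had1 : (a : F) * (d : F) = 1 := by
    rw [ha, hd]
    exact hdet
  have hγad : γ (a : F) * γ (d : F) = 1 := by rw [← map_mul, had1, map_one]
  have hγa2 : γ (a : F) * γ (a : F) = 1 := mulChar_two_apply γ hγ a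
  have hγd : γ (d : F) = γ (a : F) := by
    calc γ (d : F) = γ (d : F) * (γ (a : F) * γ (a : F)) := by rw [hγa2, mul_one]
      _ = (γ (a : F) * γ (d : F)) * γ (a : F) := by ring
      _ = γ (a : F) := by rw [hγad, one_mul]
  rw [hγd] at h
  have hθg : θ g = γ (a : F) := by linear_combination h / 2
  rw [hθg]
  constructor
  · intro hs
    rw [← ha] at hs
    obtain ⟨r, hr⟩ := hs
    have hr0 : r ≠ 0 := by
      rintro rfl
      rw [mul_zero] at hr
      exact a.ne_zero hr
    rw [hr, map_mul]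
    exact mulChar_two_apply γ hγ (Units.mk0 r hr0)
  · intro hns
    rw [← ha] at hns
    have h1 : (γ (a : F) - 1) * (γ (a : F) + 1) = 0 := by linear_combination hγa2
    rcases mul_eq_zero.mp h1 with h2 | h2
    · exfalso
      apply hγ1
      ext x
      rw [MulChar.one_apply_coe]
      obtain ⟨e, he0, he | he⟩ := Helper6.exists_sq_or_nonsq_mul_sq hns (x : F) x.ne_zero
      · rw [he, map_mul]
        exact mulChar_two_apply γ hγ (Units.mk0 e he0)
      · rw [he, map_mul, map_mul, sub_eq_zero.mp h2, one_mul]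
        exact mulChar_two_apply γ hγ (Units.mk0 e he0)
    · exact eq_neg_of_add_eq_zero_left h2

end HalfEll

end Cfsg.Agent.Helper13
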