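import Mathlib
import Cfsg.Agent.Helper13.SL2HalfEll
import Cfsg.Agent.Helper13.CycDFT2
import Cfsg.Agent.Helper13.SL2CuspSum

/-!
# The characters of degree `q - 1` of `SL₂(q)` on the non-split torus
-/

set_option autoImplicit false

namespace Cfsg.Agent.Helper13

open Cfsg
open scoped ComplexConjugate

section CuspTorus

variable {F : Type*} [Field F] [Fintype F] [DecidableEq F]

/-- An element of order `q + 1` without eigenvector generates its centralizer. -/
theorem torus_of_order (hodd : Odd (Fintype.card F))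
    {c₀ : Matrix.SpecialLinearGroup (Fin 2) F} (hord : orderOf c₀ = Fintype.card F + 1)
    (hc₀ : IsEll c₀) :
    (∀ c : Matrix.SpecialLinearGroup (Fin 2) F, c * c₀ = c₀ * c ↔ c ∈ Subgroup.zpowers c₀) ∧
      c₀ ^ ((Fintype.card F + 1) / 2) = sBorelMat (-1) 0 := by
  have hle : Subgroup.zpowers c₀ ≤
      Subgroup.centralizer ({c₀} : Set (Matrix.SpecialLinearGroup (Fin 2) F)) := by
    rw [Subgroup.zpowers_le]
    exact Subgroup.mem_centralizer_singleton_iff.mpr rfl
  have heq : Subgroup.zpowers c₀ =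
      Subgroup.centralizer ({c₀} : Set (Matrix.SpecialLinearGroup (Fin 2) F)) := by
    apply Subgroup.eq_of_le_of_card_ge hle
    rw [card_centralizer_SL hodd hc₀, Nat.card_zpowers, hord]
  constructor
  · intro c
    rw [heq, Subgroup.mem_centralizer_singleton_iff]
  · have h2F := two_ne_zero_of_odd_card hodd
    obtain ⟨k, hk⟩ := hodd
    have hh : (Fintype.card F + 1) / 2 = k + 1 := by omega
    apply involution_eq h2F
    · rw [← pow_add, hh]
      have : k + 1 + (k + 1) = orderOf c₀ := by omega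
      rw [this, pow_orderOf_eq_one]
    · intro h
      have := orderOf_le_of_pow_eq_one (by omega) h
      omega

/-- The values on a cyclic group of order `q + 1` of an irreducible character of `SL₂(q)` of
degree `q - 1`, `q ≥ 5` odd. -/
theorem cusp_torus_values (hodd : Odd (Fintype.card F)) (hq : 5 ≤ Fintype.card F)
    [DecidablePred (fun g : Matrix.SpecialLinearGroup (Fin 2) F => IsEll g)]
    {χ : Matrix.SpecialLinearGroup (Fin 2) F → ℂ}
    (hχ : IsIrrCharacter (Matrix.SpecialLinearGroup (Fin 2) F) χ)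
    (hdeg : χ 1 = (Fintype.card F : ℂ) - 1)
    (c₀ : Matrix.SpecialLinearGroup (Fin 2) F) (hord : orderOf c₀ = Fintype.card F + 1)
    (hc₀ : IsEll c₀)
    (P : Matrix.SpecialLinearGroup (Fin 2) F → Prop) [DecidablePred P]
    (hP : ∀ c, P c ↔ (c ∈ Subgroup.zpowers c₀ ∧ ¬ (c = 1 ∨ c = sBorelMat (-1) 0)))
    (ζ : ℂ) (hζ : IsPrimitiveRoot ζ (Fintype.card F + 1)) :
    ∃ a : ℕ, a < Fintype.card F + 1 ∧ ζ ^ (2 * a) ≠ 1 ∧
      (∀ j, ¬ ((Fintype.card F + 1) / 2) ∣ j →
        χ (c₀ ^ j) = -(ζ ^ (a * j) + (ζ ^ (a * j))⁻¹)) ∧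
      (∀ g, χ (sBorelMat (-1) 0 * g) = (-1) ^ a * χ g) ∧
      (∀ g, χ g * ((Finset.univ.filter (fun x : Matrix.SpecialLinearGroup (Fin 2) F =>
          P (x⁻¹ * g * x))).card : ℂ) =
        (if IsEll g then χ g else 0) * (2 * ((Fintype.card F : ℂ) + 1))) := by
  classical
  have hodd' := hodd
  obtain ⟨k, hk⟩ := hodd
  have hhalf' : (Fintype.card F + 1) / 2 = k + 1 := by omega
  have hN2 : Fintype.card F + 1 = 2 * (k + 1) := by omega
  have hk2 : 2 ≤ k := by omega
  have hqC : (Fintype.card F : ℂ) = 2 * (k : ℂ) + 1 := by rw [hk]; push_cast; ring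
  have hqR : (Fintype.card F : ℝ) = 2 * (k : ℝ) + 1 := by rw [hk]; push_cast; ring
  have hd : χ 1 = 2 * (k : ℂ) := by rw [hdeg, hqC]; ring
  have hχcf := Helper2.IsIrrCharacter.isClassFunction hχ
  have hχch := Helper24.isCharacter_of_irr hχ
  have h2F := two_ne_zero_of_odd_card hodd'
  obtain ⟨hgen, hz⟩ := torus_of_order hodd' hord hc₀
  obtain ⟨z, hzdef⟩ : ∃ z : Matrix.SpecialLinearGroup (Fin 2) F, z = sBorelMat (-1) 0 :=
    ⟨_, rfl⟩
  rw [hhalf', ← hzdef] at hz
  rw [← hzdef] at hP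
  rw [hhalf', ← hzdef, hN2]
  rw [hN2] at hζ
  have hord' : orderOf c₀ = 2 * (k + 1) := by omega
  have hzc : z ∈ Subgroup.center (Matrix.SpecialLinearGroup (Fin 2) F) := by
    rw [hzdef]
    exact sBorelMat_scalar_central (-1) neg_one_units_inv
  have hz1 : z ≠ 1 := by
    rw [hzdef]
    exact sBorelMat_neg_one_ne_one h2F
  obtain ⟨ω, hω1, hω⟩ := central_char_unit hχ z hzc
  have hzz : z * z = 1 := by
    rw [← hz, ← pow_add]
    have : k + 1 + (k + 1) = orderOf c₀ := by omega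
    rw [this, pow_orderOf_eq_one]
  have hk0 : (k : ℂ) ≠ 0 := by exact_mod_cast (by omega : k ≠ 0)
  have hω2 : ω = 1 ∨ ω = -1 := by
    have h1 := hω (z * 1)
    rw [hω 1, ← mul_assoc, hzz, one_mul, hd] at h1
    have h2 : (ω - 1) * (ω + 1) * (k : ℂ) = 0 := by linear_combination -h1 / 2
    rcases mul_eq_zero.mp h2 with h3 | h3
    · rcases mul_eq_zero.mp h3 with h4 | h4
      · exact Or.inl (sub_eq_zero.mp h4)
      · exact Or.inr (eq_neg_of_add_eq_zero_left h4)
    · exact absurd h3 hk0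
  have hN : 0 < 2 * (k + 1) := by omega
  have hc₀N : c₀ ^ (2 * (k + 1)) = 1 := by
    rw [← hord', pow_orderOf_eq_one]
  obtain ⟨m, hm⟩ := char_cyclic_dft hχch c₀ (2 * (k + 1)) hN hc₀N ζ hζ
  obtain ⟨X, hXdef⟩ : ∃ X : ℕ → ℂ, X = fun j => χ (c₀ ^ j) := ⟨_, rfl⟩
  have hXχ : ∀ j, X j = χ (c₀ ^ j) := by
    intro j
    rw [hXdef]
  have hX : ∀ j, X j = ∑ a ∈ Finset.range (2 * (k + 1)), (m a : ℂ) * ζ ^ (a * j) := by
    intro j
    rw [hXχ]
    exact hm j
  have hsum : ∑ a ∈ Finset.range (2 * (k + 1)), m a = 2 * k := by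
    have h1 := hX 0
    rw [hXχ, pow_zero, hd] at h1
    simp only [mul_zero, pow_zero, mul_one] at h1
    rw [← Nat.cast_sum] at h1
    have h2 : ((2 * k : ℕ) : ℂ) = ((∑ a ∈ Finset.range (2 * (k + 1)), m a : ℕ) : ℂ) := by
      rw [← h1]
      push_cast
      ring
    exact (Nat.cast_injective h2).symm
  have hshift : ∀ j, X (j + (k + 1)) = ω * X j := by
    intro j
    rw [hXχ, hXχ, add_comm j (k + 1), pow_add, hz, hω]
  have hPell : ∀ c, P c → c * c₀ = c₀ * c ∧ IsEll c := by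
    intro c hc
    rw [hP] at hc
    have hcomm := (hgen c).mpr hc.1
    refine ⟨hcomm, isEll_of_centralizer hc₀ c hcomm ?_⟩
    intro h10
    apply hc.2
    rw [hzdef]
    exact centralizer_scalar hc₀ c hcomm h10
  obtain ⟨M, hMdef⟩ : ∃ M : Matrix.SpecialLinearGroup (Fin 2) F → ℕ,
      M = fun g => (Finset.univ.filter (fun x : Matrix.SpecialLinearGroup (Fin 2) F =>
        P (x⁻¹ * g * x))).card := ⟨_, rfl⟩
  have hM1 : ∀ g, IsEll g → M g ≤ 2 * (Fintype.card F + 1) := by
    intro g hg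
    rw [hMdef]
    exact (conj_count_le hodd' hc₀ P hPell g).1 hg
  have hM2 : ∀ g, ¬ IsEll g → M g = 0 := by
    intro g hg
    rw [hMdef]
    exact (conj_count_le hodd' hc₀ P hPell g).2 hg
  have hcardN : Fintype.card (Matrix.SpecialLinearGroup (Fin 2) F) =
      Fintype.card F * (Fintype.card F ^ 2 - 1) := by
    rw [← Nat.card_eq_fintype_card]
    exact S2301.card_SL2
  have hGC : (Fintype.card (Matrix.SpecialLinearGroup (Fin 2) F) : ℂ) =
      (Fintype.card F : ℂ) * (2 * (k : ℂ)) * ((Fintype.card F : ℂ) + 1) := by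
    rw [hcardN]
    have : 1 ≤ Fintype.card F ^ 2 := Nat.one_le_pow _ _ Fintype.card_pos
    push_cast [Nat.cast_sub this]
    rw [hqC]
    ring
  have hGR : (Fintype.card (Matrix.SpecialLinearGroup (Fin 2) F) : ℝ) =
      (Fintype.card F : ℝ) * (2 * (k : ℝ)) * ((Fintype.card F : ℝ) + 1) := by
    rw [hcardN]
    have : 1 ≤ Fintype.card F ^ 2 := Nat.one_le_pow _ _ Fintype.card_pos
    push_cast [Nat.cast_sub this]
    rw [hqR]
    ring
  have hqpos : (0 : ℝ) < (Fintype.card F : ℝ) := by exact_mod_cast Fintype.card_pos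
  have hkpos : (0 : ℝ) < (k : ℝ) := by exact_mod_cast (by omega : 0 < k)
  have hGpos : (0 : ℝ) < (Fintype.card F : ℝ) * (2 * (k : ℝ)) * ((Fintype.card F : ℝ) + 1) :=
    mul_pos (mul_pos hqpos (mul_pos two_pos hkpos)) (by linarith)
  obtain ⟨RT, hRT⟩ : ∃ RT : ℝ, RT = ∑ c : Matrix.SpecialLinearGroup (Fin 2) F,
      (if P c then Complex.normSq (χ c) else 0) := ⟨_, rfl⟩
  have hdc : (Fintype.card (Matrix.SpecialLinearGroup (Fin 2) F) : ℝ) * RT =
      ∑ g : Matrix.SpecialLinearGroup (Fin 2) F, Complex.normSq (χ g) * (M g : ℝ) := by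
    rw [hRT, hMdef]
    exact conj_double_count P (fun g => Complex.normSq (χ g)) (by
      intro g h
      show Complex.normSq (χ (h * g * h⁻¹)) = Complex.normSq (χ g)
      rw [hχcf g h])
  have hS2r : ∑ g : Matrix.SpecialLinearGroup (Fin 2) F,
      (if IsEll g then Complex.normSq (χ g) else 0) =
      (Fintype.card F : ℝ) * (2 * (k : ℝ)) * (2 * (k : ℝ) - 2) := by
    have h1 := cusp_ell_normSq hodd' hq hχ hdeg
    have h2 : ((∑ g : Matrix.SpecialLinearGroup (Fin 2) F,
        (if IsEll g then Complex.normSq (χ g) else 0) : ℝ) : ℂ) =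
        (Fintype.card F : ℂ) * ((Fintype.card F : ℂ) - 1) * ((Fintype.card F : ℂ) - 3) := by
      rw [Complex.ofReal_sum, ← h1]
      refine Finset.sum_congr rfl (fun g _ => ?_)
      by_cases hE : IsEll g
      · rw [if_pos hE, if_pos hE, Complex.mul_conj]
      · rw [if_neg hE, if_neg hE, Complex.ofReal_zero]
    have h3 : (((Fintype.card F : ℝ) * (2 * (k : ℝ)) * (2 * (k : ℝ) - 2) : ℝ) : ℂ) =
        (Fintype.card F : ℂ) * ((Fintype.card F : ℂ) - 1) * ((Fintype.card F : ℂ) - 3) := by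
      push_cast
      rw [hqC]
      ring
    exact Complex.ofReal_injective (h2.trans h3.symm)
  have hterm_le : ∀ g ∈ (Finset.univ : Finset (Matrix.SpecialLinearGroup (Fin 2) F)),
      Complex.normSq (χ g) * (M g : ℝ) ≤
        (if IsEll g then Complex.normSq (χ g) else 0) * (2 * ((Fintype.card F : ℝ) + 1)) := by
    intro g _
    by_cases hE : IsEll g
    · rw [if_pos hE]
      have h2 : (M g : ℝ) ≤ 2 * ((Fintype.card F : ℝ) + 1) := by
        exact_mod_cast hM1 g hE
      exact mul_le_mul_of_nonneg_left h2 (Complex.normSq_nonneg _)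
    · rw [if_neg hE, hM2 g hE]
      simp
  have hRT_le : RT ≤ 4 * (k : ℝ) - 4 := by
    have h1 : (Fintype.card (Matrix.SpecialLinearGroup (Fin 2) F) : ℝ) * RT ≤
        (Fintype.card F : ℝ) * (2 * (k : ℝ)) * (2 * (k : ℝ) - 2) *
          (2 * ((Fintype.card F : ℝ) + 1)) := by
      rw [hdc, ← hS2r, Finset.sum_mul]
      exact Finset.sum_le_sum hterm_le
    rw [hGR] at h1
    have e : (Fintype.card F : ℝ) * (2 * (k : ℝ)) * (2 * (k : ℝ) - 2) *
          (2 * ((Fintype.card F : ℝ) + 1)) =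
        ((Fintype.card F : ℝ) * (2 * (k : ℝ)) * ((Fintype.card F : ℝ) + 1)) *
          (4 * (k : ℝ) - 4) := by
      ring
    rw [e] at h1
    exact le_of_mul_le_mul_left h1 hGpos
  have hnω : Complex.normSq ω = 1 := by
    rcases hω2 with h | h <;> rw [h] <;> simp
  have hXsum : ∑ j ∈ Finset.range (2 * (k + 1)), Complex.normSq (X j) =
      8 * (k : ℝ) ^ 2 + RT := by
    have h1 : ∀ j ∈ Finset.range (2 * (k + 1)), Complex.normSq (X j) =
        (if (k + 1) ∣ j then Complex.normSq (X j) else 0) +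
          (if (k + 1) ∣ j then 0 else Complex.normSq (X j)) := by
      intro j _
      by_cases h : (k + 1) ∣ j
      · rw [if_pos h, if_pos h, add_zero]
      · rw [if_neg h, if_neg h, zero_add]
    rw [Finset.sum_congr rfl h1, Finset.sum_add_distrib]
    have h2 : ∑ j ∈ Finset.range (2 * (k + 1)),
        (if (k + 1) ∣ j then 0 else Complex.normSq (X j)) = RT := by
      rw [hRT, sum_zpowers_off c₀ z (k + 1) (by omega) hord' hz P hP
        (fun c => Complex.normSq (χ c))]
      exact Finset.sum_congr rfl (fun j _ => by rw [hXχ])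
    have h3 : ∑ j ∈ Finset.range (2 * (k + 1)),
        (if (k + 1) ∣ j then Complex.normSq (X j) else 0) = 8 * (k : ℝ) ^ 2 := by
      have h4 : 2 * (k + 1) = (k + 1) + (k + 1) := by ring
      rw [h4, Finset.sum_range_add, Finset.sum_eq_single 0, Finset.sum_eq_single 0]
      · rw [if_pos (dvd_zero _), if_pos (by simp), hXχ, hXχ, pow_zero, add_zero, hz]
        have h5 := hω 1
        rw [mul_one] at h5
        have h6 : Complex.normSq (2 * (k : ℂ)) = 4 * (k : ℝ) ^ 2 := by
          rw [map_mul, Complex.normSq_natCast]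
          have : Complex.normSq (2 : ℂ) = 4 := by
            rw [show (2 : ℂ) = ((2 : ℕ) : ℂ) by norm_num, Complex.normSq_natCast]
            norm_num
          rw [this]
          ring
        have h7 : Complex.normSq (ω * (2 * (k : ℂ))) = 4 * (k : ℝ) ^ 2 := by
          rw [map_mul, hnω, one_mul, h6]
        rw [h5, hd, h6, h7]
        ring
      · intro b hb hb0
        rw [if_neg]
        intro hdvd
        have h5 : (k + 1) ∣ b := (Nat.dvd_add_right (dvd_refl (k + 1))).mp hdvd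
        have := Nat.le_of_dvd (Nat.pos_of_ne_zero hb0) h5
        have := Finset.mem_range.mp hb
        omega
      · intro h
        exact absurd (Finset.mem_range.mpr (by omega)) h
      · intro b hb hb0
        rw [if_neg]
        intro hdvd
        have := Nat.le_of_dvd (Nat.pos_of_ne_zero hb0) hdvd
        have := Finset.mem_range.mp hb
        omega
      · intro h
        exact absurd (Finset.mem_range.mpr (by omega)) h
    rw [h2, h3]
  have hparR : ∑ j ∈ Finset.range (2 * (k + 1)), Complex.normSq (X j) =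
      ((2 * (k + 1) : ℕ) : ℝ) * ((∑ a ∈ Finset.range (2 * (k + 1)), m a ^ 2 : ℕ) : ℝ) := by
    have hpar := dft_parseval (2 * (k + 1)) hN ζ hζ m X hX
    apply Complex.ofReal_injective
    rw [Complex.ofReal_sum]
    have h1 : ∀ j ∈ Finset.range (2 * (k + 1)), ((Complex.normSq (X j) : ℝ) : ℂ) =
        X j * conj (X j) := fun j _ => (Complex.mul_conj (X j)).symm
    rw [Finset.sum_congr rfl h1, hpar]
    push_cast
    ring
  have hNpos : (0 : ℝ) < ((2 * (k + 1) : ℕ) : ℝ) := by exact_mod_cast hN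
  have hmsq : ∑ a ∈ Finset.range (2 * (k + 1)), m a ^ 2 ≤ 4 * (k + 1) - 6 := by
    have h1 : ((2 * (k + 1) : ℕ) : ℝ) *
        ((∑ a ∈ Finset.range (2 * (k + 1)), m a ^ 2 : ℕ) : ℝ) ≤
        ((2 * (k + 1) : ℕ) : ℝ) * ((4 * (k + 1) - 6 : ℕ) : ℝ) := by
      rw [← hparR, hXsum]
      have h2 : ((4 * (k + 1) - 6 : ℕ) : ℝ) = 4 * (k : ℝ) - 2 := by
        have : 6 ≤ 4 * (k + 1) := by omega
        push_cast [Nat.cast_sub this]
        ring
      rw [h2]
      push_cast
      nlinarith [hRT_le]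
    have h2 : ((∑ a ∈ Finset.range (2 * (k + 1)), m a ^ 2 : ℕ) : ℝ) ≤
        ((4 * (k + 1) - 6 : ℕ) : ℝ) :=
      le_of_mul_le_mul_left h1 hNpos
    exact_mod_cast h2
  obtain ⟨hmeq, a₁, a₂, ha₁, ha₂, hane, hp1, hp2, hXk⟩ :=
    dft_cusp_mult (k + 1) (by omega) ζ hζ m X hX ω hω2
      (by rw [hsum]; omega) hmsq hshift
  have hRT_eq : RT = 4 * (k : ℝ) - 4 := by
    have h1 : ((2 * (k + 1) : ℕ) : ℝ) *
        ((∑ a ∈ Finset.range (2 * (k + 1)), m a ^ 2 : ℕ) : ℝ) = 8 * (k : ℝ) ^ 2 + RT := by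
      rw [← hparR, hXsum]
    rw [hmeq] at h1
    have h2 : ((4 * (k + 1) - 6 : ℕ) : ℝ) = 4 * (k : ℝ) - 2 := by
      have : 6 ≤ 4 * (k + 1) := by omega
      push_cast [Nat.cast_sub this]
      ring
    rw [h2] at h1
    push_cast at h1
    linarith
  have hterm_eq : ∀ g ∈ (Finset.univ : Finset (Matrix.SpecialLinearGroup (Fin 2) F)),
      Complex.normSq (χ g) * (M g : ℝ) =
        (if IsEll g then Complex.normSq (χ g) else 0) * (2 * ((Fintype.card F : ℝ) + 1)) := by
    apply (Finset.sum_eq_sum_iff_of_le hterm_le).mp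
    rw [← hdc, ← Finset.sum_mul, hS2r, hGR, hRT_eq]
    ring
  have hχM : ∀ g : Matrix.SpecialLinearGroup (Fin 2) F, χ g * ((M g : ℕ) : ℂ) =
      (if IsEll g then χ g else 0) * (2 * ((Fintype.card F : ℂ) + 1)) := by
    intro g
    have h1 := hterm_eq g (Finset.mem_univ _)
    by_cases hE : IsEll g
    · rw [if_pos hE] at h1 ⊢
      by_cases h0 : χ g = 0
      · rw [h0]
        simp
      · have hn0 : Complex.normSq (χ g) ≠ 0 := fun h => h0 (Complex.normSq_eq_zero.mp h)
        have h2 : ((M g : ℕ) : ℝ) = 2 * ((Fintype.card F : ℝ) + 1) := mul_left_cancel₀ hn0 h1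
        have h3 : ((M g : ℕ) : ℂ) = 2 * ((Fintype.card F : ℂ) + 1) := by
          exact_mod_cast h2
        rw [h3]
    · rw [if_neg hE, hM2 g hE]
      simp
  have hω' : ∀ g, χ (sBorelMat (-1) 0 * g) = ω * χ g := by
    intro g
    rw [← hzdef]
    exact hω g
  have hTsum : ∑ c : Matrix.SpecialLinearGroup (Fin 2) F, (if P c then χ c else 0) =
      2 * (1 + ω) := by
    have hdcC : (Fintype.card (Matrix.SpecialLinearGroup (Fin 2) F) : ℂ) *
        ∑ c : Matrix.SpecialLinearGroup (Fin 2) F, (if P c then χ c else 0) =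
        ∑ g : Matrix.SpecialLinearGroup (Fin 2) F, χ g * ((M g : ℕ) : ℂ) := by
      rw [hMdef]
      exact conj_double_count P χ hχcf
    have h1 : (Fintype.card (Matrix.SpecialLinearGroup (Fin 2) F) : ℂ) *
        ∑ c : Matrix.SpecialLinearGroup (Fin 2) F, (if P c then χ c else 0) =
        (Fintype.card F : ℂ) * (2 * (k : ℂ)) * (1 + ω) * (2 * ((Fintype.card F : ℂ) + 1)) := by
      rw [hdcC, Finset.sum_congr rfl (fun g _ => hχM g), ← Finset.sum_mul,
        cusp_ell_sum hodd' hq hχ hdeg ω hω', hd]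
    rw [hGC] at h1
    have hne : (Fintype.card F : ℂ) * (2 * (k : ℂ)) * ((Fintype.card F : ℂ) + 1) ≠ 0 := by
      have h3 : ((Fintype.card F : ℝ) * (2 * (k : ℝ)) * ((Fintype.card F : ℝ) + 1) : ℝ) ≠ 0 :=
        hGpos.ne'
      have h4 : (((Fintype.card F : ℝ) * (2 * (k : ℝ)) * ((Fintype.card F : ℝ) + 1) : ℝ) : ℂ)
          ≠ 0 := Complex.ofReal_ne_zero.mpr h3
      push_cast at h4
      exact h4
    apply mul_left_cancel₀ hne
    linear_combination h1
  have hT : ∑ j ∈ Finset.range (2 * (k + 1)), (if (k + 1) ∣ j then 0 else X j) =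
      2 * (1 + ω) := by
    rw [← hTsum, sum_zpowers_off c₀ z (k + 1) (by omega) hord' hz P hP χ]
    exact Finset.sum_congr rfl (fun j _ => by rw [hXχ])
  have hpowP : ∀ j, 0 < j → j < k + 1 → P (c₀ ^ j) := by
    intro j hj0 hj1
    rw [hP]
    refine ⟨Subgroup.pow_mem _ (Subgroup.mem_zpowers c₀) j, ?_⟩
    rintro (h | h)
    · have := orderOf_le_of_pow_eq_one hj0 h
      omega
    · have h1 : j = k + 1 := pow_injOn_Iio_orderOf
        (show j ∈ Set.Iio (orderOf c₀) by rw [Set.mem_Iio]; omega)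
        (show k + 1 ∈ Set.Iio (orderOf c₀) by rw [Set.mem_Iio]; omega) (by
          show c₀ ^ j = c₀ ^ (k + 1)
          rw [hz, h])
      omega
  have hreal : ∀ j, 0 < j → j < k + 1 → conj (X j) = X j := by
    intro j hj0 hj1
    rw [hXχ, ← Helper24.char_inv hχch (c₀ ^ j)]
    exact cf_inv_of_isEll hodd' hχcf (hPell _ (hpowP j hj0 hj1)).2
  obtain ⟨a, ha, ha2, hpa, hXa⟩ := dft_cusp_real (k + 1) (by omega) ζ hζ X ω a₁ a₂ ha₁ ha₂ hane
    hp1 hp2 hXk (hreal 1 (by omega) (by omega)) (hreal 2 (by omega) (by omega)) hT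
  refine ⟨a, ha, ha2, ?_, ?_, ?_⟩
  · intro j hj
    rw [← hXχ]
    exact hXa j hj
  · intro g
    rw [hpa]
    exact hω g
  · intro g
    have h1 := hχM g
    rw [hMdef] at h1
    exact h1

end CuspTorus

end Cfsg.Agent.Helper13
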