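import Mathlib
import Cfsg.Agent.Helper13.SL2CuspTorus

/-!
# Counting the characters of degree `q - 1` of `SL₂(q)`, `q` odd
-/

set_option autoImplicit false

namespace Cfsg.Agent.Helper13

open Cfsg
open scoped ComplexConjugate

section CuspCount

variable {F : Type*} [Field F] [Fintype F] [DecidableEq F]

/-- Class functions of `SL₂` that agree at the elements without eigenvector and at the
triangular representatives are equal. -/
theorem cf_eq_of_agree {θ θ' : Matrix.SpecialLinearGroup (Fin 2) F → ℂ}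
    (hθ : IsClassFunction (Matrix.SpecialLinearGroup (Fin 2) F) θ)
    (hθ' : IsClassFunction (Matrix.SpecialLinearGroup (Fin 2) F) θ')
    (hell : ∀ g, IsEll g → θ g = θ' g)
    (hsplit : ∀ a : Fˣ, (a : F) ^ 2 ≠ 1 → θ (sBorelMat a 0) = θ' (sBorelMat a 0))
    (hunip : ∀ c : F, θ (sBorelMat 1 c) = θ' (sBorelMat 1 c))
    (hneg : ∀ c : F, θ (sBorelMat (-1) c) = θ' (sBorelMat (-1) c)) : θ = θ' := by
  funext g
  by_cases hg : IsEll g
  · exact hell g hg
  · obtain ⟨s, a, c, hs⟩ := exists_conj_sBorelMat g hg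
    rw [← hθ g s, ← hθ' g s, hs]
    by_cases ha : (a : F) ^ 2 = 1
    · have h1 : ((a : F) - 1) * ((a : F) + 1) = 0 := by linear_combination ha
      rcases mul_eq_zero.mp h1 with h2 | h2
      · have h3 : a = 1 := Units.ext (by rw [Units.val_one]; exact sub_eq_zero.mp h2)
        rw [h3]
        exact hunip c
      · have h3 : a = -1 := Units.ext (by
          rw [Units.val_neg, Units.val_one]
          exact eq_neg_of_add_eq_zero_left h2)
        rw [h3]
        exact hneg c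
    · obtain ⟨s', hs'⟩ := sBorelMat_conj_diag a c ha
      rw [← hθ (sBorelMat a c) s', ← hθ' (sBorelMat a c) s', hs']
      exact hsplit a ha

/-- The values at the unipotent elements of a character of degree `(q - 1) / 2` in terms of
the value at one of them. -/
theorem half_sub_unip_value (hodd : Odd (Fintype.card F)) (hq : 5 ≤ Fintype.card F)
    {η : Matrix.SpecialLinearGroup (Fin 2) F → ℂ}
    (hη : IsIrrCharacter (Matrix.SpecialLinearGroup (Fin 2) F) η)
    (hdeg : η 1 = (((Fintype.card F - 1) / 2 : ℕ) : ℂ)) (c : F) (hc : c ≠ 0) :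
    (IsSquare c → η (sBorelMat 1 c) = η (sBorelMat 1 1)) ∧
    (¬ IsSquare c → η (sBorelMat 1 c) = -1 - η (sBorelMat 1 1)) := by
  obtain ⟨ψ, hψ, hcusp, hn, hin⟩ := irr_deg_half_sub hodd hq hη hdeg
  obtain ⟨θ', hθ', hne, hsum, t, ht⟩ := half_data hψ hn hη hin
  have hηcf := Helper2.IsIrrCharacter.isClassFunction hη
  have htns : ¬ IsSquare (t : F) := by
    rintro ⟨r, hr⟩
    have hr0 : r ≠ 0 := by
      rintro rfl
      rw [mul_zero] at hr
      exact t.ne_zero hr
    apply hne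
    funext g
    rw [ht g]
    have ht' : t = Units.mk0 r hr0 * Units.mk0 r hr0 :=
      Units.ext (by rw [Units.val_mul, Units.val_mk0]; exact hr)
    rw [ht']
    exact cf_cxS_sq hηcf (Units.mk0 r hr0) g
  have h1 : η (sBorelMat 1 1) + η (sBorelMat 1 (t : F)) = -1 := by
    have h2 := congrFun hsum (sBorelMat 1 1)
    rw [resS_cusp_unip hψ hcusp 1 one_ne_zero] at h2
    have h3 : θ' (sBorelMat 1 1) = η (sBorelMat 1 (t : F)) := by
      rw [ht, cxS_diag_sBorelMat, mul_one]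
    rw [Pi.add_apply, h3] at h2
    exact h2.symm
  constructor
  · rintro ⟨d, hd⟩
    have hd0 : d ≠ 0 := by
      rintro rfl
      rw [mul_zero] at hd
      exact hc hd
    rw [hd, ← mul_one (d * d)]
    exact cf_sBorelMat_sq hηcf 1 d 1 hd0
  · intro hns
    obtain ⟨d, hd0, hd | hd⟩ := Helper6.exists_sq_or_nonsq_mul_sq htns c hc
    · exact absurd ⟨d, hd⟩ hns
    · have e : η (sBorelMat 1 c) = η (sBorelMat 1 (t : F)) := by
        rw [hd, mul_comm]
        exact cf_sBorelMat_sq hηcf 1 d (t : F) hd0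
      rw [e]
      linear_combination h1

/-- The product of the central involution and an element without eigenvector has no
eigenvector. -/
theorem isEll_center_mul {g₀ : Matrix.SpecialLinearGroup (Fin 2) F} (hg₀ : IsEll g₀) :
    IsEll (sBorelMat (-1) 0 * g₀) := by
  have hzc : sBorelMat (-1 : Fˣ) (0 : F) ∈
      Subgroup.center (Matrix.SpecialLinearGroup (Fin 2) F) :=
    sBorelMat_scalar_central (-1) neg_one_units_inv
  have hcomm : sBorelMat (-1) 0 * g₀ * g₀ = g₀ * (sBorelMat (-1) 0 * g₀) := by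
    rw [← mul_assoc, Subgroup.mem_center_iff.mp hzc g₀]
  have h : ((sBorelMat (-1 : Fˣ) (0 : F) * g₀ : Matrix.SpecialLinearGroup (Fin 2) F) :
      Matrix (Fin 2) (Fin 2) F) 1 0 = -(g₀ : Matrix (Fin 2) (Fin 2) F) 1 0 := by
    rw [Matrix.SpecialLinearGroup.coe_mul, sBorelMat_coe, neg_one_units_inv, Matrix.mul_apply,
      Fin.sum_univ_two]
    simp
  apply isEll_of_centralizer hg₀ _ hcomm
  rw [h]
  exact neg_ne_zero.mpr hg₀.entry_ne

/-- An irreducible character of degree `(q - 1) / 2` is determined by its value at a unipotent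
element. -/
theorem half_sub_unique (hodd : Odd (Fintype.card F)) (hq : 5 ≤ Fintype.card F)
    (g₀ : Matrix.SpecialLinearGroup (Fin 2) F) (hg₀ : IsEll g₀)
    {η η' : Matrix.SpecialLinearGroup (Fin 2) F → ℂ}
    (hη : IsIrrCharacter (Matrix.SpecialLinearGroup (Fin 2) F) η)
    (hdeg : η 1 = (((Fintype.card F - 1) / 2 : ℕ) : ℂ))
    (hη' : IsIrrCharacter (Matrix.SpecialLinearGroup (Fin 2) F) η')
    (hdeg' : η' 1 = (((Fintype.card F - 1) / 2 : ℕ) : ℂ))
    (h1 : η (sBorelMat 1 1) = η' (sBorelMat 1 1)) : η = η' := by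
  have hηcf := Helper2.IsIrrCharacter.isClassFunction hη
  have hηcf' := Helper2.IsIrrCharacter.isClassFunction hη'
  have hell : ∀ g, IsEll g → η g = η' g := by
    intro g hg
    by_cases hp : g ^ ((Fintype.card F + 1) / 2) = 1
    · rw [(half_sub_elliptic hodd hq hη hdeg g hg).1 hp,
        (half_sub_elliptic hodd hq hη' hdeg' g hg).1 hp]
    · rw [(half_sub_elliptic hodd hq hη hdeg g hg).2 hp,
        (half_sub_elliptic hodd hq hη' hdeg' g hg).2 hp]
  have hunip : ∀ c : F, η (sBorelMat 1 c) = η' (sBorelMat 1 c) := by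
    intro c
    by_cases hc : c = 0
    · rw [hc, sBorelMat_one_zero, hdeg, hdeg']
    · by_cases hsq : IsSquare c
      · rw [(half_sub_unip_value hodd hq hη hdeg c hc).1 hsq,
          (half_sub_unip_value hodd hq hη' hdeg' c hc).1 hsq, h1]
      · rw [(half_sub_unip_value hodd hq hη hdeg c hc).2 hsq,
          (half_sub_unip_value hodd hq hη' hdeg' c hc).2 hsq, h1]
  have hzc : sBorelMat (-1 : Fˣ) (0 : F) ∈
      Subgroup.center (Matrix.SpecialLinearGroup (Fin 2) F) :=
    sBorelMat_scalar_central (-1) neg_one_units_inv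
  obtain ⟨ω, _, hω⟩ := central_char_unit hη _ hzc
  obtain ⟨ω', _, hω'⟩ := central_char_unit hη' _ hzc
  have hωeq : ω = ω' := by
    have e1 := hell _ (isEll_center_mul hg₀)
    rw [hω, hω', ← hell g₀ hg₀] at e1
    have hne : η g₀ ≠ 0 := by
      by_cases hp : g₀ ^ ((Fintype.card F + 1) / 2) = 1
      · rw [(half_sub_elliptic hodd hq hη hdeg g₀ hg₀).1 hp]
        norm_num
      · rw [(half_sub_elliptic hodd hq hη hdeg g₀ hg₀).2 hp]
        norm_num
    exact mul_right_cancel₀ hne e1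
  apply cf_eq_of_agree hηcf hηcf' hell
  · intro a ha
    rw [vanish_split hodd hη (sBorelMat a 0) (Or.inr hdeg) rfl rfl ha,
      vanish_split hodd hη' (sBorelMat a 0) (Or.inr hdeg') rfl rfl ha]
  · exact hunip
  · intro c
    rw [sBorelMat_split_scalar (-1) neg_one_units_inv c, hω, hω', hωeq, hunip]

/-- There are at most two irreducible characters of degree `(q - 1) / 2`. -/
theorem card_deg_half_sub_le (hodd : Odd (Fintype.card F)) (hq : 5 ≤ Fintype.card F)
    (g₀ : Matrix.SpecialLinearGroup (Fin 2) F) (hg₀ : IsEll g₀) :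
    cntS F (((Fintype.card F - 1) / 2 : ℕ) : ℂ) ≤ 2 := by
  classical
  haveI := Helper24.finite_irrCharacter (G := Matrix.SpecialLinearGroup (Fin 2) F)
  haveI : Fintype (IrrCharacter (Matrix.SpecialLinearGroup (Fin 2) F)) := Fintype.ofFinite _
  unfold cntS
  rw [Nat.card_eq_fintype_card]
  by_contra hcon
  have h3 : 2 < Fintype.card {χ : IrrCharacter (Matrix.SpecialLinearGroup (Fin 2) F) //
      (χ : Matrix.SpecialLinearGroup (Fin 2) F → ℂ) 1 =
        (((Fintype.card F - 1) / 2 : ℕ) : ℂ)} := by omega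
  obtain ⟨A, B, C, hAB, hAC, hBC⟩ := Fintype.two_lt_card_iff.mp h3
  have hval : ∀ X : {χ : IrrCharacter (Matrix.SpecialLinearGroup (Fin 2) F) //
      (χ : Matrix.SpecialLinearGroup (Fin 2) F → ℂ) 1 = (((Fintype.card F - 1) / 2 : ℕ) : ℂ)},
      (2 * (X.1 : Matrix.SpecialLinearGroup (Fin 2) F → ℂ) (sBorelMat 1 1) + 1) ^ 2 =
        (-1 : ℂ) ^ ((Fintype.card F - 1) / 2) * (Fintype.card F : ℂ) :=
    fun X => half_sub_unip_sq hodd hq X.1.2 X.2 1 one_ne_zero
  have huniq : ∀ X Y : {χ : IrrCharacter (Matrix.SpecialLinearGroup (Fin 2) F) //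
      (χ : Matrix.SpecialLinearGroup (Fin 2) F → ℂ) 1 = (((Fintype.card F - 1) / 2 : ℕ) : ℂ)},
      (X.1 : Matrix.SpecialLinearGroup (Fin 2) F → ℂ) (sBorelMat 1 1) =
        (Y.1 : Matrix.SpecialLinearGroup (Fin 2) F → ℂ) (sBorelMat 1 1) → X = Y := by
    intro X Y h
    exact Subtype.ext (Subtype.ext (half_sub_unique hodd hq g₀ hg₀ X.1.2 X.2 Y.1.2 Y.2 h))
  have hsq : ∀ x y : ℂ, (2 * x + 1) ^ 2 = (2 * y + 1) ^ 2 → x = y ∨ x + y = -1 := by
    intro x y h
    have h' : (x - y) * (x + y + 1) = 0 := by linear_combination h / 4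
    rcases mul_eq_zero.mp h' with h | h
    · left
      exact sub_eq_zero.mp h
    · right
      linear_combination h
  rcases hsq _ _ ((hval A).trans (hval B).symm) with h1 | h1
  · exact hAB (huniq A B h1)
  · rcases hsq _ _ ((hval A).trans (hval C).symm) with h2 | h2
    · exact hAC (huniq A C h2)
    · exact hBC (huniq B C (by linear_combination h1 - h2))

/-- The sum of the squares of the degrees, for `q ≥ 5` odd. -/
theorem count_eq_odd (hodd : Odd (Fintype.card F)) (hq : 5 ≤ Fintype.card F) :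
    cntS F (((Fintype.card F - 1) / 2 : ℕ) : ℂ) + 4 * cntS F ((Fintype.card F : ℂ) - 1) =
      2 * Fintype.card F := by
  classical
  obtain ⟨k, hk⟩ := hodd
  have hk2 : 2 ≤ k := by omega
  have hodd' : Odd (Fintype.card F) := ⟨k, hk⟩
  have c1 := card_deg_one (F := F) (by omega)
  have cq := card_deg_q (F := F)
  have cx := two_mul_cnt_q_add_one (F := F)
  rw [card_sq_ne_one_odd hodd'] at cx
  have cz := card_deg_half_add hodd' hq
  have e1 : ((1 : ℕ) : ℂ) = 1 := Nat.cast_one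
  have ek : ((k : ℕ) : ℂ) = (((Fintype.card F - 1) / 2 : ℕ) : ℂ) := by
    congr 1; omega
  have ek1 : ((k + 1 : ℕ) : ℂ) = (((Fintype.card F + 1) / 2 : ℕ) : ℂ) := by
    congr 1; omega
  have e2k : ((2 * k : ℕ) : ℂ) = (Fintype.card F : ℂ) - 1 := by
    rw [hk]; push_cast; ring
  have e2k1 : ((2 * k + 1 : ℕ) : ℂ) = (Fintype.card F : ℂ) := by rw [hk]
  have e2k2 : ((2 * k + 2 : ℕ) : ℂ) = (Fintype.card F : ℂ) + 1 := by
    rw [hk]; push_cast; ring
  obtain ⟨_, hB⟩ := count_by_degree (G := Matrix.SpecialLinearGroup (Fin 2) F)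
    ({1, k, k + 1, 2 * k, 2 * k + 1, 2 * k + 2} : Finset ℕ) (by
      intro χ hχ
      rcases deg_list_odd hodd' hχ with h | h | h | h | h | h
      · exact ⟨1, by simp, by rw [h, e1]⟩
      · exact ⟨2 * k + 1, by simp, by rw [h, e2k1]⟩
      · exact ⟨2 * k + 2, by simp, by rw [h, e2k2]⟩
      · exact ⟨2 * k, by simp, by rw [h, e2k]⟩
      · exact ⟨k + 1, by simp, by rw [h, ek1]⟩
      · exact ⟨k, by simp, by rw [h, ek]⟩)
  have m1 : (1 : ℕ) ∉ ({k, k + 1, 2 * k, 2 * k + 1, 2 * k + 2} : Finset ℕ) := by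
    simp only [Finset.mem_insert, Finset.mem_singleton]; omega
  have m2 : k ∉ ({k + 1, 2 * k, 2 * k + 1, 2 * k + 2} : Finset ℕ) := by
    simp only [Finset.mem_insert, Finset.mem_singleton]; omega
  have m3 : k + 1 ∉ ({2 * k, 2 * k + 1, 2 * k + 2} : Finset ℕ) := by
    simp only [Finset.mem_insert, Finset.mem_singleton]; omega
  have m4 : 2 * k ∉ ({2 * k + 1, 2 * k + 2} : Finset ℕ) := by
    simp only [Finset.mem_insert, Finset.mem_singleton]; omega
  have m5 : 2 * k + 1 ≠ 2 * k + 2 := by omega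
  rw [Finset.sum_insert m1, Finset.sum_insert m2, Finset.sum_insert m3, Finset.sum_insert m4,
    Finset.sum_pair m5] at hB
  rw [e1, ek, ek1, e2k, e2k1, e2k2] at hB
  unfold cntS at c1 cq cx cz ⊢
  obtain ⟨x, hx⟩ : ∃ x, x = Nat.card {χ : IrrCharacter (Matrix.SpecialLinearGroup (Fin 2) F) //
    (χ : Matrix.SpecialLinearGroup (Fin 2) F → ℂ) 1 = (Fintype.card F : ℂ) + 1} := ⟨_, rfl⟩
  obtain ⟨y, hy⟩ : ∃ y, y = Nat.card {χ : IrrCharacter (Matrix.SpecialLinearGroup (Fin 2) F) //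
    (χ : Matrix.SpecialLinearGroup (Fin 2) F → ℂ) 1 = (Fintype.card F : ℂ) - 1} := ⟨_, rfl⟩
  obtain ⟨w, hw⟩ : ∃ w, w = Nat.card {χ : IrrCharacter (Matrix.SpecialLinearGroup (Fin 2) F) //
    (χ : Matrix.SpecialLinearGroup (Fin 2) F → ℂ) 1 = (((Fintype.card F - 1) / 2 : ℕ) : ℂ)} :=
    ⟨_, rfl⟩
  rw [← hx] at cx
  rw [c1, cq, cz, ← hx, ← hy, ← hw, S2301.card_SL2] at hB
  rw [← hy, ← hw]
  rw [hk] at cx hB ⊢
  have hx' : x + 1 = k := by omega
  have hsq : (2 * k + 1) ^ 2 - 1 = 4 * k ^ 2 + 4 * k := by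
    have : (2 * k + 1) ^ 2 = 4 * k ^ 2 + 4 * k + 1 := by ring
    omega
  rw [hsq] at hB
  have hBz : (1 : ℤ) * 1 ^ 2 + (w * k ^ 2 + (2 * (k + 1) ^ 2 + (y * (2 * k) ^ 2 +
      (1 * (2 * k + 1) ^ 2 + x * (2 * k + 2) ^ 2)))) = (2 * k + 1) * (4 * k ^ 2 + 4 * k) := by
    exact_mod_cast hB
  have hxz : (x : ℤ) = k - 1 := by
    have : ((x + 1 : ℕ) : ℤ) = k := by rw [hx']
    push_cast at this
    linarith
  have h5 : (k : ℤ) ^ 2 * (w + 4 * y - 4 * k - 2) = 0 := by
    rw [hxz] at hBz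
    linear_combination hBz
  have hk0 : (k : ℤ) ^ 2 ≠ 0 := by
    have : (0 : ℤ) < k := by exact_mod_cast (by omega : 0 < k)
    positivity
  have h6 : (w : ℤ) + 4 * y = 4 * k + 2 := by
    rcases mul_eq_zero.mp h5 with h | h
    · exact absurd h hk0
    · linear_combination h
  have h7 : ((w + 4 * y : ℕ) : ℤ) = ((2 * (2 * k + 1) : ℕ) : ℤ) := by
    push_cast
    linarith
  exact_mod_cast h7

/-- The number of irreducible characters of degree `q - 1`, for `q ≥ 5` odd. -/
theorem card_deg_q_sub_one (hodd : Odd (Fintype.card F)) (hq : 5 ≤ Fintype.card F)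
    (g₀ : Matrix.SpecialLinearGroup (Fin 2) F) (hg₀ : IsEll g₀) :
    cntS F ((Fintype.card F : ℂ) - 1) = (Fintype.card F - 1) / 2 := by
  have h1 := card_deg_half_sub_le hodd hq g₀ hg₀
  have h2 := count_eq_odd hodd hq
  obtain ⟨k, hk⟩ := hodd
  omega

end CuspCount

end Cfsg.Agent.Helper13
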