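import Mathlib
import Cfsg.Agent.Helper13.SL2CuspCount

/-!
# The parametrization of the characters of degree `q - 1` of `SL₂(q)`, `q ≥ 5` odd
-/

set_option autoImplicit false

namespace Cfsg.Agent.Helper13

open Cfsg
open scoped ComplexConjugate

section CuspParam

variable {F : Type*} [Field F] [Fintype F] [DecidableEq F]

/-- Two irreducible characters of degree `q - 1` with the same values on a cyclic subgroup of
order `q + 1` are equal. -/
theorem cusp_unique (hodd : Odd (Fintype.card F)) (hq : 5 ≤ Fintype.card F)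
    [DecidablePred (fun g : Matrix.SpecialLinearGroup (Fin 2) F => IsEll g)]
    {χ χ' : Matrix.SpecialLinearGroup (Fin 2) F → ℂ}
    (hχ : IsIrrCharacter (Matrix.SpecialLinearGroup (Fin 2) F) χ)
    (hdeg : χ 1 = (Fintype.card F : ℂ) - 1)
    (hχ' : IsIrrCharacter (Matrix.SpecialLinearGroup (Fin 2) F) χ')
    (hdeg' : χ' 1 = (Fintype.card F : ℂ) - 1)
    (c₀ : Matrix.SpecialLinearGroup (Fin 2) F) (hord : orderOf c₀ = Fintype.card F + 1)
    (hc₀ : IsEll c₀)
    (P : Matrix.SpecialLinearGroup (Fin 2) F → Prop) [DecidablePred P]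
    (hP : ∀ c, P c ↔ (c ∈ Subgroup.zpowers c₀ ∧ ¬ (c = 1 ∨ c = sBorelMat (-1) 0)))
    (ζ : ℂ) (hζ : IsPrimitiveRoot ζ (Fintype.card F + 1)) (a a' : ℕ)
    (hval : ∀ j, ¬ ((Fintype.card F + 1) / 2) ∣ j →
      χ (c₀ ^ j) = -(ζ ^ (a * j) + (ζ ^ (a * j))⁻¹))
    (hval' : ∀ j, ¬ ((Fintype.card F + 1) / 2) ∣ j →
      χ' (c₀ ^ j) = -(ζ ^ (a' * j) + (ζ ^ (a' * j))⁻¹))
    (hω : ∀ g, χ (sBorelMat (-1) 0 * g) = (-1) ^ a * χ g)
    (hω' : ∀ g, χ' (sBorelMat (-1) 0 * g) = (-1) ^ a' * χ' g)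
    (hM : ∀ g, χ g * ((Finset.univ.filter (fun x : Matrix.SpecialLinearGroup (Fin 2) F =>
          P (x⁻¹ * g * x))).card : ℂ) =
        (if IsEll g then χ g else 0) * (2 * ((Fintype.card F : ℂ) + 1)))
    (hM' : ∀ g, χ' g * ((Finset.univ.filter (fun x : Matrix.SpecialLinearGroup (Fin 2) F =>
          P (x⁻¹ * g * x))).card : ℂ) =
        (if IsEll g then χ' g else 0) * (2 * ((Fintype.card F : ℂ) + 1)))
    (haa : ζ ^ a' = ζ ^ a ∨ ζ ^ a' = (ζ ^ a)⁻¹) : χ = χ' := by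
  have hodd' := hodd
  obtain ⟨k, hk⟩ := hodd
  have hhalf' : (Fintype.card F + 1) / 2 = k + 1 := by omega
  have hN2 : Fintype.card F + 1 = 2 * (k + 1) := by omega
  obtain ⟨hgen, hz⟩ := torus_of_order hodd' hord hc₀
  rw [hhalf'] at hz hval hval'
  have hχcf := Helper2.IsIrrCharacter.isClassFunction hχ
  have hχcf' := Helper2.IsIrrCharacter.isClassFunction hχ'
  have hζN : ζ ^ (2 * (k + 1)) = 1 := by
    rw [← hN2]
    exact hζ.pow_eq_one
  have hform : ∀ j, ζ ^ (a' * j) + (ζ ^ (a' * j))⁻¹ = ζ ^ (a * j) + (ζ ^ (a * j))⁻¹ := by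
    intro j
    rw [pow_mul ζ a' j, pow_mul ζ a j]
    rcases haa with h | h
    · rw [h]
    · rw [h, inv_pow, inv_inv, add_comm]
  have hsign : (-1 : ℂ) ^ a' = (-1) ^ a := by
    have hr := root_half (k + 1) (by omega) ζ (by rw [← hN2]; exact hζ)
    have e : ∀ b : ℕ, (-1 : ℂ) ^ b = (ζ ^ b) ^ (k + 1) := by
      intro b
      rw [← hr, ← pow_mul, ← pow_mul, mul_comm]
    rw [e a', e a]
    rcases haa with h | h
    · rw [h]
    · rw [h, inv_pow]
      have h1 : ((ζ ^ a) ^ (k + 1)) * ((ζ ^ a) ^ (k + 1)) = 1 := by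
        rw [← pow_add, ← pow_mul, (by ring : a * (k + 1 + (k + 1)) = 2 * (k + 1) * a), pow_mul,
          hζN, one_pow]
      exact inv_eq_of_mul_eq_one_left h1
  have hqne : (2 * ((Fintype.card F : ℂ) + 1)) ≠ 0 := by
    have h1 : ((2 * (Fintype.card F + 1) : ℕ) : ℂ) ≠ 0 := by
      exact_mod_cast (by omega : 2 * (Fintype.card F + 1) ≠ 0)
    push_cast at h1
    exact h1
  have hex : ∀ θ : Matrix.SpecialLinearGroup (Fin 2) F → ℂ,
      (∀ g, θ g * ((Finset.univ.filter (fun x : Matrix.SpecialLinearGroup (Fin 2) F =>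
          P (x⁻¹ * g * x))).card : ℂ) =
        (if IsEll g then θ g else 0) * (2 * ((Fintype.card F : ℂ) + 1))) →
      ∀ g, IsEll g → θ g ≠ 0 → ∃ x : Matrix.SpecialLinearGroup (Fin 2) F, P (x⁻¹ * g * x) := by
    intro θ hθM g hg h0
    have h1 := hθM g
    rw [if_pos hg] at h1
    have h2 := mul_left_cancel₀ h0 h1
    have h3 : (Finset.univ.filter (fun x : Matrix.SpecialLinearGroup (Fin 2) F =>
        P (x⁻¹ * g * x))).Nonempty := by
      rw [Finset.nonempty_iff_ne_empty]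
      intro hemp
      rw [hemp, Finset.card_empty, Nat.cast_zero] at h2
      exact hqne h2.symm
    obtain ⟨x, hx⟩ := h3
    exact ⟨x, (Finset.mem_filter.mp hx).2⟩
  have hell : ∀ g, IsEll g → χ g = χ' g := by
    intro g hg
    have key : ∀ x, P (x⁻¹ * g * x) → χ g = χ' g := by
      intro x hx
      rw [hP] at hx
      obtain ⟨hmem, hne⟩ := hx
      have h1 : x⁻¹ * g * x ∈ Submonoid.powers c₀ := mem_powers_iff_mem_zpowers.mpr hmem
      rw [mem_powers_iff_mem_range_orderOf] at h1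
      obtain ⟨j, hj, hjeq⟩ := Finset.mem_image.mp h1
      have hjlt : j < 2 * (k + 1) := by
        rw [← hN2, ← hord]
        exact Finset.mem_range.mp hj
      have hjnd : ¬ (k + 1) ∣ j := by
        rintro ⟨t, ht⟩
        have ht2 : t < 2 := by
          by_contra hcon
          have h2 : 2 ≤ t := by omega
          have h3 : (k + 1) * 2 ≤ (k + 1) * t := Nat.mul_le_mul_left _ h2
          omega
        apply hne
        interval_cases t
        · left
          rw [← hjeq, ht, mul_zero, pow_zero]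
        · right
          rw [← hjeq, ht, mul_one, hz]
      have e1 : χ g = χ (c₀ ^ j) := by
        rw [hjeq]
        have h2 := hχcf g x⁻¹
        rw [inv_inv] at h2
        exact h2.symm
      have e2 : χ' g = χ' (c₀ ^ j) := by
        rw [hjeq]
        have h2 := hχcf' g x⁻¹
        rw [inv_inv] at h2
        exact h2.symm
      rw [e1, e2, hval j hjnd, hval' j hjnd, hform j]
    by_cases h0 : χ g = 0
    · by_cases h0' : χ' g = 0
      · rw [h0, h0']
      · obtain ⟨x, hx⟩ := hex χ' hM' g hg h0'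
        exact key x hx
    · obtain ⟨x, hx⟩ := hex χ hM g hg h0
      exact key x hx
  have hunip : ∀ c : F, χ (sBorelMat 1 c) = χ' (sBorelMat 1 c) := by
    intro c
    by_cases hc : c = 0
    · rw [hc, sBorelMat_one_zero, hdeg, hdeg']
    · rw [cusp_unip (by omega) hχ hdeg c hc, cusp_unip (by omega) hχ' hdeg' c hc]
  apply cf_eq_of_agree hχcf hχcf' hell
  · intro b hb
    rw [vanish_split hodd' hχ (sBorelMat b 0) (Or.inl hdeg) rfl rfl hb,
      vanish_split hodd' hχ' (sBorelMat b 0) (Or.inl hdeg') rfl rfl hb]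
  · exact hunip
  · intro c
    rw [sBorelMat_split_scalar (-1) neg_one_units_inv c, hω, hω', hsign, hunip]

/-- Every admissible parameter occurs: existence of the characters of degree `q - 1` with
prescribed values on a cyclic subgroup of order `q + 1`. -/
theorem cusp_exists (hodd : Odd (Fintype.card F)) (hq : 5 ≤ Fintype.card F)
    (c₀ : Matrix.SpecialLinearGroup (Fin 2) F) (hord : orderOf c₀ = Fintype.card F + 1)
    (hc₀ : IsEll c₀) (ζ : ℂ) (hζ : IsPrimitiveRoot ζ (Fintype.card F + 1))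
    (b : ℕ) (hb : ζ ^ (2 * b) ≠ 1) :
    ∃ χ : Matrix.SpecialLinearGroup (Fin 2) F → ℂ,
      IsIrrCharacter (Matrix.SpecialLinearGroup (Fin 2) F) χ ∧
      χ 1 = (Fintype.card F : ℂ) - 1 ∧
      ∃ a : ℕ, (ζ ^ a = ζ ^ b ∨ ζ ^ a = (ζ ^ b)⁻¹) ∧
        (∀ j, ¬ ((Fintype.card F + 1) / 2) ∣ j →
          χ (c₀ ^ j) = -(ζ ^ (a * j) + (ζ ^ (a * j))⁻¹)) ∧
        (∀ g, χ (sBorelMat (-1) 0 * g) = (-1) ^ a * χ g) := by
  classical
  have hodd' := hodd
  obtain ⟨k, hk⟩ := hodd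
  have hN2 : Fintype.card F + 1 = 2 * (k + 1) := by omega
  haveI := Helper24.finite_irrCharacter (G := Matrix.SpecialLinearGroup (Fin 2) F)
  haveI : Fintype (IrrCharacter (Matrix.SpecialLinearGroup (Fin 2) F)) := Fintype.ofFinite _
  obtain ⟨P, hPdef⟩ : ∃ P : Matrix.SpecialLinearGroup (Fin 2) F → Prop,
      P = fun c => c ∈ Subgroup.zpowers c₀ ∧ ¬ (c = 1 ∨ c = sBorelMat (-1) 0) := ⟨_, rfl⟩
  have hP : ∀ c, P c ↔ (c ∈ Subgroup.zpowers c₀ ∧ ¬ (c = 1 ∨ c = sBorelMat (-1) 0)) := by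
    intro c
    rw [hPdef]
  have hcard := card_deg_q_sub_one hodd' hq c₀ hc₀
  unfold cntS at hcard
  rw [Nat.card_eq_fintype_card] at hcard
  have hζN : ζ ^ (2 * (k + 1)) = 1 := by
    rw [← hN2]
    exact hζ.pow_eq_one
  have hpar := fun X : {χ : IrrCharacter (Matrix.SpecialLinearGroup (Fin 2) F) //
      (χ : Matrix.SpecialLinearGroup (Fin 2) F → ℂ) 1 = (Fintype.card F : ℂ) - 1} =>
    cusp_torus_values hodd' hq X.1.2 X.2 c₀ hord hc₀ P hP ζ hζ
  choose par hpar1 hpar2 hpar3 hpar4 hpar5 using hpar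
  obtain ⟨f, hf⟩ : ∃ f : ℕ → ℕ, f = fun a => if a ≤ k then a - 1 else 2 * k + 1 - a :=
    ⟨_, rfl⟩
  have hvalid : ∀ a : ℕ, a < 2 * (k + 1) → ζ ^ (2 * a) ≠ 1 → a ≠ 0 ∧ a ≠ k + 1 := by
    intro a _ h2
    constructor
    · rintro rfl
      exact h2 (by rw [mul_zero, pow_zero])
    · rintro rfl
      exact h2 hζN
  have hfk : ∀ a : ℕ, a < 2 * (k + 1) → a ≠ 0 → a ≠ k + 1 → f a < k := by
    intro a h1 h2 h3
    rw [hf]
    beta_reduce
    by_cases h : a ≤ k
    · rw [if_pos h]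
      omega
    · rw [if_neg h]
      omega
  have hfinj : ∀ a a' : ℕ, a < 2 * (k + 1) → a ≠ 0 → a ≠ k + 1 → a' < 2 * (k + 1) → a' ≠ 0 →
      a' ≠ k + 1 → f a' = f a → a' = a ∨ a' + a = 2 * (k + 1) := by
    intro a a' h1 h2 h3 h1' h2' h3' hff
    rw [hf] at hff
    beta_reduce at hff
    by_cases h : a ≤ k
    · by_cases h' : a' ≤ k
      · rw [if_pos h, if_pos h'] at hff
        omega
      · rw [if_pos h, if_neg h'] at hff
        omega
    · by_cases h' : a' ≤ k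
      · rw [if_neg h, if_pos h'] at hff
        omega
      · rw [if_neg h, if_neg h'] at hff
        omega
  have hpow : ∀ a a' : ℕ, a' = a ∨ a' + a = 2 * (k + 1) →
      ζ ^ a' = ζ ^ a ∨ ζ ^ a' = (ζ ^ a)⁻¹ := by
    intro a a' h
    rcases h with h | h
    · left
      rw [h]
    · right
      apply eq_inv_of_mul_eq_one_left
      rw [← pow_add, h, hζN]
  have hparv : ∀ X, par X < 2 * (k + 1) ∧ par X ≠ 0 ∧ par X ≠ k + 1 := by
    intro X
    have h1 : par X < 2 * (k + 1) := by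
      rw [← hN2]
      exact hpar1 X
    exact ⟨h1, hvalid (par X) h1 (hpar2 X)⟩
  obtain ⟨idx, hidx⟩ : ∃ idx : {χ : IrrCharacter (Matrix.SpecialLinearGroup (Fin 2) F) //
      (χ : Matrix.SpecialLinearGroup (Fin 2) F → ℂ) 1 = (Fintype.card F : ℂ) - 1} → Fin k,
      ∀ X, (idx X : ℕ) = f (par X) :=
    ⟨fun X => ⟨f (par X), hfk (par X) (hparv X).1 (hparv X).2.1 (hparv X).2.2⟩, fun X => rfl⟩
  have hinj : Function.Injective idx := by
    intro X X' hXX
    have h1 : f (par X') = f (par X) := by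
      rw [← hidx X', ← hidx X, hXX]
    have h2 := hfinj (par X) (par X') (hparv X).1 (hparv X).2.1 (hparv X).2.2 (hparv X').1
      (hparv X').2.1 (hparv X').2.2 h1
    have h3 := hpow (par X) (par X') h2
    exact Subtype.ext (Subtype.ext (cusp_unique hodd' hq X.1.2 X.2 X'.1.2 X'.2 c₀ hord hc₀ P hP
      ζ hζ (par X) (par X') (hpar3 X) (hpar3 X') (hpar4 X) (hpar4 X') (hpar5 X) (hpar5 X') h3))
  have hbij : Function.Bijective idx := by
    rw [Fintype.bijective_iff_injective_and_card]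
    refine ⟨hinj, ?_⟩
    rw [hcard, Fintype.card_fin]
    omega
  obtain ⟨b', hb'⟩ : ∃ b' : ℕ, b' = b % (2 * (k + 1)) := ⟨_, rfl⟩
  have hbb : ζ ^ b = ζ ^ b' := by
    rw [hb']
    exact pow_eq_pow_mod b hζN
  have hb'lt : b' < 2 * (k + 1) := by
    rw [hb']
    exact Nat.mod_lt _ (by omega)
  have hb'2 : ζ ^ (2 * b') ≠ 1 := by
    intro h
    apply hb
    rw [mul_comm, pow_mul, hbb, ← pow_mul, mul_comm]
    exact h
  obtain ⟨hb'0, hb'k⟩ := hvalid b' hb'lt hb'2
  obtain ⟨X, hX⟩ := hbij.2 ⟨f b', hfk b' hb'lt hb'0 hb'k⟩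
  have h1 : f (par X) = f b' := by
    rw [← hidx X, hX]
  have h2 := hfinj b' (par X) hb'lt hb'0 hb'k (hparv X).1 (hparv X).2.1 (hparv X).2.2 h1
  have h3 := hpow b' (par X) h2
  rw [← hbb] at h3
  exact ⟨X.1.1, X.1.2, X.2, par X, h3, hpar3 X, hpar4 X⟩

end CuspParam

end Cfsg.Agent.Helper13
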