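import Mathlib
import Cfsg.Agent.Helper13.SL2CuspParam

/-!
# Cyclic subgroups of order `q + 1` of `SL₂(q)`, `q` odd
-/

set_option autoImplicit false

namespace Cfsg.Agent.Helper13

open Cfsg
open scoped ComplexConjugate

section TorusPow

variable {F : Type*} [Field F] [Fintype F] [DecidableEq F]

/-- An element of order `q + 1` has no eigenvector. -/
theorem isEll_of_orderOf (hodd : Odd (Fintype.card F))
    {c : Matrix.SpecialLinearGroup (Fin 2) F} (hord : orderOf c = Fintype.card F + 1) :
    IsEll c := by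
  by_contra hc
  obtain ⟨s, a, b, hs⟩ := exists_conj_sBorelMat c hc
  have hcard : Nat.card (sBorel F) = (Fintype.card F - 1) * Fintype.card F := by
    rw [Nat.card_congr (sBorelEquiv (F := F)).symm, Nat.card_prod,
      Nat.card_eq_fintype_card, Nat.card_eq_fintype_card, Fintype.card_units]
  have h1 : (sBorelMat a b) ^ ((Fintype.card F - 1) * Fintype.card F) = 1 := by
    rw [← hcard]
    exact orderOf_dvd_iff_pow_eq_one.mp
      (Subgroup.orderOf_dvd_natCard (sBorel F) (sBorelMat_mem a b))
  rw [← hs, conj_pow] at h1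
  have h2 : c ^ ((Fintype.card F - 1) * Fintype.card F) = 1 := by
    have h3 : c ^ ((Fintype.card F - 1) * Fintype.card F) =
        s⁻¹ * (s * c ^ ((Fintype.card F - 1) * Fintype.card F) * s⁻¹) * s := by group
    rw [h3, h1]
    group
  have h3 := orderOf_dvd_of_pow_eq_one h2
  rw [hord] at h3
  obtain ⟨k, hk⟩ := hodd
  have hcop : Nat.Coprime (Fintype.card F + 1) (Fintype.card F) := by
    rw [Nat.coprime_comm]
    exact Nat.coprime_self_add_right.mpr (Nat.coprime_one_right _)
  have h4 := hcop.dvd_of_dvd_mul_right h3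
  have hq2 : 1 < Fintype.card F := Fintype.one_lt_card
  have h5 := Nat.le_of_dvd (by omega) h4
  omega

/-- Central elements are upper triangular. -/
theorem center_entry {s : Matrix.SpecialLinearGroup (Fin 2) F}
    (hs : s ∈ Subgroup.center (Matrix.SpecialLinearGroup (Fin 2) F)) :
    (s : Matrix (Fin 2) (Fin 2) F) 1 0 = 0 := by
  have h := Subgroup.mem_center_iff.mp hs (sBorelMat 1 1)
  have h2 := congrArg (fun M : Matrix.SpecialLinearGroup (Fin 2) F =>
    (M : Matrix (Fin 2) (Fin 2) F) 0 0) h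
  simp only [Matrix.SpecialLinearGroup.coe_mul, sBorelMat_coe, Matrix.mul_apply,
    Fin.sum_univ_two] at h2
  simpa using h2

/-- The powers of an element of order `q + 1` outside the centre have no eigenvector. -/
theorem isEll_pow (hodd : Odd (Fintype.card F))
    {c₀ : Matrix.SpecialLinearGroup (Fin 2) F} (hord : orderOf c₀ = Fintype.card F + 1)
    (hc₀ : IsEll c₀) (j : ℕ) (hj : ¬ ((Fintype.card F + 1) / 2) ∣ j) : IsEll (c₀ ^ j) := by
  obtain ⟨_, hz⟩ := torus_of_order hodd hord hc₀
  obtain ⟨k, hk⟩ := hodd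
  have hhalf' : (Fintype.card F + 1) / 2 = k + 1 := by omega
  rw [hhalf'] at hz hj
  have hcomm : c₀ ^ j * c₀ = c₀ * c₀ ^ j := (pow_succ c₀ j).symm.trans (pow_succ' c₀ j)
  apply isEll_of_centralizer hc₀ _ hcomm
  intro h10
  apply hj
  have hzz : sBorelMat (-1 : Fˣ) (0 : F) * sBorelMat (-1 : Fˣ) (0 : F) = 1 := by
    rw [← hz, ← pow_add]
    have : k + 1 + (k + 1) = orderOf c₀ := by omega
    rw [this, pow_orderOf_eq_one]
  have hsq : c₀ ^ (j * 2) = 1 := by
    rw [pow_mul, sq]
    rcases centralizer_scalar hc₀ _ hcomm h10 with h | h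
    · rw [h, one_mul]
    · rw [h, hzz]
  have h1 := orderOf_dvd_of_pow_eq_one hsq
  rw [hord] at h1
  obtain ⟨t, ht⟩ := h1
  exact ⟨t, by
    have : j * 2 = (k + 1) * t * 2 := by rw [ht, hk]; ring
    omega⟩

/-- The powers of an element of order `q + 1` lying in the centre. -/
theorem pow_mem_center_iff (hodd : Odd (Fintype.card F))
    {c₀ : Matrix.SpecialLinearGroup (Fin 2) F} (hord : orderOf c₀ = Fintype.card F + 1)
    (hc₀ : IsEll c₀) (j : ℕ) :
    c₀ ^ j ∈ Subgroup.center (Matrix.SpecialLinearGroup (Fin 2) F) ↔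
      ((Fintype.card F + 1) / 2) ∣ j := by
  constructor
  · intro h
    by_contra hj
    exact (isEll_pow hodd hord hc₀ j hj).entry_ne (center_entry h)
  · rintro ⟨t, rfl⟩
    obtain ⟨_, hz⟩ := torus_of_order hodd hord hc₀
    rw [pow_mul, hz]
    exact Subgroup.pow_mem _ (sBorelMat_scalar_central (-1) neg_one_units_inv) t

end TorusPow

end Cfsg.Agent.Helper13
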