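import Mathlib
import Cfsg.Agent.Helper13.SL2TorusPow
import Cfsg.Agent.Helper2.CharOrtho
import Cfsg.Agent.Helper24.LinearChar

/-!
# The character of degree two of `SL₂(3)` with rational values
-/

set_option autoImplicit false

namespace Cfsg.Agent.Helper13

open Cfsg
open scoped ComplexConjugate

section CuspThree

variable {F : Type*} [Field F] [Fintype F] [DecidableEq F]

/-- The sum over the elements without eigenvector of a character of degree `q - 1` whose
values at the unipotent elements sum to zero. -/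
theorem cusp_ell_sum' (hodd : Odd (Fintype.card F))
    [DecidablePred (fun g : Matrix.SpecialLinearGroup (Fin 2) F => IsEll g)]
    {χ : Matrix.SpecialLinearGroup (Fin 2) F → ℂ}
    (hχ : IsIrrCharacter (Matrix.SpecialLinearGroup (Fin 2) F) χ)
    (hdeg : χ 1 = (Fintype.card F : ℂ) - 1)
    (hu : ∑ c : F, χ (sBorelMat 1 c) = 0) (ω : ℂ)
    (hω : ∀ g, χ (sBorelMat (-1) 0 * g) = ω * χ g) :
    ∑ g : Matrix.SpecialLinearGroup (Fin 2) F, (if IsEll g then χ g else 0) =
      (Fintype.card F : ℂ) * χ 1 * (1 + ω) := by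
  have hχcf := Helper2.IsIrrCharacter.isClassFunction hχ
  have h := sum_elliptic hodd hχcf
    (fun g h01 h10 hsq => vanish_split hodd hχ g (Or.inl hdeg) h01 h10 hsq)
  rw [h]
  have hG0 : (Nat.card (Matrix.SpecialLinearGroup (Fin 2) F) : ℂ) ≠ 0 := by
    exact_mod_cast Nat.card_pos.ne'
  have hne1 : χ ≠ (fun _ => (1 : ℂ)) := by
    intro h1
    have h2 := congrFun h1 1
    rw [hdeg] at h2
    have h3 : ((Fintype.card F : ℕ) : ℂ) = ((2 : ℕ) : ℂ) := by
      push_cast
      linear_combination h2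
    have h4 := Nat.cast_injective h3
    obtain ⟨k, hk⟩ := hodd
    omega
  have hsum0 : ∑ g : Matrix.SpecialLinearGroup (Fin 2) F, χ g = 0 := by
    have h1 := Helper2.classInner_irr hχ Helper2.isIrrCharacter_one_fun
    rw [if_neg hne1] at h1
    unfold classInner at h1
    simp only [map_one, mul_one] at h1
    rcases mul_eq_zero.mp h1 with h2 | h2
    · exact absurd (inv_eq_zero.mp h2) hG0
    · exact h2
  have hneg : ∀ c : F, χ (sBorelMat (-1) c) = ω * χ (sBorelMat 1 (-c)) := by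
    intro c
    rw [sBorelMat_split_scalar (-1) neg_one_units_inv c, hω]
    have h3 : ((-1 : Fˣ) : F) * c = -c := by simp
    rw [h3]
  have hsumneg : ∑ c : F, χ (sBorelMat 1 (-c)) = ∑ c : F, χ (sBorelMat 1 c) :=
    Equiv.sum_comp (Equiv.neg F) (fun c => χ (sBorelMat 1 c))
  have hz : χ (sBorelMat (-1) 0) = ω * χ 1 := by
    have h3 := hω 1
    rw [mul_one] at h3
    exact h3
  rw [Finset.sum_add_distrib, Finset.sum_congr rfl (fun c _ => hneg c), ← Finset.mul_sum,
    hsumneg, hu, hsum0, hz]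
  ring

/-- `SL₂(3)` has at most three linear characters. -/
theorem card_linear_three (h3 : Fintype.card F = 3)
    (g₀ : Matrix.SpecialLinearGroup (Fin 2) F) (hg₀ : IsEll g₀) : cntS F 1 ≤ 3 := by
  classical
  haveI := Helper24.finite_irrCharacter (G := Matrix.SpecialLinearGroup (Fin 2) F)
  haveI : Fintype (IrrCharacter (Matrix.SpecialLinearGroup (Fin 2) F)) := Fintype.ofFinite _
  have hodd : Odd (Fintype.card F) := ⟨1, by omega⟩
  have h2 := Helper2.second_orthogonality (G := Matrix.SpecialLinearGroup (Fin 2) F) g₀ g₀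
  rw [if_pos (IsConj.refl g₀), card_centralizer_SL hodd hg₀, h3] at h2
  have h2r : ∑ χ : IrrCharacter (Matrix.SpecialLinearGroup (Fin 2) F),
      Complex.normSq ((χ : Matrix.SpecialLinearGroup (Fin 2) F → ℂ) g₀) = 4 := by
    apply Complex.ofReal_injective
    rw [Complex.ofReal_sum]
    have h4 : ∀ χ ∈ (Finset.univ : Finset (IrrCharacter (Matrix.SpecialLinearGroup (Fin 2) F))),
        ((Complex.normSq ((χ : Matrix.SpecialLinearGroup (Fin 2) F → ℂ) g₀) : ℝ) : ℂ) =
        (χ : Matrix.SpecialLinearGroup (Fin 2) F → ℂ) g₀ *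
          conj ((χ : Matrix.SpecialLinearGroup (Fin 2) F → ℂ) g₀) :=
      fun χ _ => (Complex.mul_conj _).symm
    rw [Finset.sum_congr rfl h4, h2]
    norm_num
  obtain ⟨St, hSt⟩ : ∃ St : IrrCharacter (Matrix.SpecialLinearGroup (Fin 2) F),
      (St : Matrix.SpecialLinearGroup (Fin 2) F → ℂ) = stS F := ⟨⟨stS F, stS_spec.1⟩, rfl⟩
  have hStv : Complex.normSq ((St : Matrix.SpecialLinearGroup (Fin 2) F → ℂ) g₀) = 1 := by
    rw [hSt]
    have h5 : stS F g₀ = -1 := by
      have h := congrFun (rFun_one_eq (F := F)) g₀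
      rw [rFun_one_elliptic g₀ hg₀, Pi.add_apply] at h
      beta_reduce at h
      linear_combination -h
    rw [h5]
    simp
  obtain ⟨L, hL⟩ : ∃ L : Finset (IrrCharacter (Matrix.SpecialLinearGroup (Fin 2) F)),
      L = Finset.univ.filter (fun χ : IrrCharacter (Matrix.SpecialLinearGroup (Fin 2) F) =>
        (χ : Matrix.SpecialLinearGroup (Fin 2) F → ℂ) 1 = 1) := ⟨_, rfl⟩
  have hStL : St ∉ L := by
    rw [hL, Finset.mem_filter]
    rintro ⟨_, h⟩
    rw [hSt, stS_one, h3] at h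
    norm_num at h
  have hLsum : ∑ χ ∈ L, Complex.normSq ((χ : Matrix.SpecialLinearGroup (Fin 2) F → ℂ) g₀) =
      (L.card : ℝ) := by
    rw [Finset.card_eq_sum_ones, Nat.cast_sum]
    refine Finset.sum_congr rfl (fun χ hχ => ?_)
    rw [hL, Finset.mem_filter] at hχ
    rw [Complex.normSq_eq_norm_sq,
      Helper24.linear_char_norm (Helper24.isCharacter_of_irr χ.2) hχ.2 g₀]
    norm_num
  have hle : ∑ χ ∈ insert St L,
      Complex.normSq ((χ : Matrix.SpecialLinearGroup (Fin 2) F → ℂ) g₀) ≤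
      ∑ χ : IrrCharacter (Matrix.SpecialLinearGroup (Fin 2) F),
        Complex.normSq ((χ : Matrix.SpecialLinearGroup (Fin 2) F → ℂ) g₀) :=
    Finset.sum_le_univ_sum_of_nonneg (fun χ => Complex.normSq_nonneg _)
  rw [Finset.sum_insert hStL, hStv, hLsum, h2r] at hle
  have hLc : L.card = cntS F 1 := by
    unfold cntS
    rw [Nat.card_eq_fintype_card, Fintype.card_subtype, hL]
  rw [← hLc]
  have h6 : (L.card : ℝ) ≤ 3 := by linarith
  exact_mod_cast h6

/-- `SL₂(3)` has at least three irreducible characters of degree two. -/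
theorem cnt_two_three (h3 : Fintype.card F = 3)
    (g₀ : Matrix.SpecialLinearGroup (Fin 2) F) (hg₀ : IsEll g₀) :
    3 ≤ cntS F ((2 : ℕ) : ℂ) := by
  classical
  have hodd : Odd (Fintype.card F) := ⟨1, by omega⟩
  have hl := card_linear_three h3 g₀ hg₀
  have cq := card_deg_q (F := F)
  have cx := two_mul_cnt_q_add_one (F := F)
  rw [card_sq_ne_one_odd hodd] at cx
  have e1 : ((1 : ℕ) : ℂ) = 1 := Nat.cast_one
  have e3 : ((3 : ℕ) : ℂ) = (Fintype.card F : ℂ) := by rw [h3]
  have e4 : ((4 : ℕ) : ℂ) = (Fintype.card F : ℂ) + 1 := by rw [h3]; norm_num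
  obtain ⟨_, hB⟩ := count_by_degree (G := Matrix.SpecialLinearGroup (Fin 2) F)
    ({1, 2, 3, 4} : Finset ℕ) (by
      intro χ hχ
      rcases deg_list_odd hodd hχ with h | h | h | h | h | h
      · exact ⟨1, by simp, by rw [h, e1]⟩
      · exact ⟨3, by simp, by rw [h, e3]⟩
      · exact ⟨4, by simp, by rw [h, e4]⟩
      · exact ⟨2, by simp, by rw [h, h3]; norm_num⟩
      · exact ⟨2, by simp, by rw [h]; norm_num [h3]⟩
      · exact ⟨1, by simp, by rw [h]; norm_num [h3]⟩)
  rw [Finset.sum_insert (by simp), Finset.sum_insert (by simp),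
    Finset.sum_pair (by norm_num)] at hB
  rw [e1, e3, e4] at hB
  unfold cntS at cq cx hl ⊢
  obtain ⟨x, hx⟩ : ∃ x, x = Nat.card {χ : IrrCharacter (Matrix.SpecialLinearGroup (Fin 2) F) //
    (χ : Matrix.SpecialLinearGroup (Fin 2) F → ℂ) 1 = (Fintype.card F : ℂ) + 1} := ⟨_, rfl⟩
  obtain ⟨y, hy⟩ : ∃ y, y = Nat.card {χ : IrrCharacter (Matrix.SpecialLinearGroup (Fin 2) F) //
    (χ : Matrix.SpecialLinearGroup (Fin 2) F → ℂ) 1 = ((2 : ℕ) : ℂ)} := ⟨_, rfl⟩
  obtain ⟨w, hw⟩ : ∃ w, w = Nat.card {χ : IrrCharacter (Matrix.SpecialLinearGroup (Fin 2) F) //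
    (χ : Matrix.SpecialLinearGroup (Fin 2) F → ℂ) 1 = 1} := ⟨_, rfl⟩
  rw [← hx] at cx
  rw [cq, ← hx, ← hy, ← hw, S2301.card_SL2] at hB
  rw [← hw] at hl
  rw [← hy]
  rw [h3] at cx hB
  norm_num at hB cx
  omega

/-- There is a cuspidal character of `GL₂(3)` with irreducible restriction to `SL₂(3)`. -/
theorem exists_cusp_irr_three (h3 : Fintype.card F = 3)
    (g₀ : Matrix.SpecialLinearGroup (Fin 2) F) (hg₀ : IsEll g₀) :
    ∃ ψ : Matrix.GeneralLinearGroup (Fin 2) F → ℂ,
      IsIrrCharacter (Matrix.GeneralLinearGroup (Fin 2) F) ψ ∧ IsCusp ψ ∧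
      IsIrrCharacter (Matrix.SpecialLinearGroup (Fin 2) F) (resS ψ) := by
  classical
  haveI := Helper24.finite_irrCharacter (G := Matrix.SpecialLinearGroup (Fin 2) F)
  haveI : Fintype (IrrCharacter (Matrix.SpecialLinearGroup (Fin 2) F)) := Fintype.ofFinite _
  have hodd : Odd (Fintype.card F) := ⟨1, by omega⟩
  have hc := cnt_two_three h3 g₀ hg₀
  unfold cntS at hc
  rw [Nat.card_eq_fintype_card] at hc
  obtain ⟨A, B, C, hAB, hAC, hBC⟩ := Fintype.two_lt_card_iff.mp
    (show 2 < Fintype.card {χ : IrrCharacter (Matrix.SpecialLinearGroup (Fin 2) F) //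
      (χ : Matrix.SpecialLinearGroup (Fin 2) F → ℂ) 1 = ((2 : ℕ) : ℂ)} by omega)
  obtain ⟨ε, hε, hε1⟩ := exists_mulChar_order_two (F := F) hodd
  obtain ⟨θ₁, θ₂, h1, h2, hne, hsum⟩ := char_norm_two (isCharacter_rFun ε) (norm_rFun_two hε)
  have hX : ∃ X : {χ : IrrCharacter (Matrix.SpecialLinearGroup (Fin 2) F) //
      (χ : Matrix.SpecialLinearGroup (Fin 2) F → ℂ) 1 = ((2 : ℕ) : ℂ)},
      θ₁ ≠ X.1.1 ∧ θ₂ ≠ X.1.1 := by
    by_contra hcon
    have hall : ∀ X : {χ : IrrCharacter (Matrix.SpecialLinearGroup (Fin 2) F) //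
        (χ : Matrix.SpecialLinearGroup (Fin 2) F → ℂ) 1 = ((2 : ℕ) : ℂ)},
        θ₁ = X.1.1 ∨ θ₂ = X.1.1 := by
      intro X
      by_contra h
      exact hcon ⟨X, fun h' => h (Or.inl h'), fun h' => h (Or.inr h')⟩
    have eqX : ∀ X Y : {χ : IrrCharacter (Matrix.SpecialLinearGroup (Fin 2) F) //
        (χ : Matrix.SpecialLinearGroup (Fin 2) F → ℂ) 1 = ((2 : ℕ) : ℂ)},
        X.1.1 = Y.1.1 → X = Y := fun X Y h => Subtype.ext (Subtype.ext h)
    rcases hall A with a | a <;> rcases hall B with b | b <;> rcases hall C with c | c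
    · exact hAB (eqX A B (a.symm.trans b))
    · exact hAB (eqX A B (a.symm.trans b))
    · exact hAC (eqX A C (a.symm.trans c))
    · exact hBC (eqX B C (b.symm.trans c))
    · exact hBC (eqX B C (b.symm.trans c))
    · exact hAC (eqX A C (a.symm.trans c))
    · exact hAB (eqX A B (a.symm.trans b))
    · exact hAB (eqX A B (a.symm.trans b))
  obtain ⟨X, hX1, hX2⟩ := hX
  have hin : classInner (rFun ε) X.1.1 = 0 := by
    rw [hsum, Helper2.classInner_add_left, Helper2.classInner_irr h1 X.1.2,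
      Helper2.classInner_irr h2 X.1.2, if_neg hX1, if_neg hX2, add_zero]
  have hdegX : (X.1 : Matrix.SpecialLinearGroup (Fin 2) F → ℂ) 1 =
      (((Fintype.card F + 1) / 2 : ℕ) : ℂ) := by
    rw [X.2, h3]
  rcases irr_deg_half_add' hodd X.1.2 hdegX with ⟨γ, hγ, hγ1, hγin⟩ | ⟨_, ψ, hψ, hcusp, hres⟩
  · exfalso
    rw [mulChar_order_two_unique hγ hγ1 hε hε1] at hγin
    exact hγin hin
  · refine ⟨ψ, hψ, hcusp, ?_⟩
    rw [← hres]
    exact X.1.2

/-- The properties of the restriction to `SL₂(3)` of a cuspidal character of `GL₂(3)`, when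
it is irreducible. -/
theorem cusp_three_props (h3 : Fintype.card F = 3)
    {ψ : Matrix.GeneralLinearGroup (Fin 2) F → ℂ}
    (hψ : IsIrrCharacter (Matrix.GeneralLinearGroup (Fin 2) F) ψ) (hcusp : IsCusp ψ)
    (hirr : IsIrrCharacter (Matrix.SpecialLinearGroup (Fin 2) F) (resS ψ)) :
    resS ψ 1 = (Fintype.card F : ℂ) - 1 ∧
    (∀ g, IsEll g → resS ψ g = 0) ∧
    (∀ g, resS ψ (sBorelMat (-1) 0 * g) = -resS ψ g) ∧
    (∀ c : F, c ≠ 0 → resS ψ (sBorelMat 1 c) = -1) := by
  classical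
  have hodd : Odd (Fintype.card F) := ⟨1, by omega⟩
  have hdeg : resS ψ 1 = (Fintype.card F : ℂ) - 1 := by
    rw [resS_one]
    exact (cusp_main.1 ψ hψ hcusp).1
  have hdeg' : resS ψ 1 = (((Fintype.card F + 1) / 2 : ℕ) : ℂ) := by
    rw [hdeg, h3]
    norm_num
  have hell : ∀ g, IsEll g → resS ψ g = 0 := fun g hg =>
    vanish_elliptic hodd hirr g (Or.inr hdeg') hg
  have hunip : ∀ c : F, c ≠ 0 → resS ψ (sBorelMat 1 c) = -1 := fun c hc =>
    resS_cusp_unip hψ hcusp c hc
  refine ⟨hdeg, hell, ?_, hunip⟩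
  have hzc : sBorelMat (-1 : Fˣ) (0 : F) ∈
      Subgroup.center (Matrix.SpecialLinearGroup (Fin 2) F) :=
    sBorelMat_scalar_central (-1) neg_one_units_inv
  obtain ⟨ω, _, hω⟩ := central_char_unit hirr _ hzc
  have hu : ∑ c : F, resS ψ (sBorelMat 1 c) = 0 := by
    have h1 : ∀ c : F, resS ψ (sBorelMat 1 c) =
        if c = 0 then ((Fintype.card F : ℂ) - 1) else -1 := by
      intro c
      by_cases hc : c = 0
      · rw [if_pos hc, hc, sBorelMat_one_zero, hdeg]
      · rw [if_neg hc, hunip c hc]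
    rw [Finset.sum_congr rfl (fun c _ => h1 c), sum_ite_zero]
    ring
  have hs := cusp_ell_sum' hodd hirr hdeg hu ω hω
  have hs0 : ∑ g : Matrix.SpecialLinearGroup (Fin 2) F, (if IsEll g then resS ψ g else 0) = 0 := by
    apply Finset.sum_eq_zero
    intro g _
    by_cases hg : IsEll g
    · rw [if_pos hg, hell g hg]
    · rw [if_neg hg]
  rw [hs0, hdeg, h3] at hs
  have hω1 : ω = -1 := by
    have h4 : (1 + ω) * 6 = 0 := by
      push_cast at hs
      linear_combination -hs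
    rcases mul_eq_zero.mp h4 with h5 | h5
    · linear_combination h5
    · norm_num at h5
  intro g
  rw [hω, hω1]
  ring

end CuspThree

end Cfsg.Agent.Helper13
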