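import Mathlib
import Cfsg.Agent.Helper13.SL2CuspThree

/-!
# The characters of degree `q - 1` of `SL₂(q)`, `q` odd, and the cyclic subgroups of order
`q + 1`
-/

set_option autoImplicit false

namespace Cfsg.Agent.Helper13

open Cfsg
open scoped ComplexConjugate

section CuspFinal

variable {F : Type*} [Field F] [Fintype F] [DecidableEq F]

/-- Existence and values of the characters of degree `q - 1` in terms of an element of order
`q + 1` and a primitive root of unity. -/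
theorem cusp_data (hodd : Odd (Fintype.card F))
    (c₀ : Matrix.SpecialLinearGroup (Fin 2) F) (hord : orderOf c₀ = Fintype.card F + 1)
    (hc₀ : IsEll c₀) (ζ : ℂ) (hζ : IsPrimitiveRoot ζ (Fintype.card F + 1)) :
    (∀ b : ℕ, ζ ^ (2 * b) ≠ 1 →
      ∃ χ : Matrix.SpecialLinearGroup (Fin 2) F → ℂ,
        IsIrrCharacter (Matrix.SpecialLinearGroup (Fin 2) F) χ ∧
        χ 1 = (Fintype.card F : ℂ) - 1 ∧
        (∃ a : ℕ, (ζ ^ a = ζ ^ b ∨ ζ ^ a = (ζ ^ b)⁻¹) ∧
          (∀ j, ¬ ((Fintype.card F + 1) / 2) ∣ j →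
            χ (c₀ ^ j) = -(ζ ^ (a * j) + (ζ ^ (a * j))⁻¹)) ∧
          (∀ g, χ (sBorelMat (-1) 0 * g) = (-1) ^ a * χ g)) ∧
        (∀ g : Matrix.SpecialLinearGroup (Fin 2) F,
          (g : Matrix (Fin 2) (Fin 2) F) 0 1 = 0 → (g : Matrix (Fin 2) (Fin 2) F) 1 0 = 0 →
          (g : Matrix (Fin 2) (Fin 2) F) 0 0 ^ 2 ≠ 1 → χ g = 0) ∧
        (∀ c : F, c ≠ 0 → χ (sBorelMat 1 c) = -1)) ∧
    (∀ χ : Matrix.SpecialLinearGroup (Fin 2) F → ℂ,
      IsIrrCharacter (Matrix.SpecialLinearGroup (Fin 2) F) χ →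
      χ 1 = (Fintype.card F : ℂ) - 1 →
      ∃ a : ℕ, ζ ^ (2 * a) ≠ 1 ∧ ∀ j, ¬ ((Fintype.card F + 1) / 2) ∣ j →
        χ (c₀ ^ j) = -(ζ ^ (a * j) + (ζ ^ (a * j))⁻¹)) := by
  classical
  have hq2 : 1 < Fintype.card F := Fintype.one_lt_card
  have hodd' := hodd
  obtain ⟨k, hk⟩ := hodd
  by_cases hq : 5 ≤ Fintype.card F
  · constructor
    · intro b hb
      obtain ⟨χ, hχ, hdeg, a, ha, hval, hω⟩ := cusp_exists hodd' hq c₀ hord hc₀ ζ hζ b hb
      exact ⟨χ, hχ, hdeg, ⟨a, ha, hval, hω⟩,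
        fun g h01 h10 hsq => vanish_split hodd' hχ g (Or.inl hdeg) h01 h10 hsq,
        fun c hc => cusp_unip (by omega) hχ hdeg c hc⟩
    · intro χ hχ hdeg
      obtain ⟨P, hPdef⟩ : ∃ P : Matrix.SpecialLinearGroup (Fin 2) F → Prop,
          P = fun c => c ∈ Subgroup.zpowers c₀ ∧ ¬ (c = 1 ∨ c = sBorelMat (-1) 0) := ⟨_, rfl⟩
      have hP : ∀ c, P c ↔ (c ∈ Subgroup.zpowers c₀ ∧ ¬ (c = 1 ∨ c = sBorelMat (-1) 0)) := by
        intro c
        rw [hPdef]
      obtain ⟨a, _, ha2, hval, _, _⟩ :=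
        cusp_torus_values hodd' hq hχ hdeg c₀ hord hc₀ P hP ζ hζ
      exact ⟨a, ha2, hval⟩
  · have h3 : Fintype.card F = 3 := by omega
    have hhalf : (Fintype.card F + 1) / 2 = 2 := by omega
    have hζ4 : IsPrimitiveRoot ζ (2 * 2) := by
      rw [h3] at hζ
      exact hζ
    have hr : ζ ^ 2 = -1 := root_half 2 (by norm_num) ζ hζ4
    have hoddpow : ∀ n : ℕ, Odd n → ζ ^ n + (ζ ^ n)⁻¹ = 0 := by
      intro n hn
      obtain ⟨m, hm⟩ := hn
      have h1 : ζ ^ n * ζ ^ n = -1 := by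
        rw [← pow_add, hm, (by ring : 2 * m + 1 + (2 * m + 1) = 2 * (2 * m + 1)), pow_mul, hr,
          Odd.neg_one_pow ⟨m, rfl⟩]
      have h2 : (ζ ^ n)⁻¹ = -ζ ^ n := by
        apply inv_eq_of_mul_eq_one_right
        rw [mul_neg, h1, neg_neg]
      rw [h2]
      ring
    have hevenpow : ∀ n : ℕ, ζ ^ (2 * n) ≠ 1 → Odd n := by
      intro n hn
      by_contra hcon
      rw [Nat.not_odd_iff_even] at hcon
      obtain ⟨m, hm⟩ := hcon
      apply hn
      rw [hm, (by ring : 2 * (m + m) = 2 * 2 * m), pow_mul, hζ4.pow_eq_one, one_pow]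
    have hjodd : ∀ j : ℕ, ¬ ((Fintype.card F + 1) / 2) ∣ j → Odd j := by
      intro j hj
      rw [hhalf] at hj
      rw [← Nat.not_even_iff_odd, even_iff_two_dvd]
      exact hj
    constructor
    · intro b hb
      obtain ⟨ψ, hψ, hcusp, hirr⟩ := exists_cusp_irr_three h3 c₀ hc₀
      obtain ⟨hdeg, hell, hω, hunip⟩ := cusp_three_props h3 hψ hcusp hirr
      have hbo := hevenpow b hb
      refine ⟨resS ψ, hirr, hdeg, ⟨b, Or.inl rfl, ?_, ?_⟩, ?_, hunip⟩
      · intro j hj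
        rw [hell _ (isEll_pow hodd' hord hc₀ j hj), hoddpow (b * j) (hbo.mul (hjodd j hj)),
          neg_zero]
      · intro g
        rw [hω g, hbo.neg_one_pow]
        ring
      · intro g h01 h10 hsq
        exact vanish_split hodd' hirr g (Or.inl hdeg) h01 h10 hsq
    · intro χ hχ hdeg
      refine ⟨1, ?_, ?_⟩
      · rw [mul_one, hr]
        norm_num
      · intro j hj
        have hdeg' : χ 1 = (((Fintype.card F + 1) / 2 : ℕ) : ℂ) := by
          rw [hdeg, h3]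
          norm_num
        rw [vanish_elliptic hodd' hχ _ (Or.inr hdeg') (isEll_pow hodd' hord hc₀ j hj), one_mul,
          hoddpow j (hjodd j hj), neg_zero]

/-- The characters of degree `q - 1` of `SL₂(q)`, `q` odd, and the homomorphisms of a cyclic
subgroup of order `q + 1`. -/
theorem cusp_final (hodd : Odd (Fintype.card F))
    (C : Subgroup (Matrix.SpecialLinearGroup (Fin 2) F)) (hC : IsCyclic C)
    (hcard : Nat.card C = Fintype.card F + 1) :
    (∀ θ : C →* ℂˣ, (∃ c : C, θ c ^ 2 ≠ 1) →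
      ∃ χ : Matrix.SpecialLinearGroup (Fin 2) F → ℂ,
        Cfsg.IsIrrCharacter (Matrix.SpecialLinearGroup (Fin 2) F) χ ∧
        χ 1 = (Fintype.card F : ℂ) - 1 ∧
        (∀ c : C, (c : Matrix.SpecialLinearGroup (Fin 2) F) ∉
            Subgroup.center (Matrix.SpecialLinearGroup (Fin 2) F) →
          χ c = -((θ c).val + (θ c)⁻¹.val)) ∧
        (∀ c : C, (c : Matrix.SpecialLinearGroup (Fin 2) F) ∈
            Subgroup.center (Matrix.SpecialLinearGroup (Fin 2) F) →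
          ∀ g : Matrix.SpecialLinearGroup (Fin 2) F,
            χ ((c : Matrix.SpecialLinearGroup (Fin 2) F) * g) = (θ c).val * χ g) ∧
        (∀ g : Matrix.SpecialLinearGroup (Fin 2) F, (g : Matrix (Fin 2) (Fin 2) F) 0 1 = 0 →
          (g : Matrix (Fin 2) (Fin 2) F) 1 0 = 0 → (g : Matrix (Fin 2) (Fin 2) F) 0 0 ^ 2 ≠ 1 →
          χ g = 0) ∧
        (∀ g : Matrix.SpecialLinearGroup (Fin 2) F, (g : Matrix (Fin 2) (Fin 2) F) 1 0 = 0 →
          (g : Matrix (Fin 2) (Fin 2) F) 0 0 = 1 → (g : Matrix (Fin 2) (Fin 2) F) 1 1 = 1 →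
          (g : Matrix (Fin 2) (Fin 2) F) 0 1 ≠ 0 → χ g = -1)) ∧
    (∀ χ : Matrix.SpecialLinearGroup (Fin 2) F → ℂ,
      Cfsg.IsIrrCharacter (Matrix.SpecialLinearGroup (Fin 2) F) χ →
      χ 1 = (Fintype.card F : ℂ) - 1 →
      ∃ θ : C →* ℂˣ, (∃ c : C, θ c ^ 2 ≠ 1) ∧
        ∀ c : C, (c : Matrix.SpecialLinearGroup (Fin 2) F) ∉
            Subgroup.center (Matrix.SpecialLinearGroup (Fin 2) F) →
          χ c = -((θ c).val + (θ c)⁻¹.val)) := by
  classical
  have hodd' := hodd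
  obtain ⟨k, hk⟩ := hodd
  have hhalf' : (Fintype.card F + 1) / 2 = k + 1 := by omega
  have hN2 : Fintype.card F + 1 = 2 * (k + 1) := by omega
  obtain ⟨gen, hgen⟩ := hC.exists_generator
  obtain ⟨c₁, hc₁def⟩ : ∃ c₁ : Matrix.SpecialLinearGroup (Fin 2) F,
      c₁ = (gen : Matrix.SpecialLinearGroup (Fin 2) F) := ⟨_, rfl⟩
  have hordg : orderOf gen = Fintype.card F + 1 := by
    rw [orderOf_eq_card_of_forall_mem_zpowers hgen, hcard]
  have hord : orderOf c₁ = Fintype.card F + 1 := by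
    rw [hc₁def, Subgroup.orderOf_coe, hordg]
  have hc₁ : IsEll c₁ := isEll_of_orderOf hodd' hord
  obtain ⟨_, hz⟩ := torus_of_order hodd' hord hc₁
  rw [hhalf'] at hz
  have hNpos : 0 < Fintype.card F + 1 := by omega
  have hζ := Complex.isPrimitiveRoot_exp (Fintype.card F + 1) hNpos.ne'
  obtain ⟨ζ, hζdef⟩ : ∃ ζ : ℂ,
      ζ = Complex.exp (2 * Real.pi * Complex.I / ((Fintype.card F + 1 : ℕ) : ℂ)) := ⟨_, rfl⟩
  rw [← hζdef] at hζ
  have hζN : ζ ^ (Fintype.card F + 1) = 1 := hζ.pow_eq_one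
  have hζ0 : ζ ≠ 0 := hζ.ne_zero hNpos.ne'
  have hr : ζ ^ (k + 1) = -1 := root_half (k + 1) (by omega) ζ (by rw [← hN2]; exact hζ)
  obtain ⟨hE, hU⟩ := cusp_data hodd' c₁ hord hc₁ ζ hζ
  have hpowC : ∀ c : C, ∃ j : ℕ, gen ^ j = c := by
    intro c
    have h1 : c ∈ Submonoid.powers gen := mem_powers_iff_mem_zpowers.mpr (hgen c)
    exact (Submonoid.mem_powers_iff c gen).mp h1
  have hcoe : ∀ j : ℕ, ((gen ^ j : C) : Matrix.SpecialLinearGroup (Fin 2) F) = c₁ ^ j := by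
    intro j
    rw [hc₁def]
    exact Subgroup.coe_pow C gen j
  have hcen : ∀ j : ℕ, c₁ ^ j ∈ Subgroup.center (Matrix.SpecialLinearGroup (Fin 2) F) ↔
      (k + 1) ∣ j := by
    intro j
    rw [pow_mem_center_iff hodd' hord hc₁ j, hhalf']
  constructor
  · rintro θ ⟨c', hc'⟩
    obtain ⟨ξ, hξdef⟩ : ∃ ξ : ℂ, ξ = ((θ gen : ℂˣ) : ℂ) := ⟨_, rfl⟩
    have hθpow : ∀ j : ℕ, ((θ (gen ^ j) : ℂˣ) : ℂ) = ξ ^ j := by
      intro j
      rw [map_pow, Units.val_pow_eq_pow_val, hξdef]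
    have hξN : ξ ^ (Fintype.card F + 1) = 1 := by
      rw [← hθpow, ← hordg, pow_orderOf_eq_one, map_one, Units.val_one]
    obtain ⟨b, _, hb⟩ := hζ.eq_pow_of_pow_eq_one hξN
    have hb2 : ζ ^ (2 * b) ≠ 1 := by
      intro h
      apply hc'
      obtain ⟨j, hj⟩ := hpowC c'
      apply Units.ext
      rw [Units.val_pow_eq_pow_val, Units.val_one, ← hj, hθpow, ← hb]
      calc ((ζ ^ b) ^ j) ^ 2 = (ζ ^ (2 * b)) ^ j := by ring
        _ = 1 := by rw [h, one_pow]
    obtain ⟨χ, hχ, hdeg, ⟨a, ha, hval, hω⟩, hA3, hA4⟩ := hE b hb2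
    rw [hb] at ha
    rw [hhalf'] at hval
    refine ⟨χ, hχ, hdeg, ?_, ?_, hA3, ?_⟩
    · intro c hc
      obtain ⟨j, hj⟩ := hpowC c
      have hcj : (c : Matrix.SpecialLinearGroup (Fin 2) F) = c₁ ^ j := by rw [← hj, hcoe]
      rw [hcj, hcen] at hc
      rw [hcj, hval j hc, ← hj, Units.val_inv_eq_inv_val, hθpow, pow_mul ζ a j]
      rcases ha with h | h
      · rw [h]
      · rw [h, inv_pow, inv_inv, add_comm]
    · intro c hc g
      obtain ⟨j, hj⟩ := hpowC c
      have hcj : (c : Matrix.SpecialLinearGroup (Fin 2) F) = c₁ ^ j := by rw [← hj, hcoe]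
      rw [hcj, hcen] at hc
      obtain ⟨t, ht⟩ := hc
      have hzt : ∀ (t : ℕ) (g : Matrix.SpecialLinearGroup (Fin 2) F),
          χ ((sBorelMat (-1) 0) ^ t * g) = ((-1 : ℂ) ^ a) ^ t * χ g := by
        intro t
        induction t with
        | zero =>
          intro g
          rw [pow_zero, one_mul, pow_zero, one_mul]
        | succ n ih =>
          intro g
          rw [pow_succ, mul_assoc, ih, hω]
          ring
      have hξh : ξ ^ (k + 1) = (-1) ^ a := by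
        rcases ha with h | h
        · rw [← h, ← pow_mul, mul_comm, pow_mul, hr]
        · have h' : ξ = (ζ ^ a)⁻¹ := by rw [h, inv_inv]
          rw [h', inv_pow, ← pow_mul, mul_comm, pow_mul, hr]
          rcases Nat.even_or_odd a with he | ho
          · rw [he.neg_one_pow, inv_one]
          · rw [ho.neg_one_pow]
            norm_num
      rw [hcj, ht, pow_mul, hz, hzt, ← hj, hθpow, ht, pow_mul, hξh]
    · intro g h10 h00 h11 h01
      have hg : g = sBorelMat 1 ((g : Matrix (Fin 2) (Fin 2) F) 0 1) := by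
        apply Subtype.ext
        rw [sBorelMat_coe]
        apply mat2_ext
        · simp [h00]
        · simp
        · simp [h10]
        · simp [h11]
      rw [hg]
      exact hA4 _ h01
  · intro χ hχ hdeg
    obtain ⟨a, ha2, hval⟩ := hU χ hχ hdeg
    rw [hhalf'] at hval
    have hu0 : ζ ^ a ≠ 0 := pow_ne_zero _ hζ0
    have hdvd : orderOf (Units.mk0 (ζ ^ a) hu0) ∣ orderOf gen := by
      rw [hordg]
      apply orderOf_dvd_of_pow_eq_one
      apply Units.ext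
      rw [Units.val_pow_eq_pow_val, Units.val_mk0, Units.val_one, ← pow_mul, mul_comm, pow_mul,
        hζN, one_pow]
    obtain ⟨θ, hθdef⟩ : ∃ θ : C →* ℂˣ, θ = monoidHomOfForallMemZpowers hgen hdvd := ⟨_, rfl⟩
    have hθgen : θ gen = Units.mk0 (ζ ^ a) hu0 := by
      rw [hθdef]
      exact monoidHomOfForallMemZpowers_apply_gen hgen hdvd
    refine ⟨θ, ⟨gen, ?_⟩, ?_⟩
    · intro h
      apply ha2
      have h1 := congrArg Units.val h
      rw [hθgen, Units.val_pow_eq_pow_val, Units.val_mk0, Units.val_one] at h1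
      rw [mul_comm, pow_mul]
      exact h1
    · intro c hc
      obtain ⟨j, hj⟩ := hpowC c
      have hcj : (c : Matrix.SpecialLinearGroup (Fin 2) F) = c₁ ^ j := by rw [← hj, hcoe]
      rw [hcj, hcen] at hc
      rw [hcj, hval j hc, ← hj, map_pow, hθgen, Units.val_inv_eq_inv_val,
        Units.val_pow_eq_pow_val, Units.val_mk0, pow_mul ζ a j]

end CuspFinal

end Cfsg.Agent.Helper13
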