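import Mathlib
import Cfsg.Agent.Helper13.SL2CuspFinal
import Cfsg.Agent.Helper25.BlockOrth2
import Cfsg.Agent.Helper25.BlockMinMax3
import Cfsg.Agent.Helper6.PRegular
import Cfsg.Agent.Helper2.CharOrtho

/-!
# Central characters of `SL₂(q)`, `q` odd, modulo the defining characteristic
-/

set_option autoImplicit false

namespace Cfsg.Agent.Helper13

open Cfsg
open scoped ComplexConjugate

section SL2Blocks

variable {F : Type*} [Field F] [Fintype F] [DecidableEq F]

theorem sBorelMat_neg_one_eq : sBorelMat (-1 : Fˣ) (0 : F) = -1 := by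
  apply Subtype.ext
  rw [sBorelMat_coe, neg_one_units_inv, Matrix.SpecialLinearGroup.coe_neg,
    Matrix.SpecialLinearGroup.coe_one]
  ext i j
  fin_cases i <;> fin_cases j <;> simp

theorem sBorelMat_neg_one_sq :
    sBorelMat (-1 : Fˣ) (0 : F) * sBorelMat (-1 : Fˣ) (0 : F) = 1 := by
  apply Subtype.ext
  rw [Matrix.SpecialLinearGroup.coe_mul, sBorelMat_coe, neg_one_units_inv,
    Matrix.SpecialLinearGroup.coe_one]
  ext i j
  fin_cases i <;> fin_cases j <;> simp [Matrix.mul_apply, Fin.sum_univ_two]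

theorem sBorelMat_one_mul (a b : F) :
    sBorelMat 1 a * sBorelMat 1 b = sBorelMat (1 : Fˣ) (a + b) := by
  apply Subtype.ext
  rw [Matrix.SpecialLinearGroup.coe_mul, sBorelMat_coe, sBorelMat_coe, sBorelMat_coe]
  ext i j
  fin_cases i <;> fin_cases j <;> simp [Matrix.mul_apply, Fin.sum_univ_two, add_comm]

theorem sBorelMat_one_pow (c : F) (n : ℕ) :
    sBorelMat 1 c ^ n = sBorelMat (1 : Fˣ) ((n : F) * c) := by
  induction n with
  | zero => rw [pow_zero, Nat.cast_zero, zero_mul, sBorelMat_one_zero]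
  | succ m ih =>
    rw [pow_succ, ih, sBorelMat_one_mul]
    congr 1
    push_cast
    ring

/-- Unitriangular elements have order a power of the characteristic. -/
theorem orderOf_unip (p : ℕ) [Fact p.Prime] [CharP F p] (c : F) :
    ∃ k : ℕ, orderOf (sBorelMat (1 : Fˣ) c) = p ^ k := by
  have h : sBorelMat (1 : Fˣ) c ^ p = 1 := by
    rw [sBorelMat_one_pow, CharP.cast_eq_zero, zero_mul, sBorelMat_one_zero]
  have h2 : orderOf (sBorelMat (1 : Fˣ) c) ∣ p ^ 1 := by
    rw [pow_one]
    exact orderOf_dvd_of_pow_eq_one h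
  obtain ⟨k, _, hk⟩ := (Nat.dvd_prime_pow (Fact.out : p.Prime)).mp h2
  exact ⟨k, hk⟩

/-- The centralizer of a regular diagonal element is the diagonal torus. -/
theorem card_centralizer_split (a : Fˣ) (ha : (a : F) ^ 2 ≠ 1) :
    Nat.card (Subgroup.centralizer
      ({sBorelMat a 0} : Set (Matrix.SpecialLinearGroup (Fin 2) F))) = Fintype.card F - 1 := by
  have hcomm : ∀ t : Fˣ, sBorelMat t (0 : F) * sBorelMat a 0 = sBorelMat a 0 * sBorelMat t 0 := by
    intro t
    apply Subtype.ext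
    rw [Matrix.SpecialLinearGroup.coe_mul, Matrix.SpecialLinearGroup.coe_mul, sBorelMat_coe,
      sBorelMat_coe]
    ext i j
    fin_cases i <;> fin_cases j <;> simp [Matrix.mul_apply, Fin.sum_univ_two, mul_comm]
  have hane : ((a⁻¹ : Fˣ) : F) ≠ (a : F) := by
    intro h
    apply ha
    have h2 := congrArg Units.val (inv_mul_cancel a)
    rw [Units.val_mul, Units.val_one, h] at h2
    rw [sq]
    exact h2
  have hdiag : ∀ s : Matrix.SpecialLinearGroup (Fin 2) F,
      s * sBorelMat a 0 = sBorelMat a 0 * s →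
      (s : Matrix (Fin 2) (Fin 2) F) 0 1 = 0 ∧ (s : Matrix (Fin 2) (Fin 2) F) 1 0 = 0 := by
    intro s hs
    have e1 : ((s * sBorelMat a 0 : Matrix.SpecialLinearGroup (Fin 2) F) :
        Matrix (Fin 2) (Fin 2) F) 0 1 = (s : Matrix (Fin 2) (Fin 2) F) 0 1 * ((a⁻¹ : Fˣ) : F) := by
      rw [Matrix.SpecialLinearGroup.coe_mul, sBorelMat_coe, Matrix.mul_apply, Fin.sum_univ_two]
      simp
    have e2 : ((sBorelMat a 0 * s : Matrix.SpecialLinearGroup (Fin 2) F) :
        Matrix (Fin 2) (Fin 2) F) 0 1 = (a : F) * (s : Matrix (Fin 2) (Fin 2) F) 0 1 := by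
      rw [Matrix.SpecialLinearGroup.coe_mul, sBorelMat_coe, Matrix.mul_apply, Fin.sum_univ_two]
      simp
    have e3 : ((s * sBorelMat a 0 : Matrix.SpecialLinearGroup (Fin 2) F) :
        Matrix (Fin 2) (Fin 2) F) 1 0 = (s : Matrix (Fin 2) (Fin 2) F) 1 0 * (a : F) := by
      rw [Matrix.SpecialLinearGroup.coe_mul, sBorelMat_coe, Matrix.mul_apply, Fin.sum_univ_two]
      simp
    have e4 : ((sBorelMat a 0 * s : Matrix.SpecialLinearGroup (Fin 2) F) :
        Matrix (Fin 2) (Fin 2) F) 1 0 = ((a⁻¹ : Fˣ) : F) * (s : Matrix (Fin 2) (Fin 2) F) 1 0 := by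
      rw [Matrix.SpecialLinearGroup.coe_mul, sBorelMat_coe, Matrix.mul_apply, Fin.sum_univ_two]
      simp
    rw [hs, e2] at e1
    rw [hs, e4] at e3
    constructor
    · have h1 : (s : Matrix (Fin 2) (Fin 2) F) 0 1 * (((a⁻¹ : Fˣ) : F) - (a : F)) = 0 := by
        linear_combination -e1
      rcases mul_eq_zero.mp h1 with h | h
      · exact h
      · exact absurd (sub_eq_zero.mp h) hane
    · have h1 : (s : Matrix (Fin 2) (Fin 2) F) 1 0 * (((a⁻¹ : Fˣ) : F) - (a : F)) = 0 := by
        linear_combination e3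
      rcases mul_eq_zero.mp h1 with h | h
      · exact h
      · exact absurd (sub_eq_zero.mp h) hane
  obtain ⟨f, hf⟩ : ∃ f : Fˣ → Subgroup.centralizer
      ({sBorelMat a 0} : Set (Matrix.SpecialLinearGroup (Fin 2) F)),
      ∀ t, ((f t : Subgroup.centralizer
        ({sBorelMat a 0} : Set (Matrix.SpecialLinearGroup (Fin 2) F))) :
        Matrix.SpecialLinearGroup (Fin 2) F) = sBorelMat t 0 :=
    ⟨fun t => ⟨sBorelMat t 0, Subgroup.mem_centralizer_singleton_iff.mpr (hcomm t)⟩, fun t => rfl⟩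
  have hbij : Function.Bijective f := by
    constructor
    · intro t t' htt
      have h1 : sBorelMat t (0 : F) = sBorelMat t' 0 := by
        rw [← hf t, ← hf t', htt]
      have h2 := congrArg (fun M : Matrix.SpecialLinearGroup (Fin 2) F =>
        (M : Matrix (Fin 2) (Fin 2) F) 0 0) h1
      exact Units.ext h2
    · intro s
      obtain ⟨h01, h10⟩ := hdiag s.1 (Subgroup.mem_centralizer_singleton_iff.mp s.2)
      have hdet := s.1.det_coe
      rw [Matrix.det_fin_two, h01, zero_mul, sub_zero] at hdet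
      have h00 : (s.1 : Matrix (Fin 2) (Fin 2) F) 0 0 ≠ 0 := left_ne_zero_of_mul_eq_one hdet
      refine ⟨Units.mk0 _ h00, ?_⟩
      apply Subtype.ext
      rw [hf]
      apply Subtype.ext
      rw [sBorelMat_coe]
      apply mat2_ext
      · simp
      · simp [h01]
      · simp [h10]
      · have h11 : (s.1 : Matrix (Fin 2) (Fin 2) F) 1 1 =
            ((s.1 : Matrix (Fin 2) (Fin 2) F) 0 0)⁻¹ := eq_inv_of_mul_eq_one_right hdet
        simp [h11]
  rw [← Nat.card_congr (Equiv.ofBijective f hbij), Nat.card_eq_fintype_card, Fintype.card_units]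

end SL2Blocks

end Cfsg.Agent.Helper13
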