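import Mathlib
import Cfsg.Agent.Helper13.SL2Blocks

/-!
# The blocks of `SL₂(q)`, `q` odd, in the defining characteristic: congruences
-/

set_option autoImplicit false

namespace Cfsg.Agent.Helper13

open Cfsg
open scoped ComplexConjugate

section Generic

variable {G : Type*} [Group G] [Fintype G] {M : Ideal AlgInt} {p : ℕ}

/-- The central character of a character of degree prime to `p` vanishes modulo the ideal at
the classes of size divisible by `p`. -/
theorem centralChar_mem_of_dvd [Fact p.Prime] (hpM : IsPModular p M) (χ : IrrCharacter G)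
    (hdeg : ¬ p ∣ charDegree (χ : G → ℂ)) (g : G)
    (hidx : p ∣ (Subgroup.centralizer ({g} : Set G)).index) :
    MemLocalIdeal M (centralChar (χ : G → ℂ) g) := by
  by_contra h
  have h1 := Helper25.idx_le_degree_of_centralChar hpM χ g h
  rw [Nat.factorization_eq_zero_of_not_dvd hdeg] at h1
  have hidx0 : (Subgroup.centralizer ({g} : Set G)).index ≠ 0 := Subgroup.index_ne_zero_of_finite
  have h2 := (Fact.out : p.Prime).factorization_pos_of_dvd hidx0 hidx
  omega

/-- The central characters of two characters of degree prime to `p` with the same central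
character on the centre agree modulo the ideal at the products of central elements and
`p`-elements. -/
theorem centralChar_sub_mem_of_ppart [Fact p.Prime] (hpM : IsPModular p M)
    (χ ψ : IrrCharacter G) (hχd : ¬ p ∣ charDegree (χ : G → ℂ))
    (hψd : ¬ p ∣ charDegree (ψ : G → ℂ)) (z u : G) (hz : z ∈ Subgroup.center G) (k : ℕ)
    (hu : orderOf u = p ^ k) (ε : ℂ) (hχz : (χ : G → ℂ) z = ε * (χ : G → ℂ) 1)
    (hψz : (ψ : G → ℂ) z = ε * (ψ : G → ℂ) 1) :
    MemLocalIdeal M (centralChar (χ : G → ℂ) (z * u) - centralChar (ψ : G → ℂ) (z * u)) := by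
  have hM := hpM.2.1.isPrime
  have key : ∀ θ : IrrCharacter G, ¬ p ∣ charDegree (θ : G → ℂ) →
      (θ : G → ℂ) z = ε * (θ : G → ℂ) 1 →
      MemLocalIdeal M (centralChar (θ : G → ℂ) (z * u) -
        ((Subgroup.centralizer ({z * u} : Set G)).index : ℂ) * ε) := by
    intro θ hθd hθz
    have hθc := Helper24.isCharacter_of_irr θ.2
    have hspec := Helper24.charDegree_spec hθc
    have hcomm : Commute u z := Subgroup.mem_center_iff.mp hz u
    have h1 := Helper6.PRegular.char_ppart_congr hpM hθc u z hcomm k hu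
    rw [hcomm.eq] at h1
    have hd0 : ¬ MemLocalIdeal M ((charDegree (θ : G → ℂ) : ℕ) : ℂ) :=
      fun h => hθd ((Helper25.memLocalIdeal_natCast_iff hpM _).mp h)
    have hinv : MemLocalRing M (((charDegree (θ : G → ℂ) : ℕ) : ℂ))⁻¹ :=
      Helper25.MemLocalRing.inv (Helper25.memLocalRing_natCast hM.ne_top _) hd0
    have hd0' : ((charDegree (θ : G → ℂ) : ℕ) : ℂ) ≠ 0 :=
      Helper25.ne_zero_of_not_memLocalIdeal hM.ne_top hd0
    have e : centralChar (θ : G → ℂ) (z * u) -
        ((Subgroup.centralizer ({z * u} : Set G)).index : ℂ) * ε =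
        ((Subgroup.centralizer ({z * u} : Set G)).index : ℂ) *
          (((θ : G → ℂ) (z * u) - (θ : G → ℂ) z) *
            ((charDegree (θ : G → ℂ) : ℕ) : ℂ)⁻¹) := by
      unfold centralChar
      rw [hθz, hspec]
      field_simp
    rw [e]
    exact Helper25.MemLocalIdeal.mul_left hM (Helper25.memLocalRing_natCast hM.ne_top _)
      (Helper25.MemLocalIdeal.mul_right hM h1 hinv)
  have h1 := key χ hχd hχz
  have h2 := key ψ hψd hψz
  have e : centralChar (χ : G → ℂ) (z * u) - centralChar (ψ : G → ℂ) (z * u) =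
      (centralChar (χ : G → ℂ) (z * u) -
        ((Subgroup.centralizer ({z * u} : Set G)).index : ℂ) * ε) -
      (centralChar (ψ : G → ℂ) (z * u) -
        ((Subgroup.centralizer ({z * u} : Set G)).index : ℂ) * ε) := by ring
  rw [e]
  exact Helper25.MemLocalIdeal.sub hM h1 h2

/-- The central character at a central element. -/
theorem centralChar_central (χ : G → ℂ) (z : G) (hz : z ∈ Subgroup.center G) :
    centralChar χ z = χ z / χ 1 := by
  unfold centralChar
  have h1 : Subgroup.centralizer ({z} : Set G) = ⊤ :=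
    Subgroup.centralizer_eq_top_iff_subset.mpr (Set.singleton_subset_iff.mpr hz)
  rw [h1, Subgroup.index_top, Nat.cast_one, one_mul]

/-- A Sylow subgroup is a defect group of a block with the identity as a defect class. -/
theorem isDefectGroup_of_one {B : Set (IrrCharacter G)} (P : Sylow p G)
    (h : IsDefectClass M B 1) : IsDefectGroup p M B (P : Subgroup G) := by
  have hle : (P : Subgroup G) ≤ Subgroup.centralizer ({1} : Set G) := by
    have h1 : Subgroup.centralizer ({1} : Set G) = ⊤ :=
      Subgroup.centralizer_eq_top_iff_subset.mpr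
        (Set.singleton_subset_iff.mpr (Subgroup.one_mem _))
    rw [h1]
    exact le_top
  refine ⟨1, h, P.subtype hle, ?_⟩
  rw [Sylow.coe_subtype, Subgroup.map_subgroupOf_eq_of_le hle]

end Generic

section Blocks2

variable {F : Type*} [Field F] [Fintype F] [DecidableEq F]

theorem char_dvd_card (p : ℕ) [Fact p.Prime] [CharP F p] : p ∣ Fintype.card F :=
  (CharP.cast_eq_zero_iff F p (Fintype.card F)).mp (FiniteField.cast_card_eq_zero F)

theorem odd_card_of_char (p : ℕ) [Fact p.Prime] [CharP F p] (hp : p ≠ 2) :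
    Odd (Fintype.card F) := by
  obtain ⟨n, _, hn⟩ := FiniteField.card F p
  rw [hn]
  exact Odd.pow ((Fact.out : p.Prime).odd_of_ne_two hp)

theorem dvd_index_of_card (p : ℕ) [Fact p.Prime] [CharP F p]
    (g : Matrix.SpecialLinearGroup (Fin 2) F) (m : ℕ)
    (hm : Nat.card (Subgroup.centralizer
      ({g} : Set (Matrix.SpecialLinearGroup (Fin 2) F))) = m) (hpm : ¬ p ∣ m) :
    p ∣ (Subgroup.centralizer ({g} : Set (Matrix.SpecialLinearGroup (Fin 2) F))).index := by
  have h1 := Subgroup.card_mul_index
    (Subgroup.centralizer ({g} : Set (Matrix.SpecialLinearGroup (Fin 2) F)))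
  rw [hm, S2301.card_SL2] at h1
  have h2 : p ∣ m *
      (Subgroup.centralizer ({g} : Set (Matrix.SpecialLinearGroup (Fin 2) F))).index := by
    rw [h1]
    exact Dvd.dvd.mul_right (char_dvd_card p) _
  rcases (Fact.out : p.Prime).dvd_mul.mp h2 with h | h
  · exact absurd h hpm
  · exact h

/-- The irreducible characters other than the Steinberg character have degree prime to the
characteristic. -/
theorem irr_degree_not_dvd (p : ℕ) [Fact p.Prime] [CharP F p] (hp : p ≠ 2)
    {χ : Matrix.SpecialLinearGroup (Fin 2) F → ℂ}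
    (hχ : IsIrrCharacter (Matrix.SpecialLinearGroup (Fin 2) F) χ)
    (hq : χ 1 ≠ (Fintype.card F : ℂ)) : ¬ p ∣ charDegree χ := by
  have hodd := odd_card_of_char (F := F) p hp
  have hpq := char_dvd_card (F := F) p
  have hp1 : p ≠ 1 := (Fact.out : p.Prime).ne_one
  have hspec := Helper24.charDegree_spec (Helper24.isCharacter_of_irr hχ)
  obtain ⟨k, hk⟩ := hodd
  have hq1 : 1 ≤ Fintype.card F := Fintype.card_pos
  intro hdvd
  have key : ∀ n : ℕ, χ 1 = (n : ℂ) → charDegree χ = n := by
    intro n hn
    rw [hspec] at hn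
    exact Nat.cast_injective hn
  have hsub : p ∣ Fintype.card F - 1 → False := by
    intro h
    have h3 : p ∣ (Fintype.card F - 1) + 1 := by
      rw [Nat.sub_add_cancel hq1]
      exact hpq
    exact hp1 (Nat.dvd_one.mp ((Nat.dvd_add_right h).mp h3))
  have hadd : p ∣ Fintype.card F + 1 → False := by
    intro h
    exact hp1 (Nat.dvd_one.mp ((Nat.dvd_add_right hpq).mp h))
  rcases deg_list_odd ⟨k, hk⟩ hχ with h | h | h | h | h | h
  · have h2 := key 1 (by rw [h, Nat.cast_one])
    rw [h2] at hdvd
    exact hp1 (Nat.dvd_one.mp hdvd)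
  · exact hq h
  · have h2 := key (Fintype.card F + 1) (by rw [h]; push_cast; ring)
    rw [h2] at hdvd
    exact hadd hdvd
  · have h2 := key (Fintype.card F - 1) (by rw [h, Nat.cast_sub hq1, Nat.cast_one])
    rw [h2] at hdvd
    exact hsub hdvd
  · have h2 := key ((Fintype.card F + 1) / 2) h
    rw [h2] at hdvd
    apply hadd
    have h3 : Fintype.card F + 1 = (Fintype.card F + 1) / 2 * 2 := by omega
    rw [h3]
    exact Dvd.dvd.mul_right hdvd 2
  · have h2 := key ((Fintype.card F - 1) / 2) h
    rw [h2] at hdvd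
    apply hsub
    have h3 : Fintype.card F - 1 = (Fintype.card F - 1) / 2 * 2 := by omega
    rw [h3]
    exact Dvd.dvd.mul_right hdvd 2

/-- Two irreducible characters other than the Steinberg character with the same central sign
lie in the same block. -/
theorem sameBlock_of_sign (p : ℕ) [Fact p.Prime] [CharP F p] (hp : p ≠ 2)
    {M : Ideal AlgInt} (hpM : IsPModular p M)
    (χ ψ : IrrCharacter (Matrix.SpecialLinearGroup (Fin 2) F))
    (hχq : (χ : Matrix.SpecialLinearGroup (Fin 2) F → ℂ) 1 ≠ (Fintype.card F : ℂ))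
    (hψq : (ψ : Matrix.SpecialLinearGroup (Fin 2) F → ℂ) 1 ≠ (Fintype.card F : ℂ))
    (ε : ℂ)
    (hχε : (χ : Matrix.SpecialLinearGroup (Fin 2) F → ℂ) (sBorelMat (-1) 0) =
      ε * (χ : Matrix.SpecialLinearGroup (Fin 2) F → ℂ) 1)
    (hψε : (ψ : Matrix.SpecialLinearGroup (Fin 2) F → ℂ) (sBorelMat (-1) 0) =
      ε * (ψ : Matrix.SpecialLinearGroup (Fin 2) F → ℂ) 1) :
    SameBlock M (χ : Matrix.SpecialLinearGroup (Fin 2) F → ℂ)
      (ψ : Matrix.SpecialLinearGroup (Fin 2) F → ℂ) := by
  have hM := hpM.2.1.isPrime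
  have hodd := odd_card_of_char (F := F) p hp
  have hpq := char_dvd_card (F := F) p
  have hχd := irr_degree_not_dvd p hp χ.2 hχq
  have hψd := irr_degree_not_dvd p hp ψ.2 hψq
  have hp1 : p ≠ 1 := (Fact.out : p.Prime).ne_one
  have hq1 : 1 ≤ Fintype.card F := Fintype.card_pos
  have hbig : ∀ g : Matrix.SpecialLinearGroup (Fin 2) F,
      p ∣ (Subgroup.centralizer ({g} : Set (Matrix.SpecialLinearGroup (Fin 2) F))).index →
      MemLocalIdeal M (centralChar (χ : Matrix.SpecialLinearGroup (Fin 2) F → ℂ) g -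
        centralChar (ψ : Matrix.SpecialLinearGroup (Fin 2) F → ℂ) g) := by
    intro g hg
    exact Helper25.MemLocalIdeal.sub hM (centralChar_mem_of_dvd hpM χ hχd g hg)
      (centralChar_mem_of_dvd hpM ψ hψd g hg)
  intro g
  by_cases hg : IsEll g
  · apply hbig
    apply dvd_index_of_card p g (Fintype.card F + 1) (card_centralizer_SL hodd hg)
    intro h
    exact hp1 (Nat.dvd_one.mp ((Nat.dvd_add_right hpq).mp h))
  · obtain ⟨s, a, c, hs⟩ := exists_conj_sBorelMat g hg
    rw [← Helper25.centralChar_conj χ g s, ← Helper25.centralChar_conj ψ g s, hs]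
    by_cases ha : (a : F) ^ 2 = 1
    · have ha' : a⁻¹ = a := by
        apply inv_eq_of_mul_eq_one_left
        apply Units.ext
        rw [Units.val_mul, Units.val_one, ← sq]
        exact ha
      rw [sBorelMat_split_scalar a ha' c]
      obtain ⟨k, hk⟩ := orderOf_unip p ((a : F) * c)
      have hzc := sBorelMat_scalar_central a ha'
      have h1 : ((a : F) - 1) * ((a : F) + 1) = 0 := by linear_combination ha
      rcases mul_eq_zero.mp h1 with h2 | h2
      · have h3 : a = 1 := Units.ext (by rw [Units.val_one]; exact sub_eq_zero.mp h2)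
        subst h3
        exact centralChar_sub_mem_of_ppart hpM χ ψ hχd hψd _ _ hzc k hk 1
          (by rw [sBorelMat_one_zero, one_mul]) (by rw [sBorelMat_one_zero, one_mul])
      · have h3 : a = -1 := Units.ext (by
          rw [Units.val_neg, Units.val_one]
          exact eq_neg_of_add_eq_zero_left h2)
        subst h3
        exact centralChar_sub_mem_of_ppart hpM χ ψ hχd hψd _ _ hzc k hk ε hχε hψε
    · obtain ⟨s', hs'⟩ := sBorelMat_conj_diag a c ha
      rw [← Helper25.centralChar_conj χ (sBorelMat a c) s',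
        ← Helper25.centralChar_conj ψ (sBorelMat a c) s', hs']
      apply hbig
      apply dvd_index_of_card p _ (Fintype.card F - 1) (card_centralizer_split a ha)
      intro h
      have h3 : p ∣ (Fintype.card F - 1) + 1 := by
        rw [Nat.sub_add_cancel hq1]
        exact hpq
      exact hp1 (Nat.dvd_one.mp ((Nat.dvd_add_right h).mp h3))

/-- The value of an irreducible character at the central involution. -/
theorem irr_sign {χ : Matrix.SpecialLinearGroup (Fin 2) F → ℂ}
    (hχ : IsIrrCharacter (Matrix.SpecialLinearGroup (Fin 2) F) χ) :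
    χ (sBorelMat (-1) 0) = χ 1 ∨ χ (sBorelMat (-1) 0) = -χ 1 := by
  have hzc : sBorelMat (-1 : Fˣ) (0 : F) ∈
      Subgroup.center (Matrix.SpecialLinearGroup (Fin 2) F) :=
    sBorelMat_scalar_central (-1) neg_one_units_inv
  obtain ⟨ω, _, hω⟩ := central_char_unit hχ _ hzc
  have h1 := hω (sBorelMat (-1) 0)
  rw [sBorelMat_neg_one_sq] at h1
  have h2 := hω 1
  rw [mul_one] at h2
  rw [h2] at h1 ⊢
  obtain ⟨d, hd, hd1⟩ := Helper10.irr_one_eq hχ
  have hχ1 : χ 1 ≠ 0 := by
    rw [hd1]
    exact_mod_cast hd.ne'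
  have h3 : (ω - 1) * (ω + 1) * χ 1 = 0 := by linear_combination -h1
  rcases mul_eq_zero.mp h3 with h4 | h4
  · rcases mul_eq_zero.mp h4 with h5 | h5
    · left
      rw [sub_eq_zero.mp h5, one_mul]
    · right
      rw [eq_neg_of_add_eq_zero_left h5]
      ring
  · exact absurd h4 hχ1

end Blocks2

end Cfsg.Agent.Helper13
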