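import Mathlib
import Cfsg.Agent.Helper13.SL2Blocks2

/-!
# The blocks of `SL₂(q)`, `q` odd, in the defining characteristic
-/

set_option autoImplicit false

namespace Cfsg.Agent.Helper13

open Cfsg
open scoped ComplexConjugate

section Blocks3

variable {F : Type*} [Field F] [Fintype F] [DecidableEq F]

/-- The sums of the squares of the degrees over the two central signs. -/
theorem sum_sq_sign [Fintype (IrrCharacter (Matrix.SpecialLinearGroup (Fin 2) F))]
    (h2F : (2 : F) ≠ 0) :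
    (∑ χ : IrrCharacter (Matrix.SpecialLinearGroup (Fin 2) F),
      (if (χ : Matrix.SpecialLinearGroup (Fin 2) F → ℂ) (sBorelMat (-1) 0) =
          -(χ : Matrix.SpecialLinearGroup (Fin 2) F → ℂ) 1
        then (χ : Matrix.SpecialLinearGroup (Fin 2) F → ℂ) 1 *
          conj ((χ : Matrix.SpecialLinearGroup (Fin 2) F → ℂ) 1) else 0)) =
      (Nat.card (Matrix.SpecialLinearGroup (Fin 2) F) : ℂ) / 2 ∧
    (∑ χ : IrrCharacter (Matrix.SpecialLinearGroup (Fin 2) F),
      (if (χ : Matrix.SpecialLinearGroup (Fin 2) F → ℂ) (sBorelMat (-1) 0) =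
          (χ : Matrix.SpecialLinearGroup (Fin 2) F → ℂ) 1
        then (χ : Matrix.SpecialLinearGroup (Fin 2) F → ℂ) 1 *
          conj ((χ : Matrix.SpecialLinearGroup (Fin 2) F → ℂ) 1) else 0)) =
      (Nat.card (Matrix.SpecialLinearGroup (Fin 2) F) : ℂ) / 2 := by
  classical
  have h1 := Helper2.second_orthogonality (G := Matrix.SpecialLinearGroup (Fin 2) F) 1 1
  have hz := Helper2.second_orthogonality (G := Matrix.SpecialLinearGroup (Fin 2) F) 1
    (sBorelMat (-1 : Fˣ) (0 : F))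
  have hcent : Subgroup.centralizer ({1} : Set (Matrix.SpecialLinearGroup (Fin 2) F)) = ⊤ :=
    Subgroup.centralizer_eq_top_iff_subset.mpr
      (Set.singleton_subset_iff.mpr (Subgroup.one_mem _))
  rw [if_pos (IsConj.refl _), hcent, Subgroup.card_top] at h1
  have hne : ¬ IsConj (1 : Matrix.SpecialLinearGroup (Fin 2) F)
      (sBorelMat (-1 : Fˣ) (0 : F)) := by
    rw [isConj_one_right]
    exact sBorelMat_neg_one_ne_one h2F
  rw [if_neg hne] at hz
  have hterm : ∀ χ : IrrCharacter (Matrix.SpecialLinearGroup (Fin 2) F),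
      (if (χ : Matrix.SpecialLinearGroup (Fin 2) F → ℂ) (sBorelMat (-1) 0) =
          -(χ : Matrix.SpecialLinearGroup (Fin 2) F → ℂ) 1
        then (χ : Matrix.SpecialLinearGroup (Fin 2) F → ℂ) 1 *
          conj ((χ : Matrix.SpecialLinearGroup (Fin 2) F → ℂ) 1) else 0) =
        ((χ : Matrix.SpecialLinearGroup (Fin 2) F → ℂ) 1 *
          conj ((χ : Matrix.SpecialLinearGroup (Fin 2) F → ℂ) 1) -
         (χ : Matrix.SpecialLinearGroup (Fin 2) F → ℂ) 1 *
          conj ((χ : Matrix.SpecialLinearGroup (Fin 2) F → ℂ) (sBorelMat (-1) 0))) / 2 ∧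
      (if (χ : Matrix.SpecialLinearGroup (Fin 2) F → ℂ) (sBorelMat (-1) 0) =
          (χ : Matrix.SpecialLinearGroup (Fin 2) F → ℂ) 1
        then (χ : Matrix.SpecialLinearGroup (Fin 2) F → ℂ) 1 *
          conj ((χ : Matrix.SpecialLinearGroup (Fin 2) F → ℂ) 1) else 0) =
        ((χ : Matrix.SpecialLinearGroup (Fin 2) F → ℂ) 1 *
          conj ((χ : Matrix.SpecialLinearGroup (Fin 2) F → ℂ) 1) +
         (χ : Matrix.SpecialLinearGroup (Fin 2) F → ℂ) 1 *
          conj ((χ : Matrix.SpecialLinearGroup (Fin 2) F → ℂ) (sBorelMat (-1) 0))) / 2 := by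
    intro χ
    obtain ⟨d, hd, hd1⟩ := Helper10.irr_one_eq χ.2
    have hχ1 : (χ : Matrix.SpecialLinearGroup (Fin 2) F → ℂ) 1 ≠ 0 := by
      rw [hd1]
      exact_mod_cast hd.ne'
    rcases irr_sign χ.2 with h | h
    · have hne' : ¬ ((χ : Matrix.SpecialLinearGroup (Fin 2) F → ℂ) (sBorelMat (-1) 0) =
          -(χ : Matrix.SpecialLinearGroup (Fin 2) F → ℂ) 1) := by
        intro h'
        rw [h] at h'
        apply hχ1
        linear_combination h' / 2
      rw [if_neg hne', if_pos h, h]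
      constructor <;> ring
    · have hne' : ¬ ((χ : Matrix.SpecialLinearGroup (Fin 2) F → ℂ) (sBorelMat (-1) 0) =
          (χ : Matrix.SpecialLinearGroup (Fin 2) F → ℂ) 1) := by
        intro h'
        rw [h] at h'
        apply hχ1
        linear_combination -h' / 2
      rw [if_pos h, if_neg hne', h, map_neg]
      constructor <;> ring
  constructor
  · rw [Finset.sum_congr rfl (fun χ _ => (hterm χ).1), ← Finset.sum_div,
      Finset.sum_sub_distrib, h1, hz, sub_zero]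
  · rw [Finset.sum_congr rfl (fun χ _ => (hterm χ).2), ← Finset.sum_div,
      Finset.sum_add_distrib, h1, hz, add_zero]

/-- The blocks of `SL₂(q)`, `q` odd, in the defining characteristic. -/
theorem sl2_blocks (p : ℕ) [Fact p.Prime] [CharP F p] (hp : p ≠ 2)
    (M : Ideal AlgInt) (hM : IsPModular p M) :
    (∀ B : Set (IrrCharacter (Matrix.SpecialLinearGroup (Fin 2) F)), IsPBlock M B ↔
      (B = {χ : IrrCharacter (Matrix.SpecialLinearGroup (Fin 2) F) | (χ : Matrix.SpecialLinearGroup (Fin 2) F → ℂ) 1 = (Fintype.card F : ℂ)} ∨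
       B = {χ : IrrCharacter (Matrix.SpecialLinearGroup (Fin 2) F) | (χ : Matrix.SpecialLinearGroup (Fin 2) F → ℂ) (-1) = (χ : Matrix.SpecialLinearGroup (Fin 2) F → ℂ) 1 ∧ (χ : Matrix.SpecialLinearGroup (Fin 2) F → ℂ) 1 ≠ (Fintype.card F : ℂ)} ∨
       B = {χ : IrrCharacter (Matrix.SpecialLinearGroup (Fin 2) F) | (χ : Matrix.SpecialLinearGroup (Fin 2) F → ℂ) (-1) = -(χ : Matrix.SpecialLinearGroup (Fin 2) F → ℂ) 1})) ∧
    Nat.card {B : Set (IrrCharacter (Matrix.SpecialLinearGroup (Fin 2) F)) // IsPBlock M B} = 3 ∧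
    ∀ P : Sylow p (Matrix.SpecialLinearGroup (Fin 2) F),
      IsDefectGroup p M {χ : IrrCharacter (Matrix.SpecialLinearGroup (Fin 2) F) | (χ : Matrix.SpecialLinearGroup (Fin 2) F → ℂ) (-1) = (χ : Matrix.SpecialLinearGroup (Fin 2) F → ℂ) 1 ∧ (χ : Matrix.SpecialLinearGroup (Fin 2) F → ℂ) 1 ≠ (Fintype.card F : ℂ)} (P : Subgroup (Matrix.SpecialLinearGroup (Fin 2) F)) ∧
      IsDefectGroup p M {χ : IrrCharacter (Matrix.SpecialLinearGroup (Fin 2) F) | (χ : Matrix.SpecialLinearGroup (Fin 2) F → ℂ) (-1) = -(χ : Matrix.SpecialLinearGroup (Fin 2) F → ℂ) 1} (P : Subgroup (Matrix.SpecialLinearGroup (Fin 2) F)) := by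
  classical
  have hMp := hM.2.1.isPrime
  have hMt : M ≠ ⊤ := hMp.ne_top
  haveI := Helper24.finite_irrCharacter (G := Matrix.SpecialLinearGroup (Fin 2) F)
  haveI : Fintype (IrrCharacter (Matrix.SpecialLinearGroup (Fin 2) F)) := Fintype.ofFinite _
  have hodd := odd_card_of_char (F := F) p hp
  have hpq := char_dvd_card (F := F) p
  have h2F : (2 : F) ≠ 0 := two_ne_zero_of_odd_card hodd
  have hp1 : p ≠ 1 := (Fact.out : p.Prime).ne_one
  have hq2 : 2 ≤ Fintype.card F := Fintype.one_lt_card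
  have hq0 : (Fintype.card F : ℂ) ≠ 0 := Nat.cast_ne_zero.mpr Fintype.card_ne_zero
  rw [← sBorelMat_neg_one_eq (F := F)]
  obtain ⟨S₀, hS₀⟩ : ∃ S : Set (IrrCharacter (Matrix.SpecialLinearGroup (Fin 2) F)),
      S = {χ : IrrCharacter (Matrix.SpecialLinearGroup (Fin 2) F) | (χ : Matrix.SpecialLinearGroup (Fin 2) F → ℂ) 1 = (Fintype.card F : ℂ)} := ⟨_, rfl⟩
  obtain ⟨Sp, hSp⟩ : ∃ S : Set (IrrCharacter (Matrix.SpecialLinearGroup (Fin 2) F)),
      S = {χ : IrrCharacter (Matrix.SpecialLinearGroup (Fin 2) F) | (χ : Matrix.SpecialLinearGroup (Fin 2) F → ℂ) (sBorelMat (-1) 0) = (χ : Matrix.SpecialLinearGroup (Fin 2) F → ℂ) 1 ∧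
        (χ : Matrix.SpecialLinearGroup (Fin 2) F → ℂ) 1 ≠ (Fintype.card F : ℂ)} := ⟨_, rfl⟩
  obtain ⟨Sm, hSm⟩ : ∃ S : Set (IrrCharacter (Matrix.SpecialLinearGroup (Fin 2) F)),
      S = {χ : IrrCharacter (Matrix.SpecialLinearGroup (Fin 2) F) | (χ : Matrix.SpecialLinearGroup (Fin 2) F → ℂ) (sBorelMat (-1) 0) =
        -(χ : Matrix.SpecialLinearGroup (Fin 2) F → ℂ) 1} := ⟨_, rfl⟩
  rw [← hS₀, ← hSp, ← hSm]
  have mS₀ : ∀ χ : IrrCharacter (Matrix.SpecialLinearGroup (Fin 2) F), χ ∈ S₀ ↔ (χ : Matrix.SpecialLinearGroup (Fin 2) F → ℂ) 1 = (Fintype.card F : ℂ) := by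
    intro χ
    rw [hS₀]
    exact Iff.rfl
  have mSp : ∀ χ : IrrCharacter (Matrix.SpecialLinearGroup (Fin 2) F), χ ∈ Sp ↔
      ((χ : Matrix.SpecialLinearGroup (Fin 2) F → ℂ) (sBorelMat (-1) 0) = (χ : Matrix.SpecialLinearGroup (Fin 2) F → ℂ) 1 ∧
        (χ : Matrix.SpecialLinearGroup (Fin 2) F → ℂ) 1 ≠ (Fintype.card F : ℂ)) := by
    intro χ
    rw [hSp]
    exact Iff.rfl
  have mSm : ∀ χ : IrrCharacter (Matrix.SpecialLinearGroup (Fin 2) F), χ ∈ Sm ↔
      (χ : Matrix.SpecialLinearGroup (Fin 2) F → ℂ) (sBorelMat (-1) 0) = -(χ : Matrix.SpecialLinearGroup (Fin 2) F → ℂ) 1 := by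
    intro χ
    rw [hSm]
    exact Iff.rfl
  have hne0 : ∀ χ : IrrCharacter (Matrix.SpecialLinearGroup (Fin 2) F), (χ : Matrix.SpecialLinearGroup (Fin 2) F → ℂ) 1 ≠ 0 := by
    intro χ
    obtain ⟨d, hd, hd1⟩ := Helper10.irr_one_eq χ.2
    rw [hd1]
    exact_mod_cast hd.ne'
  -- the Steinberg character
  obtain ⟨St, hSt⟩ : ∃ St : IrrCharacter (Matrix.SpecialLinearGroup (Fin 2) F), (St : Matrix.SpecialLinearGroup (Fin 2) F → ℂ) = stS F :=
    ⟨⟨stS F, stS_spec.1⟩, rfl⟩
  have hSt1 : (St : Matrix.SpecialLinearGroup (Fin 2) F → ℂ) 1 = (Fintype.card F : ℂ) := by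
    rw [hSt]
    exact stS_one
  have hStz : (St : Matrix.SpecialLinearGroup (Fin 2) F → ℂ) (sBorelMat (-1) 0) = (Fintype.card F : ℂ) := by
    rw [hSt]
    have h1 : rFun (1 : MulChar F ℂ) (sBorelMat (-1) 0) = 1 + stS F (sBorelMat (-1) 0) := by
      rw [rFun_one_eq]
      rfl
    rw [rFun_one_scalar (-1) neg_one_units_inv] at h1
    linear_combination -h1
  have hS₀' : S₀ = {St} := by
    ext χ
    rw [mS₀, Set.mem_singleton_iff]
    constructor
    · intro h
      apply Subtype.ext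
      rw [hSt]
      exact irr_deg_q χ.2 h
    · intro h
      rw [h]
      exact hSt1
  have hq21 : ¬ p ∣ Fintype.card F ^ 2 - 1 := by
    intro h
    have h1 : 1 ≤ Fintype.card F ^ 2 := Nat.one_le_pow _ _ Fintype.card_pos
    have h3 : p ∣ (Fintype.card F ^ 2 - 1) + 1 := by
      rw [Nat.sub_add_cancel h1]
      exact Dvd.dvd.pow hpq (by norm_num)
    exact hp1 (Nat.dvd_one.mp ((Nat.dvd_add_right h).mp h3))
  have hStblock : blockOf M (St : Matrix.SpecialLinearGroup (Fin 2) F → ℂ) = {St} := by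
    apply (Helper25.defect_zero_iff hM St).mp
    have hspec := Helper24.charDegree_spec (Helper24.isCharacter_of_irr St.2)
    rw [hSt1] at hspec
    have hdeg : charDegree (St : Matrix.SpecialLinearGroup (Fin 2) F → ℂ) = Fintype.card F := (Nat.cast_injective hspec).symm
    rw [hdeg, S2301.card_SL2, Nat.mul_div_cancel_left _ Fintype.card_pos]
    exact hq21
  have htri : ∀ χ : IrrCharacter (Matrix.SpecialLinearGroup (Fin 2) F), χ ∈ S₀ ∨ χ ∈ Sp ∨ χ ∈ Sm := by
    intro χ
    rcases irr_sign χ.2 with h | h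
    · by_cases hq : (χ : Matrix.SpecialLinearGroup (Fin 2) F → ℂ) 1 = (Fintype.card F : ℂ)
      · left
        exact (mS₀ χ).mpr hq
      · right
        left
        exact (mSp χ).mpr ⟨h, hq⟩
    · right
      right
      exact (mSm χ).mpr h
  have h2r : MemLocalRing M (2 : ℂ) := by
    have h := Helper25.memLocalRing_natCast hMt 2
    rw [Nat.cast_ofNat] at h
    exact h
  have h2mem : ¬ MemLocalIdeal M (2 : ℂ) := by
    intro h
    have h' : MemLocalIdeal M ((2 : ℕ) : ℂ) := by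
      rw [Nat.cast_ofNat]
      exact h
    have h3 := (Helper25.memLocalIdeal_natCast_iff hM 2).mp h'
    exact hp ((Nat.prime_dvd_prime_iff_eq (Fact.out : p.Prime) Nat.prime_two).mp h3)
  have hzc : sBorelMat (-1 : Fˣ) (0 : F) ∈ Subgroup.center (Matrix.SpecialLinearGroup (Fin 2) F) :=
    sBorelMat_scalar_central (-1) neg_one_units_inv
  have hdiff : ∀ χ ψ : IrrCharacter (Matrix.SpecialLinearGroup (Fin 2) F),
      (χ : Matrix.SpecialLinearGroup (Fin 2) F → ℂ) (sBorelMat (-1) 0) = (χ : Matrix.SpecialLinearGroup (Fin 2) F → ℂ) 1 →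
      (ψ : Matrix.SpecialLinearGroup (Fin 2) F → ℂ) (sBorelMat (-1) 0) = -(ψ : Matrix.SpecialLinearGroup (Fin 2) F → ℂ) 1 →
      ¬ SameBlock M (χ : Matrix.SpecialLinearGroup (Fin 2) F → ℂ) (ψ : Matrix.SpecialLinearGroup (Fin 2) F → ℂ) := by
    intro χ ψ h1 h2 hs
    have h3 := hs (sBorelMat (-1) 0)
    rw [centralChar_central _ _ hzc, centralChar_central _ _ hzc, h1, h2,
      div_self (hne0 χ), neg_div, div_self (hne0 ψ)] at h3
    have e : (1 : ℂ) - -1 = 2 := by norm_num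
    rw [e] at h3
    exact h2mem h3
  have hmq : ∀ χ : IrrCharacter (Matrix.SpecialLinearGroup (Fin 2) F), χ ∈ Sm → (χ : Matrix.SpecialLinearGroup (Fin 2) F → ℂ) 1 ≠ (Fintype.card F : ℂ) := by
    intro χ hχ hq
    have h1 := (mSm χ).mp hχ
    have h2 : (χ : Matrix.SpecialLinearGroup (Fin 2) F → ℂ) = stS F := irr_deg_q χ.2 hq
    have h3 : (χ : Matrix.SpecialLinearGroup (Fin 2) F → ℂ) (sBorelMat (-1) 0) = (Fintype.card F : ℂ) := by
      rw [h2, ← hSt]
      exact hStz
    rw [h3, hq] at h1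
    apply hq0
    linear_combination h1 / 2
  have hblockp : ∀ χ : IrrCharacter (Matrix.SpecialLinearGroup (Fin 2) F), χ ∈ Sp → blockOf M (χ : Matrix.SpecialLinearGroup (Fin 2) F → ℂ) = Sp := by
    intro χ hχ
    obtain ⟨hχz, hχq⟩ := (mSp χ).mp hχ
    ext ψ
    rw [Helper25.mem_blockOf]
    constructor
    · intro hs
      rcases htri ψ with h | h | h
      · exfalso
        rw [hS₀', Set.mem_singleton_iff] at h
        have h4 : χ ∈ blockOf M (St : Matrix.SpecialLinearGroup (Fin 2) F → ℂ) := by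
          rw [Helper25.mem_blockOf, ← h]
          exact Helper25.sameBlock_symm hs
        rw [hStblock, Set.mem_singleton_iff] at h4
        apply hχq
        rw [h4]
        exact hSt1
      · exact h
      · exfalso
        exact hdiff χ ψ hχz ((mSm ψ).mp h) hs
    · intro hψ
      obtain ⟨hψz, hψq⟩ := (mSp ψ).mp hψ
      exact sameBlock_of_sign p hp hM χ ψ hχq hψq 1 (by rw [one_mul]; exact hχz)
        (by rw [one_mul]; exact hψz)
  have hblockm : ∀ χ : IrrCharacter (Matrix.SpecialLinearGroup (Fin 2) F), χ ∈ Sm → blockOf M (χ : Matrix.SpecialLinearGroup (Fin 2) F → ℂ) = Sm := by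
    intro χ hχ
    have hχz := (mSm χ).mp hχ
    have hχq := hmq χ hχ
    ext ψ
    rw [Helper25.mem_blockOf]
    constructor
    · intro hs
      rcases htri ψ with h | h | h
      · exfalso
        rw [hS₀', Set.mem_singleton_iff] at h
        have h4 : χ ∈ blockOf M (St : Matrix.SpecialLinearGroup (Fin 2) F → ℂ) := by
          rw [Helper25.mem_blockOf, ← h]
          exact Helper25.sameBlock_symm hs
        rw [hStblock, Set.mem_singleton_iff] at h4
        apply hχq
        rw [h4]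
        exact hSt1
      · exfalso
        exact hdiff ψ χ ((mSp ψ).mp h).1 hχz (Helper25.sameBlock_symm hs)
      · exact h
    · intro hψ
      have hψz := (mSm ψ).mp hψ
      exact sameBlock_of_sign p hp hM χ ψ hχq (hmq ψ hψ) (-1)
        (by rw [neg_one_mul]; exact hχz) (by rw [neg_one_mul]; exact hψz)
  -- members
  obtain ⟨χ₁, hχ₁⟩ : ∃ χ : IrrCharacter (Matrix.SpecialLinearGroup (Fin 2) F), (χ : Matrix.SpecialLinearGroup (Fin 2) F → ℂ) = fun _ => (1 : ℂ) :=
    ⟨⟨fun _ => 1, Helper2.isIrrCharacter_one_fun⟩, rfl⟩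
  have hone : χ₁ ∈ Sp := by
    rw [mSp, hχ₁]
    refine ⟨rfl, ?_⟩
    intro h
    have h' : ((1 : ℕ) : ℂ) = ((Fintype.card F : ℕ) : ℂ) := by
      rw [Nat.cast_one]
      exact h
    have h'' := Nat.cast_injective h'
    omega
  obtain ⟨hsumm, hsump⟩ := sum_sq_sign (F := F) h2F
  have hcardne : (Nat.card (Matrix.SpecialLinearGroup (Fin 2) F) : ℂ) ≠ 0 := Nat.cast_ne_zero.mpr Nat.card_pos.ne'
  obtain ⟨χm, hχm⟩ : ∃ χ : IrrCharacter (Matrix.SpecialLinearGroup (Fin 2) F), χ ∈ Sm := by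
    by_contra hno
    have h0 : ∀ χ : IrrCharacter (Matrix.SpecialLinearGroup (Fin 2) F),
        ¬ ((χ : Matrix.SpecialLinearGroup (Fin 2) F → ℂ) (sBorelMat (-1) 0) = -(χ : Matrix.SpecialLinearGroup (Fin 2) F → ℂ) 1) :=
      fun χ h => hno ⟨χ, (mSm χ).mpr h⟩
    rw [Finset.sum_congr rfl (fun χ _ => if_neg (h0 χ)), Finset.sum_const_zero] at hsumm
    apply hcardne
    linear_combination -2 * hsumm
  have hblocks : ∀ B : Set (IrrCharacter (Matrix.SpecialLinearGroup (Fin 2) F)), IsPBlock M B ↔ (B = S₀ ∨ B = Sp ∨ B = Sm) := by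
    intro B
    constructor
    · rintro ⟨χ, rfl⟩
      rcases htri χ with h | h | h
      · left
        rw [hS₀', Set.mem_singleton_iff] at h
        rw [h, hStblock, hS₀']
      · right
        left
        exact hblockp χ h
      · right
        right
        exact hblockm χ h
    · rintro (h | h | h)
      · exact ⟨St, by rw [h, hStblock, hS₀']⟩
      · exact ⟨χ₁, by rw [h]; exact (hblockp _ hone).symm⟩
      · exact ⟨χm, by rw [h]; exact (hblockm _ hχm).symm⟩
  have h01 : S₀ ≠ Sp := by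
    intro h
    have h1 : St ∈ Sp := by
      rw [← h, hS₀']
      exact Set.mem_singleton _
    exact ((mSp St).mp h1).2 hSt1
  have h02 : S₀ ≠ Sm := by
    intro h
    have h1 : St ∈ Sm := by
      rw [← h, hS₀']
      exact Set.mem_singleton _
    exact hmq St h1 hSt1
  have h12 : Sp ≠ Sm := by
    intro h
    have h0 : χm ∈ Sp := by
      rw [h]
      exact hχm
    have h1 := ((mSp χm).mp h0).1
    have h2 := (mSm χm).mp hχm
    apply hne0 χm
    linear_combination (h2 - h1) / 2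
  have hcard : Nat.card {B : Set (IrrCharacter (Matrix.SpecialLinearGroup (Fin 2) F)) // IsPBlock M B} = 3 := by
    have e : {B : Set (IrrCharacter (Matrix.SpecialLinearGroup (Fin 2) F)) // IsPBlock M B} ≃
        (({S₀, Sp, Sm} : Set (Set (IrrCharacter (Matrix.SpecialLinearGroup (Fin 2) F)))) : Type _) :=
      Equiv.subtypeEquivRight (fun B => by
        rw [hblocks B]
        simp only [Set.mem_insert_iff, Set.mem_singleton_iff])
    rw [Nat.card_congr e, Nat.card_coe_set_eq]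
    exact Set.ncard_eq_three.mpr ⟨S₀, Sp, Sm, h01, h02, h12, rfl⟩
  -- block idempotent coefficients at the identity
  have hcm : blockCoeff Sm (1 : Matrix.SpecialLinearGroup (Fin 2) F) = 2⁻¹ := by
    unfold blockCoeff
    rw [Helper25.finsum_mem_eq_sum_ite]
    have e : ∀ χ : IrrCharacter (Matrix.SpecialLinearGroup (Fin 2) F),
        (if χ ∈ Sm then (χ : Matrix.SpecialLinearGroup (Fin 2) F → ℂ) 1 * conj ((χ : Matrix.SpecialLinearGroup (Fin 2) F → ℂ) 1) else 0) =
        (if (χ : Matrix.SpecialLinearGroup (Fin 2) F → ℂ) (sBorelMat (-1) 0) = -(χ : Matrix.SpecialLinearGroup (Fin 2) F → ℂ) 1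
          then (χ : Matrix.SpecialLinearGroup (Fin 2) F → ℂ) 1 * conj ((χ : Matrix.SpecialLinearGroup (Fin 2) F → ℂ) 1) else 0) := by
      intro χ
      by_cases h : (χ : Matrix.SpecialLinearGroup (Fin 2) F → ℂ) (sBorelMat (-1) 0) = -(χ : Matrix.SpecialLinearGroup (Fin 2) F → ℂ) 1
      · rw [if_pos ((mSm χ).mpr h), if_pos h]
      · rw [if_neg (fun h' => h ((mSm χ).mp h')), if_neg h]
    rw [Finset.sum_congr rfl (fun χ _ => e χ), hsumm, ← mul_div_assoc,
      inv_mul_cancel₀ hcardne, one_div]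
  have hN0 : ¬ MemLocalIdeal M (((Fintype.card F ^ 2 - 1 : ℕ)) : ℂ) :=
    fun h => hq21 ((Helper25.memLocalIdeal_natCast_iff hM _).mp h)
  have hN0' : (((Fintype.card F ^ 2 - 1 : ℕ)) : ℂ) ≠ 0 :=
    Helper25.ne_zero_of_not_memLocalIdeal hMt hN0
  have hcardC : (Nat.card (Matrix.SpecialLinearGroup (Fin 2) F) : ℂ) =
      (Fintype.card F : ℂ) * (((Fintype.card F ^ 2 - 1 : ℕ)) : ℂ) := by
    rw [S2301.card_SL2, Nat.cast_mul]
  have hcp : blockCoeff Sp (1 : Matrix.SpecialLinearGroup (Fin 2) F) =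
      2⁻¹ - (Fintype.card F : ℂ) * ((((Fintype.card F ^ 2 - 1 : ℕ)) : ℂ))⁻¹ := by
    unfold blockCoeff
    rw [Helper25.finsum_mem_eq_sum_ite]
    have e : ∀ χ : IrrCharacter (Matrix.SpecialLinearGroup (Fin 2) F),
        (if χ ∈ Sp then (χ : Matrix.SpecialLinearGroup (Fin 2) F → ℂ) 1 * conj ((χ : Matrix.SpecialLinearGroup (Fin 2) F → ℂ) 1) else 0) =
        (if (χ : Matrix.SpecialLinearGroup (Fin 2) F → ℂ) (sBorelMat (-1) 0) = (χ : Matrix.SpecialLinearGroup (Fin 2) F → ℂ) 1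
          then (χ : Matrix.SpecialLinearGroup (Fin 2) F → ℂ) 1 * conj ((χ : Matrix.SpecialLinearGroup (Fin 2) F → ℂ) 1) else 0) -
        (if χ = St then (Fintype.card F : ℂ) ^ 2 else 0) := by
      intro χ
      by_cases h : χ = St
      · have h1 : χ ∉ Sp := fun h' => ((mSp χ).mp h').2 (by rw [h]; exact hSt1)
        have h2 : (χ : Matrix.SpecialLinearGroup (Fin 2) F → ℂ) (sBorelMat (-1) 0) = (χ : Matrix.SpecialLinearGroup (Fin 2) F → ℂ) 1 := by
          rw [h, hStz, hSt1]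
        rw [if_neg h1, if_pos h2, if_pos h, h, hSt1, Complex.conj_natCast]
        ring
      · have hq : (χ : Matrix.SpecialLinearGroup (Fin 2) F → ℂ) 1 ≠ (Fintype.card F : ℂ) :=
          fun h' => h (Subtype.ext (by rw [hSt]; exact irr_deg_q χ.2 h'))
        by_cases h2 : (χ : Matrix.SpecialLinearGroup (Fin 2) F → ℂ) (sBorelMat (-1) 0) = (χ : Matrix.SpecialLinearGroup (Fin 2) F → ℂ) 1
        · rw [if_pos ((mSp χ).mpr ⟨h2, hq⟩), if_pos h2, if_neg h, sub_zero]
        · rw [if_neg (fun h' => h2 ((mSp χ).mp h').1), if_neg h2, if_neg h, sub_zero]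
    rw [Finset.sum_congr rfl (fun χ _ => e χ), Finset.sum_sub_distrib, hsump,
      Finset.sum_ite_eq' Finset.univ St (fun _ => (Fintype.card F : ℂ) ^ 2),
      if_pos (Finset.mem_univ _), hcardC]
    field_simp
  have h2inv : MemLocalRing M (2⁻¹ : ℂ) := Helper25.MemLocalRing.inv h2r h2mem
  have h2inv' : ¬ MemLocalIdeal M (2⁻¹ : ℂ) := by
    intro h
    have h3 := Helper25.MemLocalIdeal.mul_left hMp h2r h
    rw [mul_inv_cancel₀ (two_ne_zero)] at h3
    exact Helper25.not_memLocalIdeal_one h3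
  have ht : MemLocalIdeal M
      ((Fintype.card F : ℂ) * ((((Fintype.card F ^ 2 - 1 : ℕ)) : ℂ))⁻¹) :=
    Helper25.MemLocalIdeal.mul_right hMp
      ((Helper25.memLocalIdeal_natCast_iff hM _).mpr hpq)
      (Helper25.MemLocalRing.inv (Helper25.memLocalRing_natCast hMt _) hN0)
  have hdcm : IsDefectClass M Sm (1 : Matrix.SpecialLinearGroup (Fin 2) F) := by
    refine ⟨?_, ?_, ?_⟩
    · rw [hcm]
      exact h2inv
    · rw [hcm]
      exact h2inv'
    · intro χ _
      rw [Helper25.centralChar_one]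
      exact Helper25.not_memLocalIdeal_one
  have hdcp : IsDefectClass M Sp (1 : Matrix.SpecialLinearGroup (Fin 2) F) := by
    refine ⟨?_, ?_, ?_⟩
    · rw [hcp]
      exact Helper25.MemLocalRing.sub hMp h2inv (Helper25.MemLocalIdeal.memLocalRing ht)
    · rw [hcp]
      intro h
      have h3 := Helper25.MemLocalIdeal.add hMp h ht
      rw [sub_add_cancel] at h3
      exact h2inv' h3
    · intro χ _
      rw [Helper25.centralChar_one]
      exact Helper25.not_memLocalIdeal_one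
  exact ⟨hblocks, hcard, fun P => ⟨isDefectGroup_of_one P hdcp, isDefectGroup_of_one P hdcm⟩⟩

end Blocks3

end Cfsg.Agent.Helper13
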