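import Mathlib
import Cfsg.Prelude.Def_OddOrderLocal

/-!
# Centralizers in `SL₂` are abelian off the centre; TI-property in characteristic 2
-/

set_option autoImplicit false

namespace Cfsg.Agent.Helper13

section CT

variable {F : Type*} [Field F]

/-- Vectors of `F³` having zero cross product with a fixed nonzero vector have zero cross product
with each other. -/
theorem cross_zero_of_cross_zero (u1 u2 u3 v1 v2 v3 w1 w2 w3 : F)
    (hu : u1 ≠ 0 ∨ u2 ≠ 0 ∨ u3 ≠ 0)
    (hv1 : u1 * v2 = u2 * v1) (hv2 : u1 * v3 = u3 * v1) (hv3 : u2 * v3 = u3 * v2)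
    (hw1 : u1 * w2 = u2 * w1) (hw2 : u1 * w3 = u3 * w1) (hw3 : u2 * w3 = u3 * w2) :
    v1 * w2 = v2 * w1 ∧ v1 * w3 = v3 * w1 ∧ v2 * w3 = v3 * w2 := by
  have key : ∀ (x1 x2 x3 : F), u1 * x2 = u2 * x1 → u1 * x3 = u3 * x1 → u2 * x3 = u3 * x2 →
      ∃ l : F, x1 = l * u1 ∧ x2 = l * u2 ∧ x3 = l * u3 := by
    intro x1 x2 x3 h1 h2 h3
    rcases hu with h | h | h
    · refine ⟨x1 / u1, (div_mul_cancel₀ x1 h).symm, ?_, ?_⟩
      · rw [div_mul_eq_mul_div, eq_div_iff h]
        linear_combination h1
      · rw [div_mul_eq_mul_div, eq_div_iff h]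
        linear_combination h2
    · refine ⟨x2 / u2, ?_, (div_mul_cancel₀ x2 h).symm, ?_⟩
      · rw [div_mul_eq_mul_div, eq_div_iff h]
        linear_combination -h1
      · rw [div_mul_eq_mul_div, eq_div_iff h]
        linear_combination h3
    · refine ⟨x3 / u3, ?_, ?_, (div_mul_cancel₀ x3 h).symm⟩
      · rw [div_mul_eq_mul_div, eq_div_iff h]
        linear_combination -h2
      · rw [div_mul_eq_mul_div, eq_div_iff h]
        linear_combination -h3
  obtain ⟨l, e1, e2, e3⟩ := key v1 v2 v3 hv1 hv2 hv3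
  obtain ⟨m, f1, f2, f3⟩ := key w1 w2 w3 hw1 hw2 hw3
  rw [e1, e2, e3, f1, f2, f3]
  refine ⟨by ring, by ring, by ring⟩

/-- Two matrices commuting with a non-scalar `2 × 2` matrix commute with each other. -/
theorem comm_of_comm_nonscalar (M A B : Matrix (Fin 2) (Fin 2) F)
    (hM : M 0 1 ≠ 0 ∨ M 1 0 ≠ 0 ∨ M 0 0 - M 1 1 ≠ 0) (hA : A * M = M * A)
    (hB : B * M = M * B) : A * B = B * A := by
  have a00 := congrFun (congrFun hA 0) 0
  have a01 := congrFun (congrFun hA 0) 1
  have a10 := congrFun (congrFun hA 1) 0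
  have b00 := congrFun (congrFun hB 0) 0
  have b01 := congrFun (congrFun hB 0) 1
  have b10 := congrFun (congrFun hB 1) 0
  rw [Matrix.mul_apply, Matrix.mul_apply, Fin.sum_univ_two, Fin.sum_univ_two] at a00 a01 a10
  rw [Matrix.mul_apply, Matrix.mul_apply, Fin.sum_univ_two, Fin.sum_univ_two] at b00 b01 b10
  obtain ⟨h1, h2, h3⟩ := cross_zero_of_cross_zero (M 0 1) (M 1 0) (M 0 0 - M 1 1)
    (A 0 1) (A 1 0) (A 0 0 - A 1 1) (B 0 1) (B 1 0) (B 0 0 - B 1 1) hM
    (by linear_combination -a00) (by linear_combination a01) (by linear_combination -a10)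
    (by linear_combination -b00) (by linear_combination b01) (by linear_combination -b10)
  have e00 : (A * B) 0 0 = (B * A) 0 0 := by
    rw [Matrix.mul_apply, Matrix.mul_apply, Fin.sum_univ_two, Fin.sum_univ_two]
    linear_combination h1
  have e01 : (A * B) 0 1 = (B * A) 0 1 := by
    rw [Matrix.mul_apply, Matrix.mul_apply, Fin.sum_univ_two, Fin.sum_univ_two]
    linear_combination -h2
  have e10 : (A * B) 1 0 = (B * A) 1 0 := by
    rw [Matrix.mul_apply, Matrix.mul_apply, Fin.sum_univ_two, Fin.sum_univ_two]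
    linear_combination h3
  have e11 : (A * B) 1 1 = (B * A) 1 1 := by
    rw [Matrix.mul_apply, Matrix.mul_apply, Fin.sum_univ_two, Fin.sum_univ_two]
    linear_combination -h1
  ext i j
  fin_cases i <;> fin_cases j
  · exact e00
  · exact e01
  · exact e10
  · exact e11

/-- A matrix of `SL₂` outside the centre is not scalar. -/
theorem nonscalar_of_not_mem_center {g : Matrix.SpecialLinearGroup (Fin 2) F}
    (hg : g ∉ Subgroup.center (Matrix.SpecialLinearGroup (Fin 2) F)) :
    g.1 0 1 ≠ 0 ∨ g.1 1 0 ≠ 0 ∨ g.1 0 0 - g.1 1 1 ≠ 0 := by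
  by_contra hcon
  rw [not_or, not_or, not_not, not_not, not_not] at hcon
  obtain ⟨h01, h10, h00⟩ := hcon
  apply hg
  rw [Matrix.SpecialLinearGroup.mem_center_iff]
  have hdet := g.2
  rw [Matrix.det_fin_two, h01, h10] at hdet
  have h11 : g.1 1 1 = g.1 0 0 := by linear_combination -h00
  refine ⟨g.1 0 0, ?_, ?_⟩
  · rw [Fintype.card_fin]
    rw [h11] at hdet
    linear_combination hdet
  · ext i j
    fin_cases i <;> fin_cases j
    · simp
    · simp [h01]
    · simp [h10]
    · simp [h11]

/-- Commutative transitivity in `SL₂`: the centralizer of a non-central element is abelian. -/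
theorem SL2_comm_of_comm {g A B : Matrix.SpecialLinearGroup (Fin 2) F}
    (hg : g ∉ Subgroup.center (Matrix.SpecialLinearGroup (Fin 2) F)) (hA : A * g = g * A)
    (hB : B * g = g * B) : A * B = B * A := by
  have h := comm_of_comm_nonscalar g.1 A.1 B.1 (nonscalar_of_not_mem_center hg)
    (by rw [← Matrix.SpecialLinearGroup.coe_mul, ← Matrix.SpecialLinearGroup.coe_mul, hA])
    (by rw [← Matrix.SpecialLinearGroup.coe_mul, ← Matrix.SpecialLinearGroup.coe_mul, hB])
  apply Subtype.ext
  rw [Matrix.SpecialLinearGroup.coe_mul, Matrix.SpecialLinearGroup.coe_mul]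
  exact h

/-- In characteristic 2 the centre of `SL₂` is trivial. -/
theorem center_SL2_trivial_of_charTwo [CharP F 2] {z : Matrix.SpecialLinearGroup (Fin 2) F}
    (hz : z ∈ Subgroup.center (Matrix.SpecialLinearGroup (Fin 2) F)) : z = 1 := by
  obtain ⟨r, hr, hrz⟩ := Matrix.SpecialLinearGroup.mem_center_iff.mp hz
  rw [Fintype.card_fin] at hr
  have h2 : (2 : F) = 0 := CharTwo.two_eq_zero
  have h1 : (r - 1) ^ 2 = 0 := by linear_combination hr + (1 - r) * h2
  have h3 : r = 1 := by
    have h4 := (pow_eq_zero_iff (n := 2) (by norm_num)).mp h1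
    linear_combination h4
  apply Subtype.ext
  rw [← hrz, h3]
  simp

/-- Commutative transitivity in `PSL₂` over a field of characteristic 2. -/
theorem PSL2_charTwo_CT [CharP F 2] (x y z : Matrix.ProjectiveSpecialLinearGroup (Fin 2) F)
    (hx : x ≠ 1) (hy : Commute y x) (hz : Commute z x) : Commute y z := by
  obtain ⟨g, rfl⟩ := QuotientGroup.mk_surjective x
  obtain ⟨A, rfl⟩ := QuotientGroup.mk_surjective y
  obtain ⟨B, rfl⟩ := QuotientGroup.mk_surjective z
  have lift : ∀ a b : Matrix.SpecialLinearGroup (Fin 2) F,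
      (QuotientGroup.mk a : Matrix.ProjectiveSpecialLinearGroup (Fin 2) F) = QuotientGroup.mk b →
      a = b := by
    intro a b h
    rw [QuotientGroup.eq] at h
    exact inv_mul_eq_one.mp (center_SL2_trivial_of_charTwo h)
  have hg : g ∉ Subgroup.center (Matrix.SpecialLinearGroup (Fin 2) F) := by
    intro h
    apply hx
    rw [center_SL2_trivial_of_charTwo h]
    rfl
  have hA : A * g = g * A := lift _ _ hy
  have hB : B * g = g * B := lift _ _ hz
  have h := SL2_comm_of_comm hg hA hB
  show (QuotientGroup.mk A : Matrix.ProjectiveSpecialLinearGroup (Fin 2) F) * QuotientGroup.mk B =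
    QuotientGroup.mk B * QuotientGroup.mk A
  rw [← QuotientGroup.mk_mul, ← QuotientGroup.mk_mul, h]

/-- Element centralizers of `PSL₂` over a field of characteristic 2 are TI-subsets. -/
theorem PSL2_charTwo_TI [CharP F 2] (x : Matrix.ProjectiveSpecialLinearGroup (Fin 2) F) :
    Cfsg.IsTISubset (Subgroup.centralizer
      ({x} : Set (Matrix.ProjectiveSpecialLinearGroup (Fin 2) F)) :
      Set (Matrix.ProjectiveSpecialLinearGroup (Fin 2) F)) := by
  have hmem : ∀ w : Matrix.ProjectiveSpecialLinearGroup (Fin 2) F,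
      w ∈ (Subgroup.centralizer ({x} : Set (Matrix.ProjectiveSpecialLinearGroup (Fin 2) F)) :
        Set (Matrix.ProjectiveSpecialLinearGroup (Fin 2) F)) ↔ Commute w x := by
    intro w
    rw [SetLike.mem_coe, Subgroup.mem_centralizer_iff]
    constructor
    · intro h
      exact (show Commute x w from h x (Set.mem_singleton x)).symm
    · intro h a ha
      rw [Set.mem_singleton_iff] at ha
      rw [ha]
      exact h.symm.eq
  intro g hg y hy hy'
  by_contra hy1
  apply hg
  rw [Subgroup.mem_set_normalizer_iff]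
  intro h
  rw [hmem, hmem]
  rw [hmem] at hy hy'
  by_cases hx : x = 1
  · rw [hx]
    exact ⟨fun _ => Commute.one_right _, fun _ => Commute.one_right _⟩
  · have hy1' : g * y * g⁻¹ ≠ 1 := by
      intro h1
      apply hy1
      have h2 : y = g⁻¹ * (g * y * g⁻¹) * g := by group
      rw [h2, h1]
      group
    constructor
    · intro hh
      have h1 : Commute h y := PSL2_charTwo_CT x h y hx hh hy
      have h2 : Commute (g * h * g⁻¹) (g * y * g⁻¹) := (Commute.conj_iff g).mpr h1
      exact PSL2_charTwo_CT (g * y * g⁻¹) (g * h * g⁻¹) x hy1' h2 hy'.symm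
    · intro hh
      have h2 : Commute (g * h * g⁻¹) (g * y * g⁻¹) := PSL2_charTwo_CT x _ _ hx hh hy'
      have h1 : Commute h y := (Commute.conj_iff g).mp h2
      exact PSL2_charTwo_CT y h x hy1 h1 hy.symm

end CT

end Cfsg.Agent.Helper13
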