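import Mathlib
import Cfsg.Agent.Helper13.RankOnePair4
import Cfsg.Agent.S2301

/-!
# The rank-one Steinberg presentation of `SL₂` over a finite field
-/

set_option autoImplicit false

namespace Cfsg.Agent.Helper13

section SL2Pres

variable {K : Type*} [Field K]

/-- The upper unitriangular matrix. -/
def sl2X (t : K) : Matrix.SpecialLinearGroup (Fin 2) K :=
  ⟨!![1, t; 0, 1], by simp [Matrix.det_fin_two]⟩

/-- The lower unitriangular matrix. -/
def sl2Y (t : K) : Matrix.SpecialLinearGroup (Fin 2) K :=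
  ⟨!![1, 0; t, 1], by simp [Matrix.det_fin_two]⟩

theorem sl2X_coe (t : K) :
    ((sl2X t : Matrix.SpecialLinearGroup (Fin 2) K) : Matrix (Fin 2) (Fin 2) K) = !![1, t; 0, 1] :=
  rfl

theorem sl2Y_coe (t : K) :
    ((sl2Y t : Matrix.SpecialLinearGroup (Fin 2) K) : Matrix (Fin 2) (Fin 2) K) = !![1, 0; t, 1] :=
  rfl

theorem sl2X_add (t u : K) : sl2X t * sl2X u = sl2X (t + u) := by
  apply Subtype.ext
  rw [Matrix.SpecialLinearGroup.coe_mul, sl2X_coe, sl2X_coe, sl2X_coe]
  ext i j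
  fin_cases i <;> fin_cases j <;> simp [Matrix.mul_apply, Fin.sum_univ_two, add_comm]

theorem sl2Y_add (t u : K) : sl2Y t * sl2Y u = sl2Y (t + u) := by
  apply Subtype.ext
  rw [Matrix.SpecialLinearGroup.coe_mul, sl2Y_coe, sl2Y_coe, sl2Y_coe]
  ext i j
  fin_cases i <;> fin_cases j <;> simp [Matrix.mul_apply, Fin.sum_univ_two, add_comm]

theorem sl2W_coe (t : K) (ht : t ≠ 0) :
    ((sl2X t * sl2Y (-t⁻¹) * sl2X t : Matrix.SpecialLinearGroup (Fin 2) K) :
      Matrix (Fin 2) (Fin 2) K) = !![0, t; -t⁻¹, 0] := by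
  rw [Matrix.SpecialLinearGroup.coe_mul, Matrix.SpecialLinearGroup.coe_mul, sl2X_coe, sl2Y_coe]
  ext i j
  fin_cases i <;> fin_cases j <;> simp [Matrix.mul_apply, Fin.sum_univ_two, ht]

theorem sl2W'_coe (t : K) (ht : t ≠ 0) :
    ((sl2Y t * sl2X (-t⁻¹) * sl2Y t : Matrix.SpecialLinearGroup (Fin 2) K) :
      Matrix (Fin 2) (Fin 2) K) = !![0, -t⁻¹; t, 0] := by
  rw [Matrix.SpecialLinearGroup.coe_mul, Matrix.SpecialLinearGroup.coe_mul, sl2X_coe, sl2Y_coe]
  ext i j
  fin_cases i <;> fin_cases j <;> simp [Matrix.mul_apply, Fin.sum_univ_two, ht]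

theorem sl2_relX (t u : K) (ht : t ≠ 0) :
    (sl2X t * sl2Y (-t⁻¹) * sl2X t) * sl2X u * (sl2X t * sl2Y (-t⁻¹) * sl2X t)⁻¹ =
      sl2Y (-(t⁻¹ ^ 2 * u)) := by
  apply mul_inv_eq_of_eq_mul
  apply Subtype.ext
  rw [Matrix.SpecialLinearGroup.coe_mul (sl2X t * sl2Y (-t⁻¹) * sl2X t) (sl2X u),
    Matrix.SpecialLinearGroup.coe_mul (sl2Y (-(t⁻¹ ^ 2 * u))) (sl2X t * sl2Y (-t⁻¹) * sl2X t),
    sl2W_coe t ht, sl2X_coe, sl2Y_coe]
  ext i j
  fin_cases i <;> fin_cases j <;> simp [Matrix.mul_apply, Fin.sum_univ_two] <;> field_simp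

theorem sl2_relY (t u : K) (ht : t ≠ 0) :
    (sl2Y t * sl2X (-t⁻¹) * sl2Y t) * sl2Y u * (sl2Y t * sl2X (-t⁻¹) * sl2Y t)⁻¹ =
      sl2X (-(t⁻¹ ^ 2 * u)) := by
  apply mul_inv_eq_of_eq_mul
  apply Subtype.ext
  rw [Matrix.SpecialLinearGroup.coe_mul (sl2Y t * sl2X (-t⁻¹) * sl2Y t) (sl2Y u),
    Matrix.SpecialLinearGroup.coe_mul (sl2X (-(t⁻¹ ^ 2 * u))) (sl2Y t * sl2X (-t⁻¹) * sl2Y t),
    sl2W'_coe t ht, sl2X_coe, sl2Y_coe]
  ext i j
  fin_cases i <;> fin_cases j <;> simp [Matrix.mul_apply, Fin.sum_univ_two] <;> field_simp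

/-- The rank-one Steinberg pair of `SL₂`. -/
def sl2Pair (K : Type*) [Field K] : RankOnePair K (Matrix.SpecialLinearGroup (Fin 2) K) where
  X := sl2X
  Y := sl2Y
  X_add := sl2X_add
  Y_add := sl2Y_add
  relX := sl2_relX
  relY := sl2_relY

/-- `SL₂` is generated by the unitriangular matrices. -/
theorem sl2_closure :
    Subgroup.closure (Set.range (sl2X (K := K)) ∪ Set.range (sl2Y (K := K))) = ⊤ := by
  rw [eq_top_iff]
  intro g _
  have hX : ∀ t : K, sl2X t ∈
      Subgroup.closure (Set.range (sl2X (K := K)) ∪ Set.range (sl2Y (K := K))) :=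
    fun t => Subgroup.subset_closure (Or.inl ⟨t, rfl⟩)
  have hY : ∀ t : K, sl2Y t ∈
      Subgroup.closure (Set.range (sl2X (K := K)) ∪ Set.range (sl2Y (K := K))) :=
    fun t => Subgroup.subset_closure (Or.inr ⟨t, rfl⟩)
  have key : ∀ g : Matrix.SpecialLinearGroup (Fin 2) K,
      (g : Matrix (Fin 2) (Fin 2) K) 1 0 ≠ 0 →
      g ∈ Subgroup.closure (Set.range (sl2X (K := K)) ∪ Set.range (sl2Y (K := K))) := by
    intro g hc
    have hdet : (g : Matrix (Fin 2) (Fin 2) K) 0 0 * (g : Matrix (Fin 2) (Fin 2) K) 1 1 -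
        (g : Matrix (Fin 2) (Fin 2) K) 0 1 * (g : Matrix (Fin 2) (Fin 2) K) 1 0 = 1 := by
      have h := g.det_coe
      rw [Matrix.det_fin_two] at h
      exact h
    have e : g = sl2X (((g : Matrix (Fin 2) (Fin 2) K) 0 0 - 1) /
          (g : Matrix (Fin 2) (Fin 2) K) 1 0) * sl2Y ((g : Matrix (Fin 2) (Fin 2) K) 1 0) *
        sl2X (((g : Matrix (Fin 2) (Fin 2) K) 1 1 - 1) / (g : Matrix (Fin 2) (Fin 2) K) 1 0) := by
      apply Subtype.ext
      rw [Matrix.SpecialLinearGroup.coe_mul, Matrix.SpecialLinearGroup.coe_mul, sl2X_coe,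
        sl2Y_coe, sl2X_coe]
      ext i j
      fin_cases i <;> fin_cases j
      · simp [Matrix.mul_apply, Fin.sum_univ_two]
        field_simp
        ring
      · simp [Matrix.mul_apply, Fin.sum_univ_two]
        field_simp
        linear_combination -hdet
      · simp [Matrix.mul_apply, Fin.sum_univ_two]
      · simp [Matrix.mul_apply, Fin.sum_univ_two]
        field_simp
        ring
    rw [e]
    exact Subgroup.mul_mem _ (Subgroup.mul_mem _ (hX _) (hY _)) (hX _)
  by_cases hc : (g : Matrix (Fin 2) (Fin 2) K) 1 0 = 0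
  · have hdet : (g : Matrix (Fin 2) (Fin 2) K) 0 0 * (g : Matrix (Fin 2) (Fin 2) K) 1 1 -
        (g : Matrix (Fin 2) (Fin 2) K) 0 1 * (g : Matrix (Fin 2) (Fin 2) K) 1 0 = 1 := by
      have h := g.det_coe
      rw [Matrix.det_fin_two] at h
      exact h
    have ha : (g : Matrix (Fin 2) (Fin 2) K) 0 0 ≠ 0 := by
      intro h0
      rw [h0, hc] at hdet
      simp at hdet
    have h1 : ((sl2Y 1 * g : Matrix.SpecialLinearGroup (Fin 2) K) :
        Matrix (Fin 2) (Fin 2) K) 1 0 ≠ 0 := by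
      rw [Matrix.SpecialLinearGroup.coe_mul, sl2Y_coe, Matrix.mul_apply, Fin.sum_univ_two]
      simp [hc, ha]
    have h2 := key _ h1
    have e : g = (sl2Y 1)⁻¹ * (sl2Y 1 * g) := by group
    rw [e]
    exact Subgroup.mul_mem _ (Subgroup.inv_mem _ (hY 1)) h2
  · exact key g hc

/-- The relators of the rank-one Steinberg presentation. -/
def steinbergRels (K : Type*) [Field K] : Set (FreeGroup (Bool × K)) :=
  {g : FreeGroup (Bool × K) | ∃ (b : Bool) (t u : K),
      g = FreeGroup.of (b, t) * FreeGroup.of (b, u) * (FreeGroup.of (b, t + u))⁻¹} ∪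
    {g | ∃ (b : Bool) (t u : K), t ≠ 0 ∧
      g = (FreeGroup.of (b, t) * FreeGroup.of (!b, -t⁻¹) * FreeGroup.of (b, t)) *
            FreeGroup.of (b, u) *
            (FreeGroup.of (b, t) * FreeGroup.of (!b, -t⁻¹) * FreeGroup.of (b, t))⁻¹ *
            (FreeGroup.of (!b, -(t⁻¹ ^ 2 * u)))⁻¹}

/-- The generators of `SL₂`. -/
def sl2Gen (p : Bool × K) : Matrix.SpecialLinearGroup (Fin 2) K :=
  cond p.1 (sl2X p.2) (sl2Y p.2)

theorem sl2_rels (r : FreeGroup (Bool × K)) (hr : r ∈ steinbergRels K) :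
    FreeGroup.lift (sl2Gen (K := K)) r = 1 := by
  rcases hr with ⟨b, t, u, rfl⟩ | ⟨b, t, u, ht, rfl⟩
  · simp only [map_mul, map_inv, FreeGroup.lift_apply_of]
    cases b
    · exact mul_inv_eq_one.mpr (sl2Y_add t u)
    · exact mul_inv_eq_one.mpr (sl2X_add t u)
  · simp only [map_mul, map_inv, FreeGroup.lift_apply_of]
    cases b
    · exact mul_inv_eq_one.mpr (sl2_relY t u ht)
    · exact mul_inv_eq_one.mpr (sl2_relX t u ht)

/-- The rank-one Steinberg pair of the presented group. -/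
def presPair (K : Type*) [Field K] : RankOnePair K (PresentedGroup (steinbergRels K)) where
  X := fun t => PresentedGroup.of (true, t)
  Y := fun t => PresentedGroup.of (false, t)
  X_add := fun t u => by
    have hmem : FreeGroup.of (true, t) * FreeGroup.of (true, u) *
        (FreeGroup.of (true, t + u))⁻¹ ∈ steinbergRels K := Or.inl ⟨true, t, u, rfl⟩
    have h := PresentedGroup.mk_eq_mk_of_mul_inv_mem hmem
    rw [map_mul] at h
    exact h
  Y_add := fun t u => by
    have hmem : FreeGroup.of (false, t) * FreeGroup.of (false, u) *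
        (FreeGroup.of (false, t + u))⁻¹ ∈ steinbergRels K := Or.inl ⟨false, t, u, rfl⟩
    have h := PresentedGroup.mk_eq_mk_of_mul_inv_mem hmem
    rw [map_mul] at h
    exact h
  relX := fun t u ht => by
    have hmem : (FreeGroup.of (true, t) * FreeGroup.of (!true, -t⁻¹) * FreeGroup.of (true, t)) *
        FreeGroup.of (true, u) *
        (FreeGroup.of (true, t) * FreeGroup.of (!true, -t⁻¹) * FreeGroup.of (true, t))⁻¹ *
        (FreeGroup.of (!true, -(t⁻¹ ^ 2 * u)))⁻¹ ∈ steinbergRels K :=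
      Or.inr ⟨true, t, u, ht, rfl⟩
    have h := PresentedGroup.mk_eq_mk_of_mul_inv_mem hmem
    simp only [map_mul, map_inv] at h
    exact h
  relY := fun t u ht => by
    have hmem : (FreeGroup.of (false, t) * FreeGroup.of (!false, -t⁻¹) *
          FreeGroup.of (false, t)) * FreeGroup.of (false, u) *
        (FreeGroup.of (false, t) * FreeGroup.of (!false, -t⁻¹) * FreeGroup.of (false, t))⁻¹ *
        (FreeGroup.of (!false, -(t⁻¹ ^ 2 * u)))⁻¹ ∈ steinbergRels K :=
      Or.inr ⟨false, t, u, ht, rfl⟩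
    have h := PresentedGroup.mk_eq_mk_of_mul_inv_mem hmem
    simp only [map_mul, map_inv] at h
    exact h

theorem presPair_closure :
    Subgroup.closure (Set.range (presPair K).X ∪ Set.range (presPair K).Y) = ⊤ := by
  rw [eq_top_iff, ← PresentedGroup.closure_range_of (steinbergRels K)]
  apply Subgroup.closure_mono
  rintro x ⟨⟨b, t⟩, rfl⟩
  cases b
  · exact Or.inr ⟨t, rfl⟩
  · exact Or.inl ⟨t, rfl⟩

/-- The canonical homomorphism from the presented group onto `SL₂`. -/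
def sl2Hom (K : Type*) [Field K] :
    PresentedGroup (steinbergRels K) →* Matrix.SpecialLinearGroup (Fin 2) K :=
  PresentedGroup.toGroup (f := sl2Gen (K := K)) sl2_rels

theorem sl2Hom_of (p : Bool × K) : sl2Hom K (PresentedGroup.of p) = sl2Gen p :=
  PresentedGroup.toGroup.of sl2_rels

theorem sl2Hom_surjective : Function.Surjective (sl2Hom K) := by
  rw [← MonoidHom.range_eq_top, eq_top_iff, ← sl2_closure (K := K), Subgroup.closure_le]
  rintro x (⟨t, rfl⟩ | ⟨t, rfl⟩)
  · exact ⟨PresentedGroup.of (true, t), sl2Hom_of (true, t)⟩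
  · exact ⟨PresentedGroup.of (false, t), sl2Hom_of (false, t)⟩

/-- The rank-one Steinberg presentation of `SL₂` over a finite field. -/
theorem sl2_presentation [Finite K] :
    ∃ e : PresentedGroup (steinbergRels K) ≃* Matrix.SpecialLinearGroup (Fin 2) K,
      (∀ t : K, ((e (PresentedGroup.of (true, t)) : Matrix (Fin 2) (Fin 2) K)) =
        !![1, t; 0, 1]) ∧
      (∀ t : K, ((e (PresentedGroup.of (false, t)) : Matrix (Fin 2) (Fin 2) K)) =
        !![1, 0; t, 1]) := by
  classical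
  haveI : Fintype K := Fintype.ofFinite K
  obtain ⟨hfin, hcard⟩ := (presPair K).card_le presPair_closure
  have hle : Nat.card (PresentedGroup (steinbergRels K)) ≤
      Nat.card (Matrix.SpecialLinearGroup (Fin 2) K) := by
    rw [S2301.card_SL2, ← Nat.card_eq_fintype_card]
    exact hcard
  have hbij := (sl2Hom_surjective (K := K)).bijective_of_nat_card_le hle
  refine ⟨MulEquiv.ofBijective (sl2Hom K) hbij, fun t => ?_, fun t => ?_⟩
  · rw [MulEquiv.ofBijective_apply, sl2Hom_of]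
    rfl
  · rw [MulEquiv.ofBijective_apply, sl2Hom_of]
    rfl

end SL2Pres

end Cfsg.Agent.Helper13
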