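import Mathlib
import Cfsg.Agent.Helper13.FourierWt

set_option autoImplicit false

namespace Cfsg.Agent.Helper13

open Matrix

section SLCross

variable {F : Type*} [Field F] {n : ℕ}

/-- Extension by zero at the index `i₀`. -/
def slxExt (i₀ : Fin n) (v : {j : Fin n // j ≠ i₀} → F) : Fin n → F :=
  fun j => if h : j ≠ i₀ then v ⟨j, h⟩ else 0

theorem slxExt_self (i₀ : Fin n) (v : {j : Fin n // j ≠ i₀} → F) : slxExt i₀ v i₀ = 0 := by
  unfold slxExt
  rw [dif_neg (fun h => h rfl)]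

theorem slxExt_ne (i₀ : Fin n) (v : {j : Fin n // j ≠ i₀} → F) (j : Fin n) (h : j ≠ i₀) :
    slxExt i₀ v j = v ⟨j, h⟩ := by
  unfold slxExt
  rw [dif_pos h]

theorem slxExt_add (i₀ : Fin n) (v w : {j : Fin n // j ≠ i₀} → F) :
    slxExt i₀ (v + w) = slxExt i₀ v + slxExt i₀ w := by
  funext j
  by_cases h : j ≠ i₀
  · rw [Pi.add_apply, slxExt_ne i₀ _ j h, slxExt_ne i₀ _ j h, slxExt_ne i₀ _ j h, Pi.add_apply]
  · have h' : j = i₀ := not_not.mp h
    rw [h', Pi.add_apply, slxExt_self, slxExt_self, slxExt_self, add_zero]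

theorem slxExt_zero (i₀ : Fin n) : slxExt i₀ (0 : {j : Fin n // j ≠ i₀} → F) = 0 := by
  funext j
  by_cases h : j ≠ i₀
  · rw [slxExt_ne i₀ _ j h]
    rfl
  · have h' : j = i₀ := not_not.mp h
    rw [h', slxExt_self]
    rfl

/-- The unipotent matrix with first row `(1, v)`. -/
def slxMat (i₀ : Fin n) (v : {j : Fin n // j ≠ i₀} → F) : Matrix (Fin n) (Fin n) F :=
  1 + vecMulVec (Pi.single i₀ 1) (slxExt i₀ v)

theorem slxMat_det (i₀ : Fin n) (v : {j : Fin n // j ≠ i₀} → F) : (slxMat i₀ v).det = 1 := by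
  unfold slxMat
  rw [Matrix.vecMulVec_eq (ι := Fin 1), det_one_add_replicateCol_mul_replicateRow,
    dotProduct_single, slxExt_self, zero_mul, add_zero]

theorem slxMat_add (i₀ : Fin n) (v w : {j : Fin n // j ≠ i₀} → F) :
    slxMat i₀ (v + w) = slxMat i₀ v * slxMat i₀ w := by
  unfold slxMat
  rw [Matrix.add_mul, Matrix.mul_add, Matrix.mul_add, Matrix.one_mul, Matrix.mul_one,
    Matrix.one_mul, vecMulVec_mul_vecMulVec, dotProduct_single, slxExt_self, zero_mul, zero_smul,
    slxExt_add, vecMulVec_add]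
  have h0 : vecMulVec (Pi.single i₀ (1 : F)) (0 : Fin n → F) = 0 := by
    ext i j
    simp [vecMulVec_apply]
  rw [h0, add_zero]
  abel

theorem slxMat_zero (i₀ : Fin n) : slxMat i₀ (0 : {j : Fin n // j ≠ i₀} → F) = 1 := by
  unfold slxMat
  rw [slxExt_zero]
  have h0 : vecMulVec (Pi.single i₀ (1 : F)) (0 : Fin n → F) = 0 := by
    ext i j
    simp [vecMulVec_apply]
  rw [h0, add_zero]

/-- The element of `SL_n(F)` with first row `(1, v)`. -/
def slxSL (i₀ : Fin n) (v : {j : Fin n // j ≠ i₀} → F) : Matrix.SpecialLinearGroup (Fin n) F :=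
  ⟨slxMat i₀ v, slxMat_det i₀ v⟩

theorem slxSL_add (i₀ : Fin n) (v w : {j : Fin n // j ≠ i₀} → F) :
    slxSL i₀ (v + w) = slxSL i₀ v * slxSL i₀ w :=
  Subtype.ext (slxMat_add i₀ v w)

theorem slxSL_zero (i₀ : Fin n) : slxSL i₀ (0 : {j : Fin n // j ≠ i₀} → F) = 1 :=
  Subtype.ext (slxMat_zero i₀)

/-- The transvection as an element of `SL_n(F)`. -/
def slxT (k l : Fin n) (hkl : k ≠ l) (s : F) : Matrix.SpecialLinearGroup (Fin n) F :=
  ⟨transvection k l s, det_transvection_of_ne k l hkl s⟩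

theorem slxT_mul (k l : Fin n) (hkl : k ≠ l) (s : F) :
    slxT k l hkl (-s) * slxT k l hkl s = 1 := by
  apply Subtype.ext
  show transvection k l (-s) * transvection k l s = 1
  rw [transvection_mul_transvection_same k l hkl, neg_add_cancel, transvection_zero]

theorem slxT_conj (i₀ k l : Fin n) (hkl : k ≠ l) (hk : k ≠ i₀) (hl : l ≠ i₀) (s : F)
    (v : {j : Fin n // j ≠ i₀} → F) :
    transvection k l s * slxMat i₀ v * transvection k l (-s)
      = slxMat i₀ (v - (s * v ⟨k, hk⟩) • Pi.single (⟨l, hl⟩ : {j : Fin n // j ≠ i₀}) (1 : F)) := by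
  unfold slxMat
  rw [Matrix.mul_add, Matrix.add_mul, Matrix.mul_one, transvection_mul_transvection_same k l hkl,
    add_neg_cancel, transvection_zero, mul_vecMulVec, vecMulVec_mul]
  have h1 : transvection k l s *ᵥ Pi.single i₀ (1 : F) = Pi.single i₀ 1 := by
    rw [Matrix.mulVec_single_one]
    funext j
    show transvection k l s j i₀ = _
    rw [transvection, Matrix.add_apply,
      Matrix.single_apply_of_ne (i := k) (j := l) (i' := j) (j' := i₀) (c := s)
        (fun h => hl h.2), add_zero, Matrix.one_apply, Pi.single_apply]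
  have h2 : slxExt i₀ v ᵥ* transvection k l (-s)
      = slxExt i₀ (v - (s * v ⟨k, hk⟩) • Pi.single (⟨l, hl⟩ : {j : Fin n // j ≠ i₀}) (1 : F)) := by
    funext j
    rw [transvection, Matrix.vecMul_add, Matrix.vecMul_one, Pi.add_apply]
    have h3 : (slxExt i₀ v ᵥ* Matrix.single k l (-s)) j
        = if j = l then slxExt i₀ v k * (-s) else 0 := by
      simp only [Matrix.vecMul, dotProduct, Matrix.single_apply]
      by_cases hj : j = l
      · rw [if_pos hj, Finset.sum_eq_single k]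
        · rw [if_pos ⟨rfl, hj.symm⟩]
        · intro b _ hb
          rw [if_neg (fun h => hb h.1.symm), mul_zero]
        · intro h
          exact absurd (Finset.mem_univ k) h
      · rw [if_neg hj]
        apply Finset.sum_eq_zero
        intro b _
        rw [if_neg (fun h => hj h.2.symm), mul_zero]
    rw [h3]
    by_cases hj0 : j ≠ i₀
    · rw [slxExt_ne i₀ _ j hj0, slxExt_ne i₀ _ j hj0, slxExt_ne i₀ _ k hk, Pi.sub_apply,
        Pi.smul_apply, Pi.single_apply]
      by_cases hj : j = l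
      · rw [if_pos hj, if_pos (Subtype.ext hj)]
        simp only [smul_eq_mul]
        ring
      · rw [if_neg hj, if_neg (fun h => hj (congrArg Subtype.val h))]
        simp
    · have hj0' : j = i₀ := not_not.mp hj0
      rw [hj0', slxExt_self, slxExt_self, if_neg (fun h => hl h.symm), add_zero]
  rw [h1, h2]


set_option maxHeartbeats 400000 in
theorem slx_step {F : Type*} [Field F] [Fintype F] (n : ℕ)
    {K : Type*} [Field K] {d : ℕ}
    (ρ : Matrix.SpecialLinearGroup (Fin n) F →* GL (Fin d) K)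
    (K' : Type*) [Field K'] [Algebra K K'] (ψ : AddChar F K') (i₀ : Fin n)
    (R : ({j : Fin n // j ≠ i₀} → F) → Matrix (Fin d) (Fin d) K')
    (hR : ∀ v, R v = (algebraMap K K').mapMatrix
        ((ρ (slxSL i₀ v) : GL (Fin d) K) : Matrix (Fin d) (Fin d) K))
    (a : {j : Fin n // j ≠ i₀} → F) (k l : {j : Fin n // j ≠ i₀}) (hkl : k ≠ l)
    (s : F) (ha : fwOp ψ R a ≠ 0) : fwOp ψ R (a + (s * a l) • Pi.single k (1 : F)) ≠ 0 := by
  have hkl' : (k : Fin n) ≠ (l : Fin n) := fun h => hkl (Subtype.ext h)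
  obtain ⟨A, hA⟩ : ∃ A : ({j : Fin n // j ≠ i₀} → F) ≃ ({j : Fin n // j ≠ i₀} → F),
      ∀ v, A v = v - (s * v k) • Pi.single l (1 : F) := by
    refine ⟨⟨fun v => v - (s * v k) • Pi.single l (1 : F),
      fun v => v + (s * v k) • Pi.single l (1 : F), ?_, ?_⟩, fun _ => rfl⟩
    · intro v
      funext x
      simp only [Pi.add_apply, Pi.sub_apply, Pi.smul_apply, Pi.single_apply, smul_eq_mul,
        if_neg hkl]
      ring
    · intro v
      funext x
      simp only [Pi.add_apply, Pi.sub_apply, Pi.smul_apply, Pi.single_apply, smul_eq_mul,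
        if_neg hkl]
      ring
  have hgg : (algebraMap K K').mapMatrix
        ((ρ (slxT k l hkl' (-s)) : GL (Fin d) K) : Matrix (Fin d) (Fin d) K) *
      (algebraMap K K').mapMatrix
        ((ρ (slxT k l hkl' s) : GL (Fin d) K) : Matrix (Fin d) (Fin d) K) = 1 := by
    rw [← map_mul, ← Units.val_mul, ← map_mul, slxT_mul, map_one, Units.val_one, map_one]
  have hconj : ∀ v, (algebraMap K K').mapMatrix
        ((ρ (slxT k l hkl' s) : GL (Fin d) K) : Matrix (Fin d) (Fin d) K) * R v *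
      (algebraMap K K').mapMatrix
        ((ρ (slxT k l hkl' (-s)) : GL (Fin d) K) : Matrix (Fin d) (Fin d) K) = R (A v) := by
    intro v
    have hSL : slxT k l hkl' s * slxSL i₀ v * slxT k l hkl' (-s) = slxSL i₀ (A v) := by
      apply Subtype.ext
      rw [hA]
      exact slxT_conj i₀ k l hkl' k.2 l.2 s v
    rw [hR, hR, ← hSL, map_mul, map_mul, Units.val_mul, Units.val_mul, map_mul, map_mul]
  have hdot : ∀ (a v : {j : Fin n // j ≠ i₀} → F),
      a ⬝ᵥ v = (a + (s * a l) • Pi.single k (1 : F)) ⬝ᵥ (A v) := by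
    intro a v
    rw [hA]
    simp only [add_dotProduct, dotProduct_sub, smul_dotProduct, dotProduct_smul,
      single_dotProduct, dotProduct_single, smul_eq_mul, one_mul, mul_one, Pi.add_apply,
      Pi.smul_apply, Pi.single_eq_of_ne (Ne.symm hkl), mul_zero, add_zero]
    ring
  have h9 := fw_conj_ne ψ R _ _ hgg A (fun a => a + (s * a l) • Pi.single k (1 : F)) hconj hdot a ha
  exact h9


set_option maxHeartbeats 400000 in
theorem sl_cross_bound_aux {F : Type*} [Field F] [Fintype F] (n : ℕ) (hn : 3 ≤ n)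
    {K : Type*} [Field K] (hK : ringChar K ≠ ringChar F) {d : ℕ}
    (ρ : Matrix.SpecialLinearGroup (Fin n) F →* GL (Fin d) K)
    (hker : ρ.ker ≤ Subgroup.center (Matrix.SpecialLinearGroup (Fin n) F))
    (K' : Type*) [Field K'] [Algebra K K'] (ψ : AddChar F K') (hψ : ψ.IsPrimitive) :
    Fintype.card F ^ (n - 1) - 1 ≤ d := by
  classical
  obtain ⟨i₀, hi₀⟩ : ∃ i₀ : Fin n, i₀ = ⟨0, by omega⟩ := ⟨_, rfl⟩
  obtain ⟨R, hR⟩ : ∃ R : ({j : Fin n // j ≠ i₀} → F) → Matrix (Fin d) (Fin d) K',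
      ∀ v, R v = (algebraMap K K').mapMatrix
        ((ρ (slxSL i₀ v) : GL (Fin d) K) : Matrix (Fin d) (Fin d) K) := ⟨_, fun _ => rfl⟩
  have hR0 : R 0 = 1 := by
    rw [hR, slxSL_zero, map_one, Units.val_one, map_one]
  have hRadd : ∀ v w, R (v + w) = R v * R w := by
    intro v w
    rw [hR, hR, hR, slxSL_add, map_mul, Units.val_mul, map_mul]
  have hq : (Fintype.card ({j : Fin n // j ≠ i₀} → F) : K') ≠ 0 := by
    have hp : Fact (ringChar F).Prime := ⟨CharP.char_is_prime F _⟩
    obtain ⟨k, -, hk⟩ := FiniteField.card F (ringChar F)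
    have h1 : ((ringChar F : ℕ) : K) ≠ 0 := by
      intro h
      rw [ringChar.spec] at h
      rcases (Nat.dvd_prime hp.out).mp h with h' | h'
      · exact CharP.ringChar_ne_one h'
      · exact hK h'
    have h2 : ((ringChar F : ℕ) : K') ≠ 0 := by
      rw [← map_natCast (algebraMap K K')]
      exact (map_ne_zero _).mpr h1
    rw [Fintype.card_fun, hk]
    push_cast
    exact pow_ne_zero _ (pow_ne_zero _ h2)
  have hstep : ∀ (a : {j : Fin n // j ≠ i₀} → F) (k l : {j : Fin n // j ≠ i₀}), k ≠ l →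
      ∀ s : F, fwOp ψ R a ≠ 0 → fwOp ψ R (a + (s * a l) • Pi.single k (1 : F)) ≠ 0 :=
    fun a k l hkl s ha => slx_step n ρ K' ψ i₀ R hR a k l hkl s ha
  have hj1 : (⟨1, by omega⟩ : Fin n) ≠ i₀ := by
    rw [hi₀]
    intro h
    have h' := congrArg Fin.val h
    simp at h'
  have hj2 : (⟨2, by omega⟩ : Fin n) ≠ i₀ := by
    rw [hi₀]
    intro h
    have h' := congrArg Fin.val h
    simp at h'
  have hex : ∃ a : {j : Fin n // j ≠ i₀} → F, a ≠ 0 ∧ fwOp ψ R a ≠ 0 := by
    by_contra hcon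
    push Not at hcon
    have h1 : fwOp ψ R 0 = 1 := by
      have h2 := fw_sum ψ hψ R hR0 hq
      rw [Finset.sum_eq_single (0 : {j : Fin n // j ≠ i₀} → F) (fun a _ ha => hcon a ha)
        (fun h => absurd (Finset.mem_univ _) h)] at h2
      exact h2
    obtain ⟨w, hw⟩ : ∃ w : {j : Fin n // j ≠ i₀} → F,
        w = Pi.single (⟨⟨1, by omega⟩, hj1⟩ : {j : Fin n // j ≠ i₀}) (1 : F) := ⟨_, rfl⟩
    have h3 : R w = 1 := by
      have h4 := fw_mul ψ R hRadd w 0
      rw [h1, Matrix.mul_one, zero_dotProduct, AddChar.map_zero_eq_one, one_smul] at h4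
      exact h4
    rw [hR] at h3
    have h5 : ((ρ (slxSL i₀ w) : GL (Fin d) K) : Matrix (Fin d) (Fin d) K) = 1 := by
      apply Matrix.map_injective (algebraMap K K').injective
      show ((ρ (slxSL i₀ w) : GL (Fin d) K) : Matrix (Fin d) (Fin d) K).map (algebraMap K K')
        = (1 : Matrix (Fin d) (Fin d) K).map (algebraMap K K')
      have h6 := h3
      rw [RingHom.mapMatrix_apply] at h6
      rw [h6]
      have h7 := map_one ((algebraMap K K').mapMatrix (m := Fin d))
      rw [RingHom.mapMatrix_apply] at h7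
      exact h7.symm
    have h7 : slxSL i₀ w ∈ ρ.ker := by
      rw [MonoidHom.mem_ker]
      exact Units.ext h5
    have h8 := hker h7
    rw [Matrix.SpecialLinearGroup.mem_center_iff] at h8
    obtain ⟨r, -, hr⟩ := h8
    have h9 := congrFun (congrFun hr i₀) ⟨1, by omega⟩
    have h10 : (slxSL i₀ w : Matrix (Fin n) (Fin n) F) i₀ ⟨1, by omega⟩ = 1 := by
      show slxMat i₀ w i₀ ⟨1, by omega⟩ = 1
      unfold slxMat
      rw [Matrix.add_apply, Matrix.one_apply_ne (Ne.symm hj1), vecMulVec_apply,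
        Pi.single_eq_same, slxExt_ne i₀ w _ hj1, hw, Pi.single_eq_same]
      ring
    rw [h10, Matrix.scalar_apply, Matrix.diagonal_apply_ne _ (Ne.symm hj1)] at h9
    exact zero_ne_one h9
  obtain ⟨a₀, ha₀, hQa₀⟩ := hex
  have hI : ∀ i : {j : Fin n // j ≠ i₀}, ∃ k : {j : Fin n // j ≠ i₀}, k ≠ i := by
    intro i
    by_cases h : (i : Fin n) = ⟨1, by omega⟩
    · refine ⟨⟨⟨2, by omega⟩, hj2⟩, fun h' => ?_⟩
      have h'' := congrArg (fun x : {j : Fin n // j ≠ i₀} => ((x : Fin n) : ℕ)) h'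
      simp only [h] at h''
      omega
    · exact ⟨⟨⟨1, by omega⟩, hj1⟩, fun h' => h (by rw [← h'])⟩
  have hall : ∀ b : {j : Fin n // j ≠ i₀} → F, b ≠ 0 → fwOp ψ R b ≠ 0 := by
    intro b hb
    have h1 := fw_trans (fun a : {j : Fin n // j ≠ i₀} → F => fwOp ψ R a ≠ 0) hstep hI a₀ b ha₀ hb
      hQa₀
    exact h1
  have hcard := fw_card_le ψ hψ R hRadd hq
    (Finset.univ.filter (fun b : {j : Fin n // j ≠ i₀} → F => b ≠ 0))
    (fun b hb => hall b (Finset.mem_filter.mp hb).2)
  have hcI : Fintype.card {j : Fin n // j ≠ i₀} = n - 1 := by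
    rw [Fintype.card_subtype_compl, Fintype.card_subtype_eq, Fintype.card_fin]
  rw [Finset.filter_ne' Finset.univ (0 : {j : Fin n // j ≠ i₀} → F),
    Finset.card_erase_of_mem (Finset.mem_univ _), Finset.card_univ, Fintype.card_fun, hcI]
    at hcard
  exact hcard

/-- **Landazuri–Seitz bound for `SL_n(q)`**: a representation of `SL_n(F)`, `n ≥ 3`, in cross
characteristic with central kernel has degree at least `q^(n-1) - 1`. -/
theorem sl_cross_bound {F : Type*} [Field F] [Fintype F] (n : ℕ) (hn : 3 ≤ n)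
    {K : Type*} [Field K] (hK : ringChar K ≠ ringChar F) {d : ℕ}
    (ρ : Matrix.SpecialLinearGroup (Fin n) F →* GL (Fin d) K)
    (hker : ρ.ker ≤ Subgroup.center (Matrix.SpecialLinearGroup (Fin n) F)) :
    Fintype.card F ^ (n - 1) - 1 ≤ d := by
  obtain ⟨ψP⟩ : Nonempty (AddChar.PrimitiveAddChar F K) :=
    ⟨AddChar.FiniteField.primitiveChar F K hK⟩
  exact sl_cross_bound_aux n hn hK ρ hker (CyclotomicField ψP.n K) ψP.char ψP.prim

end SLCross

end Cfsg.Agent.Helper13
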