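import Mathlib
import Cfsg.Agent.Helper2.SLGen

set_option autoImplicit false

namespace Cfsg.Agent.Helper13

open Matrix

/-- The sign attached to row `a` of the monomial cycle matrix. -/
def cycSign (K : Type*) [Field K] (n : ℕ) (a : Fin (n + 1)) : K :=
  if a.val = n then (-1) ^ n else 1

theorem cycSign_mul_self (K : Type*) [Field K] (n : ℕ) (a : Fin (n + 1)) :
    cycSign K n a * cycSign K n a = 1 := by
  unfold cycSign
  split_ifs
  · rw [← mul_pow]; simp
  · simp

/-- Entries of the monomial cycle matrix. -/
theorem cycMat_apply (K : Type*) [Field K] (n : ℕ) (a b : Fin (n + 1)) :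
    (if b.val = a.val + 1 then (1 : K) else if a.val = n ∧ b.val = 0 then (-1) ^ n else 0) =
      if b = a + 1 then cycSign K n a else 0 := by
  unfold cycSign
  by_cases ha : a.val = n
  · have ha' : a = Fin.last n := Fin.ext ha
    have h1 : ¬ b.val = a.val + 1 := by
      have := b.2
      omega
    have h2 : a + 1 = 0 := by rw [ha']; exact Fin.last_add_one n
    have h3 : (b = a + 1) ↔ b.val = 0 := by
      rw [h2]
      exact Fin.ext_iff
    by_cases hb : b.val = 0
    · rw [if_neg h1, if_pos ⟨ha, hb⟩, if_pos (h3.mpr hb), if_pos ha]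
    · rw [if_neg h1, if_neg (fun h => hb h.2), if_neg (fun h => hb (h3.mp h))]
  · have hlt : a < Fin.last n := by
      rw [Fin.lt_def, Fin.val_last]
      have := a.2
      omega
    have h2 : (a + 1).val = a.val + 1 := Fin.val_add_one_of_lt hlt
    have h3 : (b = a + 1) ↔ b.val = a.val + 1 := by
      rw [Fin.ext_iff, h2]
    by_cases hb : b.val = a.val + 1
    · rw [if_pos hb, if_pos (h3.mpr hb), if_neg ha]
    · rw [if_neg hb, if_neg (fun h => ha h.1), if_neg (fun h => hb (h3.mp h))]

theorem single_mul_cyc {K : Type*} [Field K] (n : ℕ) (W : Matrix (Fin (n + 1)) (Fin (n + 1)) K)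
    (hW : ∀ a b, W a b = if b = a + 1 then cycSign K n a else 0) (i j : Fin (n + 1)) (c : K) :
    Matrix.single i j c * W = Matrix.single i (j + 1) (c * cycSign K n j) := by
  ext a b
  by_cases ha : a = i
  · subst ha
    rw [Matrix.single_mul_apply_same, hW]
    by_cases hb : b = j + 1
    · subst hb
      rw [if_pos rfl, Matrix.single_apply_same]
    · rw [if_neg hb, mul_zero, Matrix.single_apply_of_ne]
      exact fun h => hb h.2.symm
  · rw [Matrix.single_mul_apply_of_ne (h := ha), Matrix.single_apply_of_ne]
    exact fun h => ha h.1.symm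

theorem cyc_mul_single {K : Type*} [Field K] (n : ℕ) (W : Matrix (Fin (n + 1)) (Fin (n + 1)) K)
    (hW : ∀ a b, W a b = if b = a + 1 then cycSign K n a else 0) (i j : Fin (n + 1)) (c : K) :
    W * Matrix.single (i + 1) j c = Matrix.single i j (cycSign K n i * c) := by
  ext a b
  by_cases hb : b = j
  · subst hb
    rw [Matrix.mul_single_apply_same, hW]
    by_cases ha : a = i
    · subst ha
      rw [if_pos rfl, Matrix.single_apply_same]
    · have h1 : ¬ (i + 1 = a + 1) := fun h => ha (add_right_cancel h).symm
      rw [if_neg h1, zero_mul, Matrix.single_apply_of_ne]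
      exact fun h => ha h.1.symm
  · rw [Matrix.mul_single_apply_of_ne (hbj := hb), Matrix.single_apply_of_ne]
    exact fun h => hb h.2.symm

/-- Conjugating a transvection by the cycle matrix shifts both indices. -/
theorem transvection_mul_cyc {K : Type*} [Field K] (n : ℕ)
    (w : Matrix.SpecialLinearGroup (Fin (n + 1)) K)
    (hW : ∀ a b, (w : Matrix (Fin (n + 1)) (Fin (n + 1)) K) a b =
      if b = a + 1 then cycSign K n a else 0)
    (i j : Fin (n + 1)) (hij : i ≠ j) (hij' : i + 1 ≠ j + 1) (c : K) :
    Matrix.SpecialLinearGroup.transvection hij' c =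
      w⁻¹ * Matrix.SpecialLinearGroup.transvection hij (cycSign K n i * cycSign K n j * c) * w := by
  have key : w * Matrix.SpecialLinearGroup.transvection hij' c =
      Matrix.SpecialLinearGroup.transvection hij (cycSign K n i * cycSign K n j * c) * w := by
    apply Subtype.ext
    show (w : Matrix (Fin (n + 1)) (Fin (n + 1)) K) * (1 + Matrix.single (i + 1) (j + 1) c) =
      (1 + Matrix.single i j (cycSign K n i * cycSign K n j * c)) *
        (w : Matrix (Fin (n + 1)) (Fin (n + 1)) K)
    rw [mul_add, add_mul, mul_one, one_mul, cyc_mul_single n _ hW, single_mul_cyc n _ hW]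
    congr 2
    have h := cycSign_mul_self K n j
    calc cycSign K n i * c = cycSign K n i * c * (cycSign K n j * cycSign K n j) := by
          rw [h, mul_one]
      _ = cycSign K n i * cycSign K n j * c * cycSign K n j := by ring
  rw [mul_assoc, ← key]
  group

theorem transvection_congr_right {ι F : Type*} [DecidableEq ι] [Fintype ι] [CommRing F]
    {i j j' : ι} (e : j = j') (h : i ≠ j) (h' : i ≠ j') (c : F) :
    Matrix.SpecialLinearGroup.transvection h c = Matrix.SpecialLinearGroup.transvection h' c := by
  subst e
  rfl

theorem transvection_natCast {ι F : Type*} [DecidableEq ι] [Fintype ι] [CommRing F]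
    {i j : ι} (h : i ≠ j) (m : ℕ) :
    Matrix.SpecialLinearGroup.transvection h (m : F) =
      (Matrix.SpecialLinearGroup.transvection h (1 : F)) ^ m := by
  induction m with
  | zero => simp
  | succ m ih => rw [Nat.cast_succ, Matrix.SpecialLinearGroup.transvection_add, ih, pow_succ]

theorem exists_natCast_of_card_le_three {K : Type*} [Field K] [Fintype K]
    (hK : Fintype.card K ≤ 3) (c : K) : ∃ m : ℕ, c = (m : K) := by
  have h2 : 1 < Fintype.card K := Fintype.one_lt_card
  obtain ⟨p, hp⟩ : ∃ p : ℕ, p = Fintype.card K := ⟨_, rfl⟩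
  rw [← hp] at hK h2
  have hpp : p.Prime := by
    interval_cases p
    · exact Nat.prime_two
    · exact Nat.prime_three
  let e := ZMod.ringEquivOfPrime K hpp hp.symm
  haveI : NeZero p := ⟨hpp.ne_zero⟩
  refine ⟨(e.symm c).val, ?_⟩
  have h1 : ((e.symm c).val : ZMod p) = e.symm c := ZMod.natCast_zmod_val _
  have h3 : e ((e.symm c).val : ZMod p) = (((e.symm c).val : ℕ) : K) := map_natCast e _
  rw [← h3, h1, RingEquiv.apply_symm_apply]

/-- A subgroup of `SL_{n+1}(K)` containing the monomial cycle matrix and all transvections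
`t_{01}(c)` is the whole group. -/
theorem eq_top_of_cyc_transvection {K : Type*} [Field K] (n : ℕ) (hn : 1 ≤ n)
    (H : Subgroup (Matrix.SpecialLinearGroup (Fin (n + 1)) K))
    (w : Matrix.SpecialLinearGroup (Fin (n + 1)) K) (hwH : w ∈ H)
    (hW : ∀ a b, (w : Matrix (Fin (n + 1)) (Fin (n + 1)) K) a b =
      if b = a + 1 then cycSign K n a else 0)
    (h01 : ∀ (h : (0 : Fin (n + 1)) ≠ 1) (c : K),
      Matrix.SpecialLinearGroup.transvection h c ∈ H) :
    H = ⊤ := by
  classical
  haveI : Nontrivial (Fin (n + 1)) := Fin.nontrivial_iff_two_le.mpr (by omega)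
  have h10 : (1 : Fin (n + 1)) ≠ 0 := by
    intro h
    have h1 := congrArg Fin.val h
    rw [Fin.val_one', Fin.val_zero] at h1
    have h2 : 1 % (n + 1) = 1 := Nat.mod_eq_of_lt (by omega)
    omega
  have hshift : ∀ i j : Fin (n + 1),
      (∀ (h : i ≠ j) (c : K), Matrix.SpecialLinearGroup.transvection h c ∈ H) →
      ∀ (h : i + 1 ≠ j + 1) (c : K), Matrix.SpecialLinearGroup.transvection h c ∈ H := by
    intro i j hP h c
    have hij : i ≠ j := fun e => h (by rw [e])
    rw [transvection_mul_cyc n w hW i j hij h c]
    exact H.mul_mem (H.mul_mem (H.inv_mem hwH) (hP hij _)) hwH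
  have hcons : ∀ i : Fin (n + 1), ∀ (h : i ≠ i + 1) (c : K),
      Matrix.SpecialLinearGroup.transvection h c ∈ H := by
    intro i
    induction i using Fin.induction with
    | zero =>
      rw [zero_add]
      exact h01
    | succ i ih =>
      have e : i.succ = i.castSucc + 1 := (Fin.coeSucc_eq_succ).symm
      rw [e]
      exact hshift _ _ ih
  have hd : ∀ d : ℕ, ∀ i j : Fin (n + 1), (j - i).val = d → ∀ (h : i ≠ j) (c : K),
      Matrix.SpecialLinearGroup.transvection h c ∈ H := by
    intro d
    induction d with
    | zero =>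
      intro i j hji h c
      exfalso
      apply h
      have h1 : j - i = 0 := Fin.ext hji
      exact (sub_eq_zero.mp h1).symm
    | succ d ih =>
      intro i j hji h c
      have hji0 : j - i ≠ 0 := by
        intro h0
        rw [h0] at hji
        exact absurd hji (by simp)
      have hk : (j - 1 - i).val = d := by
        have e1 : j - 1 - i = (j - i) - 1 := by abel
        rw [e1, Fin.val_sub_one_of_ne_zero hji0, hji]
        rfl
      have e2 : j = j - 1 + 1 := by abel
      have hne2' : j - 1 ≠ j - 1 + 1 := by
        intro h'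
        have h'' : j - 1 + 0 = j - 1 + 1 := by rw [add_zero]; exact h'
        exact h10 (add_left_cancel h'').symm
      have hne2 : j - 1 ≠ j := by
        intro h'
        apply hne2'
        rw [← e2]
        exact h'
      by_cases hd0 : d = 0
      · subst hd0
        have h1 : j - 1 - i = 0 := Fin.ext hk
        have h2 : j - 1 = i := sub_eq_zero.mp h1
        have e' : j = i + 1 := by rw [← h2]; exact e2
        have h' : i ≠ i + 1 := by rw [← e']; exact h
        rw [transvection_congr_right e' h h' c]
        exact hcons i h' c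
      · have hne1 : i ≠ j - 1 := by
          intro h'
          apply hd0
          rw [← hk, ← h', sub_self]
          rfl
        rw [Helper2.transvection_eq_commutator h hne1 hne2 c]
        have m1 := ih i (j - 1) hk hne1 c
        have m2 : Matrix.SpecialLinearGroup.transvection hne2 (1 : K) ∈ H := by
          rw [transvection_congr_right e2 hne2 hne2' 1]
          exact hcons _ hne2' 1
        rw [commutatorElement_def]
        exact H.mul_mem (H.mul_mem (H.mul_mem m1 m2) (H.inv_mem m1)) (H.inv_mem m2)
  have hall : ∀ (i j : Fin (n + 1)) (h : i ≠ j) (c : K),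
      Matrix.SpecialLinearGroup.transvection h c ∈ H := fun i j h c => hd _ i j rfl h c
  refine top_unique ?_
  intro A _
  exact Helper2.transvection_induction (fun A => A ∈ H) hall (fun A B => H.mul_mem) A

end Cfsg.Agent.Helper13
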