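import Mathlib
import Cfsg.Agent.Helper13.SLCycGen

set_option autoImplicit false

namespace Cfsg.Agent.Helper13

open Matrix

/-- Conjugating a transvection by a diagonal matrix scales its coefficient. -/
theorem diag_conj_transvection {ι K : Type*} [Fintype ι] [DecidableEq ι] [Field K]
    (δ : Matrix.SpecialLinearGroup ι K) (d : ι → K)
    (hδ : (δ : Matrix ι ι K) = Matrix.diagonal d)
    {i j : ι} (hij : i ≠ j) (hdj : d j ≠ 0) (c : K) :
    δ * Matrix.SpecialLinearGroup.transvection hij c * δ⁻¹ =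
      Matrix.SpecialLinearGroup.transvection hij (d i * (d j)⁻¹ * c) := by
  have key : δ * Matrix.SpecialLinearGroup.transvection hij c =
      Matrix.SpecialLinearGroup.transvection hij (d i * (d j)⁻¹ * c) * δ := by
    apply Subtype.ext
    show (δ : Matrix ι ι K) * (1 + Matrix.single i j c) =
      (1 + Matrix.single i j (d i * (d j)⁻¹ * c)) * (δ : Matrix ι ι K)
    rw [hδ, mul_add, add_mul, mul_one, one_mul]
    congr 1
    ext a b
    rw [Matrix.diagonal_mul, Matrix.mul_diagonal, Matrix.single_apply, Matrix.single_apply]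
    split_ifs with hab
    · obtain ⟨rfl, rfl⟩ := hab
      field_simp
    · ring
  rw [key]
  group

/-- Conjugating a diagonal matrix by the cycle matrix shifts the diagonal. -/
theorem cyc_conj_diag {K : Type*} [Field K] (n : ℕ)
    (w δ : Matrix.SpecialLinearGroup (Fin (n + 1)) K)
    (hW : ∀ a b, (w : Matrix (Fin (n + 1)) (Fin (n + 1)) K) a b =
      if b = a + 1 then cycSign K n a else 0)
    (d : Fin (n + 1) → K) (hδ : (δ : Matrix (Fin (n + 1)) (Fin (n + 1)) K) = Matrix.diagonal d) :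
    ((w * δ * w⁻¹ : Matrix.SpecialLinearGroup (Fin (n + 1)) K) :
      Matrix (Fin (n + 1)) (Fin (n + 1)) K) = Matrix.diagonal (fun i => d (i + 1)) := by
  have h1 : (Matrix.diagonal (fun i => d (i + 1)) : Matrix (Fin (n + 1)) (Fin (n + 1)) K) *
      (w : Matrix (Fin (n + 1)) (Fin (n + 1)) K) =
      (w : Matrix (Fin (n + 1)) (Fin (n + 1)) K) * Matrix.diagonal d := by
    ext a b
    rw [Matrix.diagonal_mul, Matrix.mul_diagonal, hW]
    split_ifs with hb
    · rw [hb]; ring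
    · ring
  have h2 : ((w * δ * w⁻¹ : Matrix.SpecialLinearGroup (Fin (n + 1)) K) :
      Matrix (Fin (n + 1)) (Fin (n + 1)) K) =
      (w : Matrix (Fin (n + 1)) (Fin (n + 1)) K) * Matrix.diagonal d *
        ((w⁻¹ : Matrix.SpecialLinearGroup (Fin (n + 1)) K) :
          Matrix (Fin (n + 1)) (Fin (n + 1)) K) := by
    rw [Matrix.SpecialLinearGroup.coe_mul, Matrix.SpecialLinearGroup.coe_mul, hδ]
  rw [h2, ← h1, Matrix.mul_assoc, ← Matrix.SpecialLinearGroup.coe_mul, mul_inv_cancel,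
    Matrix.SpecialLinearGroup.coe_one, Matrix.mul_one]

/-- Over a finite field with more than three elements, `SL_{n+1}` is generated by
`diag(k, k⁻¹, 1, …, 1)` (`k` a generator of the multiplicative group) and `(1 + E₁₂)·w`. -/
theorem closure_diag_cyc_eq_top {K : Type*} [Field K] [Fintype K] (hK : 3 < Fintype.card K)
    (n : ℕ) (hn : 1 ≤ n) (k : Kˣ) (hk : ∀ u : Kˣ, u ∈ Subgroup.zpowers k)
    (h x w : Matrix.SpecialLinearGroup (Fin (n + 1)) K)
    (hh : (h : Matrix (Fin (n + 1)) (Fin (n + 1)) K) =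
      Matrix.diagonal (fun i => if i.val = 0 then (k : K) else
        if i.val = 1 then ((k⁻¹ : Kˣ) : K) else 1))
    (hx : (x : Matrix (Fin (n + 1)) (Fin (n + 1)) K) =
      Matrix.transvection (0 : Fin (n + 1)) (1 : Fin (n + 1)) 1)
    (hW : ∀ a b, (w : Matrix (Fin (n + 1)) (Fin (n + 1)) K) a b =
      if b = a + 1 then cycSign K n a else 0) :
    Subgroup.closure ({h, x * w} : Set (Matrix.SpecialLinearGroup (Fin (n + 1)) K)) = ⊤ := by
  classical
  have h10 : (1 : Fin (n + 1)) ≠ 0 := by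
    intro h
    have h1 := congrArg Fin.val h
    rw [Fin.val_one', Fin.val_zero] at h1
    have h2 : 1 % (n + 1) = 1 := Nat.mod_eq_of_lt (by omega)
    omega
  have h01 : (0 : Fin (n + 1)) ≠ 1 := h10.symm
  obtain ⟨G₁, hG₁⟩ : ∃ G₁ : Subgroup (Matrix.SpecialLinearGroup (Fin (n + 1)) K),
    G₁ = Subgroup.closure {h, x * w} := ⟨_, rfl⟩
  rw [← hG₁]
  have hhG : h ∈ G₁ := by rw [hG₁]; exact Subgroup.subset_closure (by simp)
  have hyG : x * w ∈ G₁ := by rw [hG₁]; exact Subgroup.subset_closure (by simp)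
  obtain ⟨d, hd⟩ : ∃ d : Fin (n + 1) → K, ∀ i : Fin (n + 1), d i = if i.val = 0 then (k : K) else
    if i.val = 1 then ((k⁻¹ : Kˣ) : K) else 1 := ⟨_, fun i => rfl⟩
  have hh2 : (h : Matrix (Fin (n + 1)) (Fin (n + 1)) K) = Matrix.diagonal d := by
    rw [hh]
    congr 1
    funext i
    exact (hd i).symm
  clear hh
  have hh := hh2
  have hk0 : (k : K) ≠ 0 := k.ne_zero
  have hd0 : d 0 = k := by rw [hd]; simp
  have hv1 : (1 : Fin (n + 1)).val = 1 := by
    rw [Fin.val_one']; exact Nat.mod_eq_of_lt (by omega)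
  have hd1 : d 1 = (k : K)⁻¹ := by
    rw [hd]
    simp only [hv1]
    simp
  have hk2 : (k : K) ^ 2 ≠ 1 := by
    intro hk2
    have hk2' : k ^ 2 = 1 := Units.ext (by rw [Units.val_pow_eq_pow_val, hk2]; rfl)
    have ho : orderOf k ∣ 2 := orderOf_dvd_of_pow_eq_one hk2'
    have hle : orderOf k ≤ 2 := Nat.le_of_dvd (by norm_num) ho
    have htop : Subgroup.zpowers k = ⊤ := by
      rw [eq_top_iff]; intro u _; exact hk u
    have hcard : Nat.card (Subgroup.zpowers k) = orderOf k := Nat.card_zpowers k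
    rw [htop, Subgroup.card_top, Nat.card_eq_fintype_card, Fintype.card_units] at hcard
    omega
  have hk1 : (k : K) ≠ 1 := by
    intro h1
    apply hk2
    rw [h1, one_pow]
  have hd2 : d (1 + 1) ≠ 0 ∧ d 1 * (d (1 + 1))⁻¹ ≠ 1 := by
    by_cases hn1 : n = 1
    · subst hn1
      have e : (1 : Fin 2) + 1 = 0 := by decide
      rw [e, hd0, hd1]
      refine ⟨hk0, ?_⟩
      intro h'
      apply hk2
      have h'' : ((k : K) ^ 2)⁻¹ = 1 := by rw [pow_two, mul_inv]; exact h'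
      exact inv_eq_one.mp h''
    · have hv2 : ((1 : Fin (n + 1)) + 1).val = 2 := by
        rw [Fin.val_add_one_of_lt (by rw [Fin.lt_def, Fin.val_last, hv1]; omega), hv1]
      have hd2' : d (1 + 1) = 1 := by
        rw [hd]
        simp only [hv2]
        simp
      rw [hd2', hd1]
      refine ⟨one_ne_zero, ?_⟩
      rw [inv_one, mul_one]
      intro h'
      exact hk1 (inv_eq_one.mp h')
  obtain ⟨T, hT⟩ : ∃ T : K → Matrix.SpecialLinearGroup (Fin (n + 1)) K,
    T = fun c => Matrix.SpecialLinearGroup.transvection h01 c := ⟨_, rfl⟩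
  have hTadd : ∀ a b : K, T (a + b) = T a * T b := by
    intro a b; rw [hT]; exact Matrix.SpecialLinearGroup.transvection_add h01 a b
  have hTinv : ∀ a : K, (T a)⁻¹ = T (-a) := by
    intro a; rw [hT]; exact Matrix.SpecialLinearGroup.transvection_inv h01 a
  have hT0 : T 0 = 1 := by
    rw [hT]; exact Matrix.SpecialLinearGroup.transvection_coeff_zero h01
  have hxT : x = T 1 := by rw [hT]; exact Subtype.ext hx
  have hconj_h : ∀ c : K, h * T c * h⁻¹ = T ((k : K) ^ 2 * c) := by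
    intro c
    rw [hT]
    show h * Matrix.SpecialLinearGroup.transvection h01 c * h⁻¹ = _
    rw [diag_conj_transvection h d hh h01 (by rw [hd1]; exact inv_ne_zero hk0) c, hd0, hd1,
      inv_inv, pow_two]
  obtain ⟨h', hh'def⟩ : ∃ h' : Matrix.SpecialLinearGroup (Fin (n + 1)) K, h' = w * h * w⁻¹ :=
    ⟨_, rfl⟩
  have hh' : (h' : Matrix (Fin (n + 1)) (Fin (n + 1)) K) = Matrix.diagonal (fun i => d (i + 1)) := by
    rw [hh'def]; exact cyc_conj_diag n w h hW d hh
  obtain ⟨e, he⟩ : ∃ e : K, e = d (0 + 1) * (d (1 + 1))⁻¹ := ⟨_, rfl⟩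
  have he1 : e ≠ 1 := by rw [he, zero_add]; exact hd2.2
  have hconj_h' : ∀ c : K, h' * T c * h'⁻¹ = T (e * c) := by
    intro c
    rw [hT, he]
    exact diag_conj_transvection h' _ hh' h01 hd2.1 c
  have hcomm : h * h' = h' * h := by
    apply Subtype.ext
    rw [Matrix.SpecialLinearGroup.coe_mul, Matrix.SpecialLinearGroup.coe_mul, hh', hh,
      Matrix.diagonal_mul_diagonal, Matrix.diagonal_mul_diagonal]
    congr 1
    funext i
    ring
  have hgG : (x * w) * h * (x * w)⁻¹ ∈ G₁ := G₁.mul_mem (G₁.mul_mem hyG hhG) (G₁.inv_mem hyG)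
  have hg : (x * w) * h * (x * w)⁻¹ = T (1 - e) * h' := by
    have h1 : (x * w) * h * (x * w)⁻¹ = x * (w * h * w⁻¹) * x⁻¹ := by group
    have h2 := hconj_h' 1
    rw [mul_one] at h2
    rw [h1, ← hh'def, hxT]
    have h3 : T 1 * h' * (T 1)⁻¹ = T 1 * (h' * T 1 * h'⁻¹)⁻¹ * h' := by group
    rw [h3, h2, hTinv, ← hTadd, sub_eq_add_neg]
  obtain ⟨c₁, hc₁⟩ : ∃ c₁ : K, c₁ = ((k : K) ^ 2 - 1) * (1 - e) := ⟨_, rfl⟩
  have hc₁0 : c₁ ≠ 0 := by
    rw [hc₁]
    exact mul_ne_zero (sub_ne_zero.mpr hk2) (sub_ne_zero.mpr he1.symm)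
  have hc1 : T c₁ ∈ G₁ := by
    have hcomm' : h' * h⁻¹ = h⁻¹ * h' := by
      rw [eq_inv_mul_iff_mul_eq, ← mul_assoc, hcomm, mul_assoc, mul_inv_cancel, mul_one]
    have h4 : h * (T (1 - e) * h') * h⁻¹ * (T (1 - e) * h')⁻¹ =
        (h * T (1 - e) * h⁻¹) * (T (1 - e))⁻¹ := by
      calc h * (T (1 - e) * h') * h⁻¹ * (T (1 - e) * h')⁻¹
          = h * T (1 - e) * (h' * h⁻¹) * h'⁻¹ * (T (1 - e))⁻¹ := by group
        _ = h * T (1 - e) * (h⁻¹ * h') * h'⁻¹ * (T (1 - e))⁻¹ := by rw [hcomm']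
        _ = (h * T (1 - e) * h⁻¹) * (T (1 - e))⁻¹ := by group
    have h5 : h * (T (1 - e) * h') * h⁻¹ * (T (1 - e) * h')⁻¹ ∈ G₁ := by
      rw [← hg]
      exact G₁.mul_mem (G₁.mul_mem (G₁.mul_mem hhG hgG) (G₁.inv_mem hhG)) (G₁.inv_mem hgG)
    rw [h4, hconj_h, hTinv, ← hTadd] at h5
    have e' : (k : K) ^ 2 * (1 - e) + -(1 - e) = c₁ := by rw [hc₁]; ring
    rw [e'] at h5
    exact h5
  have hS1 : ∀ c : K, T c ∈ G₁ → T ((k : K) ^ 2 * c) ∈ G₁ := by
    intro c hc
    rw [← hconj_h]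
    exact G₁.mul_mem (G₁.mul_mem hhG hc) (G₁.inv_mem hhG)
  have hS2 : ∀ (j : ℕ) (c : K), T c ∈ G₁ → T (((k : K) ^ j) ^ 2 * c) ∈ G₁ := by
    intro j
    induction j with
    | zero => intro c hc; rw [pow_zero, one_pow, one_mul]; exact hc
    | succ j ih =>
      intro c hc
      have e' : ((k : K) ^ (j + 1)) ^ 2 * c = (k : K) ^ 2 * (((k : K) ^ j) ^ 2 * c) := by ring
      rw [e']
      exact hS1 _ (ih c hc)
  have hS3 : ∀ (a c : K), T c ∈ G₁ → T (a ^ 2 * c) ∈ G₁ := by
    intro a c hc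
    by_cases ha : a = 0
    · have e' : a ^ 2 * c = 0 := by rw [ha]; ring
      rw [e', hT0]
      exact G₁.one_mem
    · obtain ⟨j, hj⟩ := (mem_powers_iff_mem_zpowers.mpr (hk (Units.mk0 a ha)))
      have e' : a = (k : K) ^ j := by
        have h1 := congrArg Units.val hj
        rw [Units.val_mk0] at h1
        rw [← h1]
        exact (Units.val_pow_eq_pow_val k j)
      rw [e']
      exact hS2 j c hc
  have hall : ∀ c : K, T c ∈ G₁ := by
    intro c
    by_cases h2 : (2 : K) = 0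
    · have hchar : ringChar K = 2 :=
        CharP.ringChar_of_prime_eq_zero Nat.prime_two (by exact_mod_cast h2)
      obtain ⟨v, hv⟩ := FiniteField.isSquare_of_char_two hchar (c₁⁻¹ * c)
      have e' : c = v ^ 2 * c₁ := by
        rw [pow_two, ← hv]
        field_simp
      rw [e']
      exact hS3 v c₁ hc1
    · have e' : c = ((c₁⁻¹ * c + 1) / 2) ^ 2 * c₁ + -(((c₁⁻¹ * c - 1) / 2) ^ 2 * c₁) := by
        field_simp
        ring
      rw [e', hTadd, ← hTinv]
      exact G₁.mul_mem (hS3 _ c₁ hc1) (G₁.inv_mem (hS3 _ c₁ hc1))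
  have hxG : x ∈ G₁ := by rw [hxT]; exact hall 1
  have hwG : w ∈ G₁ := by
    have e' : w = x⁻¹ * (x * w) := by group
    rw [e']
    exact G₁.mul_mem (G₁.inv_mem hxG) hyG
  refine eq_top_of_cyc_transvection n hn G₁ w hwG hW (fun _ c => ?_)
  have h1 := hall c
  rw [hT] at h1
  exact h1

end Cfsg.Agent.Helper13
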