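import Cfsg.Agent.Helper13.IndReal
import Cfsg.Agent.Helper2.CharOrtho
import Cfsg.Agent.Helper2.ConjClass
import Cfsg.Agent.Helper2.CharReg
import Cfsg.Agent.Helper2.CharInner
import Cfsg.Agent.Helper2.CharNat
import Cfsg.Agent.Helper2.CharLinear
import Cfsg.Agent.Helper6.DetTrace

set_option autoImplicit false

namespace Cfsg.Agent.Helper13

open Cfsg
open scoped ComplexConjugate

namespace SelfCentP

section GroupTheory

variable {G : Type*} [Group G] [Finite G] {p : ℕ} {x : G}

theorem comm_of_mem {a b : G} (ha : a ∈ Subgroup.zpowers x) (hb : b ∈ Subgroup.zpowers x) :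
    a * b = b * a := by
  obtain ⟨i, rfl⟩ := Subgroup.mem_zpowers_iff.1 ha
  obtain ⟨j, rfl⟩ := Subgroup.mem_zpowers_iff.1 hb
  exact zpow_mul_comm x i j

/-- An element commuting with a nontrivial element of the self-centralizing subgroup of
prime order lies in it. -/
theorem mem_of_commute (hp : p.Prime) (hx : orderOf x = p)
    (hC : Subgroup.centralizer ({x} : Set G) = Subgroup.zpowers x)
    {z g : G} (hz : z ∈ Subgroup.zpowers x) (hz1 : z ≠ 1) (hcomm : g * z = z * g) :
    g ∈ Subgroup.zpowers x := by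
  haveI : Fact p.Prime := ⟨hp⟩
  have hcard : Nat.card (Subgroup.zpowers x) = p := by rw [Nat.card_zpowers, hx]
  have hz' : (⟨z, hz⟩ : Subgroup.zpowers x) ≠ 1 := by
    intro h
    exact hz1 (congrArg Subtype.val h)
  have htop := zpowers_eq_top_of_prime_card hcard hz'
  have hxmem : (⟨x, Subgroup.mem_zpowers x⟩ : Subgroup.zpowers x)
      ∈ Subgroup.zpowers (⟨z, hz⟩ : Subgroup.zpowers x) := by
    rw [htop]
    exact Subgroup.mem_top _
  obtain ⟨k, hk⟩ := Subgroup.mem_zpowers_iff.1 hxmem
  have hk' : z ^ k = x := by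
    have := congrArg Subtype.val hk
    simpa using this
  rw [← hC, Subgroup.mem_centralizer_iff]
  intro y hy
  rw [Set.mem_singleton_iff] at hy
  rw [hy, ← hk']
  have hc : Commute g z := hcomm
  exact (hc.zpow_right k).eq.symm

theorem ne_one_of_order (hp : p.Prime) {g : G} (hg : orderOf g = p) : g ≠ 1 := by
  intro h
  rw [h, orderOf_one] at hg
  exact hp.one_lt.ne hg

theorem order_of_mem (hp : p.Prime) (hx : orderOf x = p) {g : G} (hg : g ∈ Subgroup.zpowers x)
    (hg1 : g ≠ 1) : orderOf g = p := by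
  have h1 := orderOf_dvd_of_mem_zpowers hg
  rw [hx] at h1
  rcases (Nat.dvd_prime hp).1 h1 with h | h
  · exact absurd (orderOf_eq_one_iff.1 h) hg1
  · exact h

/-- The self-centralizing subgroup of prime order is a Sylow subgroup. -/
theorem exists_sylow_eq (hp : p.Prime) (hx : orderOf x = p)
    (hC : Subgroup.centralizer ({x} : Set G) = Subgroup.zpowers x) :
    ∃ Q : Sylow p G, (Q : Subgroup G) = Subgroup.zpowers x := by
  haveI : Fact p.Prime := ⟨hp⟩
  have hcard : Nat.card (Subgroup.zpowers x) = p := by rw [Nat.card_zpowers, hx]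
  have hPp : IsPGroup p (Subgroup.zpowers x) :=
    IsPGroup.of_card (n := 1) (by rw [hcard, pow_one])
  obtain ⟨Q, hQ⟩ := hPp.exists_le_sylow
  refine ⟨Q, le_antisymm ?_ hQ⟩
  have hx1 : x ≠ 1 := ne_one_of_order hp hx
  haveI : Nontrivial (Q : Subgroup G) :=
    ⟨⟨⟨x, hQ (Subgroup.mem_zpowers x)⟩, 1, fun h => hx1 (congrArg Subtype.val h)⟩⟩
  haveI := Q.isPGroup'.center_nontrivial
  obtain ⟨z, hz1⟩ := exists_ne (1 : Subgroup.center (Q : Subgroup G))
  have hzc : ∀ q : (Q : Subgroup G), q * (z : (Q : Subgroup G)) = (z : (Q : Subgroup G)) * q :=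
    fun q => Subgroup.mem_center_iff.1 z.2 q
  have hzG : ∀ q : G, q ∈ (Q : Subgroup G) →
      q * ((z : (Q : Subgroup G)) : G) = ((z : (Q : Subgroup G)) : G) * q := by
    intro q hq
    exact congrArg Subtype.val (hzc ⟨q, hq⟩)
  have hz1' : ((z : (Q : Subgroup G)) : G) ≠ 1 := by
    intro h
    apply hz1
    exact Subtype.ext (Subtype.ext h)
  have hzP : ((z : (Q : Subgroup G)) : G) ∈ Subgroup.zpowers x := by
    rw [← hC, Subgroup.mem_centralizer_iff]
    intro y hy
    rw [Set.mem_singleton_iff] at hy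
    rw [hy]
    exact hzG x (hQ (Subgroup.mem_zpowers x))
  intro q hq
  exact mem_of_commute hp hx hC hzP hz1' (hzG q hq)

/-- Every element of order `p` is conjugate into the self-centralizing subgroup. -/
theorem exists_conj_mem (hp : p.Prime) (hx : orderOf x = p)
    (hC : Subgroup.centralizer ({x} : Set G) = Subgroup.zpowers x) {g : G}
    (hg : orderOf g = p) : ∃ c : G, c⁻¹ * g * c ∈ Subgroup.zpowers x := by
  haveI : Fact p.Prime := ⟨hp⟩
  obtain ⟨Q, hQ⟩ := exists_sylow_eq hp hx hC
  have hgp : IsPGroup p (Subgroup.zpowers g) :=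
    IsPGroup.of_card (n := 1) (by rw [Nat.card_zpowers, hg, pow_one])
  obtain ⟨Q', hQ'⟩ := hgp.exists_le_sylow
  obtain ⟨c, hc⟩ := MulAction.exists_smul_eq G Q Q'
  refine ⟨c, ?_⟩
  have hgQ' : g ∈ (Q' : Subgroup G) := hQ' (Subgroup.mem_zpowers g)
  rw [← hc, Sylow.smul_def, Sylow.pointwise_smul_def,
    Subgroup.mem_pointwise_smul_iff_inv_smul_mem] at hgQ'
  rw [← hQ]
  simpa [MulAut.smul_def, mul_assoc] using hgQ'

/-- Fusion of nontrivial elements of the self-centralizing subgroup is controlled by its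
normalizer. -/
theorem mem_normalizer_of_conj (hp : p.Prime) (hx : orderOf x = p)
    (hC : Subgroup.centralizer ({x} : Set G) = Subgroup.zpowers x) {a c : G}
    (ha : a ∈ Subgroup.zpowers x) (ha1 : a ≠ 1) (hb : c⁻¹ * a * c ∈ Subgroup.zpowers x) :
    c ∈ Subgroup.normalizer ((Subgroup.zpowers x : Subgroup G) : Set G) := by
  rw [Subgroup.mem_normalizer_iff]
  have hb1 : c⁻¹ * a * c ≠ 1 := by
    intro h
    apply ha1
    have h2 : a = c * (c⁻¹ * a * c) * c⁻¹ := by group
    rw [h2, h]
    group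
  intro h
  constructor
  · intro hh
    apply mem_of_commute hp hx hC ha ha1
    have h1 := comm_of_mem hh hb
    calc c * h * c⁻¹ * a = c * (h * (c⁻¹ * a * c)) * c⁻¹ := by group
      _ = c * ((c⁻¹ * a * c) * h) * c⁻¹ := by rw [h1]
      _ = a * (c * h * c⁻¹) := by group
  · intro hh
    apply mem_of_commute hp hx hC hb hb1
    have h1 := comm_of_mem hh ha
    calc h * (c⁻¹ * a * c) = c⁻¹ * ((c * h * c⁻¹) * a) * c := by group
      _ = c⁻¹ * (a * (c * h * c⁻¹)) * c := by rw [h1]
      _ = c⁻¹ * a * c * h := by group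

theorem orderOf_conj_eq (c h : G) : orderOf (c * h * c⁻¹) = orderOf h := by
  rw [← MulAut.conj_apply]
  exact MulEquiv.orderOf_eq _ _

/-- Double counting: sums over the nontrivial elements of the self-centralizing subgroup
against sums over all elements of order `p`. -/
theorem sum_count {K : Type*} [CommSemiring K] [Fintype G] [DecidableEq G] (hp : p.Prime)
    (hx : orderOf x = p) (hC : Subgroup.centralizer ({x} : Set G) = Subgroup.zpowers x)
    (F : G → K) (hF : ∀ g c : G, F (c * g * c⁻¹) = F g) :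
    (Nat.card G : K) * ∑ g : G, (if g ∈ Subgroup.zpowers x ∧ g ≠ 1 then F g else 0)
      = (Nat.card (Subgroup.normalizer ((Subgroup.zpowers x : Subgroup G) : Set G)) : K)
        * ∑ g : G, (if orderOf g = p then F g else 0) := by
  classical
  have hPiff : ∀ h : G, (orderOf h = p ∧ h ∈ Subgroup.zpowers x)
      ↔ (h ∈ Subgroup.zpowers x ∧ h ≠ 1) := by
    intro h
    constructor
    · rintro ⟨h1, h2⟩
      exact ⟨h2, ne_one_of_order hp h1⟩
    · rintro ⟨h1, h2⟩
      exact ⟨order_of_mem hp hx h1 h2, h1⟩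
  have h1 : ∀ c : G,
      ∑ g : G, (if orderOf g = p ∧ c⁻¹ * g * c ∈ Subgroup.zpowers x then F g else 0)
        = ∑ h : G, (if h ∈ Subgroup.zpowers x ∧ h ≠ 1 then F h else 0) := by
    intro c
    refine (Fintype.sum_equiv (MulAut.conj c).toEquiv _ _ (fun h => ?_)).symm
    show (if h ∈ Subgroup.zpowers x ∧ h ≠ 1 then F h else 0)
      = (if orderOf (c * h * c⁻¹) = p ∧ c⁻¹ * (c * h * c⁻¹) * c ∈ Subgroup.zpowers x
          then F (c * h * c⁻¹) else 0)
    have e1 : c⁻¹ * (c * h * c⁻¹) * c = h := by group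
    rw [e1, orderOf_conj_eq, hF]
    exact if_congr (hPiff h).symm rfl rfl
  have h2 : ∀ g : G,
      ∑ c : G, (if orderOf g = p ∧ c⁻¹ * g * c ∈ Subgroup.zpowers x then F g else 0)
        = (Nat.card (Subgroup.normalizer ((Subgroup.zpowers x : Subgroup G) : Set G)) : K)
          * (if orderOf g = p then F g else 0) := by
    intro g
    by_cases hg : orderOf g = p
    · obtain ⟨d, hd⟩ := exists_conj_mem hp hx hC hg
      have hd1 : d⁻¹ * g * d ≠ 1 := by
        intro h
        apply ne_one_of_order hp hg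
        have h2 : g = d * (d⁻¹ * g * d) * d⁻¹ := by group
        rw [h2, h]
        group
      have hiff : ∀ c : G, (orderOf g = p ∧ c⁻¹ * g * c ∈ Subgroup.zpowers x)
          ↔ d⁻¹ * c ∈ Subgroup.normalizer ((Subgroup.zpowers x : Subgroup G) : Set G) := by
        intro c
        have e : (d⁻¹ * c)⁻¹ * (d⁻¹ * g * d) * (d⁻¹ * c) = c⁻¹ * g * c := by group
        constructor
        · rintro ⟨-, hc⟩
          apply mem_normalizer_of_conj hp hx hC hd hd1
          rw [e]
          exact hc
        · intro hc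
          refine ⟨hg, ?_⟩
          have h3 := (Subgroup.mem_normalizer_iff''.1 hc (d⁻¹ * g * d)).1 hd
          rw [e] at h3
          exact h3
      rw [if_pos hg]
      calc ∑ c : G, (if orderOf g = p ∧ c⁻¹ * g * c ∈ Subgroup.zpowers x then F g else 0)
          = ∑ c : G, (if d⁻¹ * c
              ∈ Subgroup.normalizer ((Subgroup.zpowers x : Subgroup G) : Set G)
              then F g else 0) :=
            Finset.sum_congr rfl (fun c _ => if_congr (hiff c) rfl rfl)
        _ = ∑ c : G, (if c ∈ Subgroup.normalizer ((Subgroup.zpowers x : Subgroup G) : Set G)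
              then F g else 0) :=
            Fintype.sum_equiv (Equiv.mulLeft d⁻¹) _ _ (fun c => rfl)
        _ = _ := by
            rw [← Finset.sum_filter, Finset.sum_const, nsmul_eq_mul]
            congr 2
            rw [Nat.card_eq_fintype_card]
            exact (Fintype.card_of_subtype _ (by simp)).symm
    · rw [if_neg hg, mul_zero]
      exact Finset.sum_eq_zero (fun c _ => if_neg (fun h => hg h.1))
  calc (Nat.card G : K) * ∑ g : G, (if g ∈ Subgroup.zpowers x ∧ g ≠ 1 then F g else 0)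
      = ∑ c : G, ∑ g : G,
          (if orderOf g = p ∧ c⁻¹ * g * c ∈ Subgroup.zpowers x then F g else 0) := by
        rw [Finset.sum_congr rfl (fun c _ => h1 c), Finset.sum_const, Finset.card_univ,
          nsmul_eq_mul, Nat.card_eq_fintype_card]
    _ = ∑ g : G, ∑ c : G,
          (if orderOf g = p ∧ c⁻¹ * g * c ∈ Subgroup.zpowers x then F g else 0) :=
        Finset.sum_comm
    _ = _ := by rw [Finset.sum_congr rfl (fun g _ => h2 g), Finset.mul_sum]

end GroupTheory

section Count

variable {G : Type*} [Group G] [Fintype G] {p : ℕ} {x : G}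

theorem sum_subgroup_eq {M : Type*} [AddCommMonoid M] (H : Subgroup G) [Fintype H]
    [DecidablePred (· ∈ H)] (f : G → M) :
    ∑ a : H, f a = ∑ g : G, if g ∈ H then f g else 0 := by
  rw [← Finset.sum_filter]
  exact (Finset.sum_subtype (Finset.univ.filter (· ∈ H)) (by simp) f).symm

theorem split_ne_one {M : Type*} [AddCommMonoid M] [DecidableEq G] (H : Subgroup G)
    [DecidablePred (· ∈ H)] (f : G → M) :
    ∑ g : G, (if g ∈ H then f g else 0)
      = ∑ g : G, (if g ∈ H ∧ g ≠ 1 then f g else 0) + f 1 := by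
  have h1 : ∀ g : G, (if g ∈ H then f g else 0)
      = (if g ∈ H ∧ g ≠ 1 then f g else 0) + (if g = 1 then f g else 0) := by
    intro g
    by_cases hg1 : g = 1
    · rw [if_pos (by rw [hg1]; exact Subgroup.one_mem _), if_neg (fun h => h.2 hg1), if_pos hg1,
        zero_add]
    · by_cases hg : g ∈ H
      · rw [if_pos hg, if_pos ⟨hg, hg1⟩, if_neg hg1, add_zero]
      · rw [if_neg hg, if_neg (fun h => hg h.1), if_neg hg1, add_zero]
  rw [Finset.sum_congr rfl (fun g _ => h1 g), Finset.sum_add_distrib, Finset.sum_ite_eq',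
    if_pos (Finset.mem_univ _)]

theorem sum_mem_ne_one [DecidableEq G] (hx : orderOf x = p) :
    ∑ g : G, (if g ∈ Subgroup.zpowers x ∧ g ≠ 1 then 1 else 0 : ℕ) + 1 = p := by
  classical
  have h2 : ∑ g : G, (if g ∈ Subgroup.zpowers x then 1 else 0 : ℕ) = p := by
    rw [← Finset.sum_filter, Finset.sum_const, smul_eq_mul, mul_one, ← hx, ← Nat.card_zpowers,
      Nat.card_eq_fintype_card]
    exact (Fintype.card_of_subtype _ (by simp)).symm
  rw [← h2]
  exact (split_ne_one (Subgroup.zpowers x) (fun _ => (1 : ℕ))).symm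

/-- The number of classes of elements of order `p` times the order of the normalizer. -/
theorem card_classes_mul (hp : p.Prime) (hx : orderOf x = p)
    (hC : Subgroup.centralizer ({x} : Set G) = Subgroup.zpowers x) :
    Nat.card {C : ConjClasses G // ∃ g ∈ C.carrier, orderOf g = p}
      * Nat.card (Subgroup.normalizer ((Subgroup.zpowers x : Subgroup G) : Set G))
      = p * (p - 1) := by
  classical
  have hcount := sum_count (K := ℕ) hp hx hC (fun _ => 1) (fun _ _ => rfl)
  have hP := sum_mem_ne_one (G := G) hx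
  have hPm : ∑ g : G, (if g ∈ Subgroup.zpowers x ∧ g ≠ 1 then 1 else 0 : ℕ) = p - 1 := by omega
  simp only [Nat.cast_id] at hcount
  rw [hPm] at hcount
  obtain ⟨cnt, hcnt⟩ : ∃ cnt : ℕ, cnt = ∑ g : G, (if orderOf g = p then 1 else 0 : ℕ) :=
    ⟨_, rfl⟩
  rw [← hcnt] at hcount
  have hw := Helper2.sum_class_weight (G := G)
    (fun C : ConjClasses G => ∃ g ∈ C.carrier, orderOf g = p)
  have hiff : ∀ g : G, (∃ h ∈ (ConjClasses.mk g).carrier, orderOf h = p) ↔ orderOf g = p := by
    intro g
    constructor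
    · rintro ⟨h, hh, ho⟩
      rw [ConjClasses.mem_carrier_iff_mk_eq, ConjClasses.mk_eq_mk_iff_isConj, isConj_iff] at hh
      obtain ⟨c, hc⟩ := hh
      rw [← hc, orderOf_conj_eq]
      exact ho
    · intro ho
      exact ⟨g, ConjClasses.mem_carrier_mk, ho⟩
  have hp0 : (p : ℂ) ≠ 0 := Nat.cast_ne_zero.2 hp.ne_zero
  have hG0 : (Nat.card G : ℂ) ≠ 0 := Nat.cast_ne_zero.2 Nat.card_pos.ne'
  have hcls : ∀ g : G, orderOf g = p →
      (Nat.card {y : G // IsConj y g} : ℂ)⁻¹ = (p : ℂ) / (Nat.card G : ℂ) := by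
    intro g hg
    obtain ⟨c, hc⟩ := exists_conj_mem hp hx hC hg
    have hc1 : c⁻¹ * g * c ≠ 1 := by
      intro h
      apply ne_one_of_order hp hg
      have h2 : g = c * (c⁻¹ * g * c) * c⁻¹ := by group
      rw [h2, h]
      group
    have hcent : Subgroup.centralizer ({c⁻¹ * g * c} : Set G) = Subgroup.zpowers x := by
      ext h
      rw [Subgroup.mem_centralizer_iff]
      constructor
      · intro hh
        apply mem_of_commute hp hx hC hc hc1
        exact (hh _ (Set.mem_singleton _)).symm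
      · intro hh y hy
        rw [Set.mem_singleton_iff] at hy
        rw [hy]
        exact comm_of_mem hc hh
    have hconj : IsConj g (c⁻¹ * g * c) := isConj_iff.2 ⟨c⁻¹, by group⟩
    have h1 := Helper2.card_conj_mul_card_centralizer g
    rw [Helper2.card_centralizer_eq_of_isConj hconj, hcent, Nat.card_zpowers, hx] at h1
    have h2 : (Nat.card {y : G // IsConj y g} : ℂ) * p = Nat.card G := by exact_mod_cast h1
    have hc0 : (Nat.card {y : G // IsConj y g} : ℂ) ≠ 0 := by
      intro h
      rw [h, zero_mul] at h2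
      exact hG0 h2.symm
    rw [← h2]
    field_simp
  have hsum : (Nat.card {C : ConjClasses G // ∃ g ∈ C.carrier, orderOf g = p} : ℂ)
      = (p : ℂ) / (Nat.card G : ℂ) * (cnt : ℂ) := by
    rw [← hw, hcnt, Nat.cast_sum, Finset.mul_sum]
    refine Finset.sum_congr rfl (fun g _ => ?_)
    by_cases hg : orderOf g = p
    · rw [if_pos ((hiff g).2 hg), if_pos hg, hcls g hg, Nat.cast_one, mul_one]
    · rw [if_neg (fun h => hg ((hiff g).1 h)), if_neg hg, Nat.cast_zero, mul_zero]
  have hcC : (Nat.card G : ℂ) * ((p - 1 : ℕ) : ℂ)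
      = (Nat.card (Subgroup.normalizer ((Subgroup.zpowers x : Subgroup G) : Set G)) : ℂ)
        * (cnt : ℂ) := by exact_mod_cast hcount
  have hfin : ((Nat.card {C : ConjClasses G // ∃ g ∈ C.carrier, orderOf g = p}
      * Nat.card (Subgroup.normalizer ((Subgroup.zpowers x : Subgroup G) : Set G)) : ℕ) : ℂ)
      = ((p * (p - 1) : ℕ) : ℂ) := by
    rw [Nat.cast_mul, Nat.cast_mul, hsum]
    field_simp
    linear_combination (-1 : ℂ) * hcC
  exact_mod_cast hfin

/-- The squared values of an irreducible character on the nontrivial elements of the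
self-centralizing subgroup sum to less than the order of its normalizer. -/
theorem sum_normSq_lt (hp : p.Prime) (hx : orderOf x = p)
    (hC : Subgroup.centralizer ({x} : Set G) = Subgroup.zpowers x) [DecidableEq G]
    {χ : G → ℂ} (hχ : IsIrrCharacter G χ) :
    ∑ g : G, (if g ∈ Subgroup.zpowers x ∧ g ≠ 1 then Complex.normSq (χ g) else 0)
      < (Nat.card (Subgroup.normalizer ((Subgroup.zpowers x : Subgroup G) : Set G)) : ℝ) := by
  classical
  have hcf := Helper2.IsIrrCharacter.isClassFunction hχ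
  have hcount := sum_count (K := ℝ) hp hx hC (fun g => Complex.normSq (χ g))
    (fun g c => by rw [hcf g c])
  have hG0 : (Nat.card G : ℂ) ≠ 0 := Nat.cast_ne_zero.2 Nat.card_pos.ne'
  have hnorm : ∑ g : G, Complex.normSq (χ g) = (Nat.card G : ℝ) := by
    have h1 := Helper2.classInner_irr hχ hχ
    rw [if_pos rfl] at h1
    unfold classInner at h1
    have h2 : ∑ g : G, χ g * conj (χ g) = ((∑ g : G, Complex.normSq (χ g) : ℝ) : ℂ) := by
      rw [Complex.ofReal_sum]
      exact Finset.sum_congr rfl (fun g _ => Complex.mul_conj _)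
    rw [h2] at h1
    have h3 : ((∑ g : G, Complex.normSq (χ g) : ℝ) : ℂ) = (Nat.card G : ℂ) := by
      field_simp at h1
      exact h1
    exact_mod_cast h3
  have hle : ∑ g : G, (if orderOf g = p then Complex.normSq (χ g) else 0)
      + Complex.normSq (χ 1) ≤ ∑ g : G, Complex.normSq (χ g) := by
    have h1 : ∀ g : G, (if orderOf g = p then Complex.normSq (χ g) else 0)
        + (if g = 1 then Complex.normSq (χ g) else 0) ≤ Complex.normSq (χ g) := by
      intro g
      by_cases hg1 : g = 1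
      · rw [if_neg, if_pos hg1, zero_add]
        rw [hg1, orderOf_one]
        exact hp.one_lt.ne
      · rw [if_neg hg1, add_zero]
        split_ifs
        · exact le_rfl
        · exact Complex.normSq_nonneg _
    calc ∑ g : G, (if orderOf g = p then Complex.normSq (χ g) else 0) + Complex.normSq (χ 1)
        = ∑ g : G, ((if orderOf g = p then Complex.normSq (χ g) else 0)
          + (if g = 1 then Complex.normSq (χ g) else 0)) := by
          rw [Finset.sum_add_distrib, Finset.sum_ite_eq', if_pos (Finset.mem_univ _)]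
      _ ≤ _ := Finset.sum_le_sum (fun g _ => h1 g)
  have hpos : 0 < Complex.normSq (χ 1) := Complex.normSq_pos.2 (Helper24.irr_one_ne_zero hχ)
  have hGpos : (0 : ℝ) < Nat.card G := by exact_mod_cast Nat.card_pos
  have hNpos : (0 : ℝ)
      < Nat.card (Subgroup.normalizer ((Subgroup.zpowers x : Subgroup G) : Set G)) := by
    exact_mod_cast Nat.card_pos
  by_contra hcon
  rw [not_lt] at hcon
  have h5 := mul_le_mul_of_nonneg_left hcon hGpos.le
  rw [hcount] at h5
  nlinarith [mul_le_mul_of_nonneg_left (hle.trans hnorm.le) hNpos.le, mul_pos hNpos hpos]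

end Count

section Abelian

/-- For a character of an abelian group, the norm is bounded below in terms of the
multiplicity of the trivial character and the degree. -/
theorem abelian_norm_ge {A : Type*} [Group A] [Fintype A] (hA : ∀ a b : A, a * b = b * a)
    {ψ : A → ℂ} (hψ : IsCharacter A ψ) (m₀ d : ℕ)
    (hm₀ : classInner ψ (fun _ => (1 : ℂ)) = m₀) (hd : ψ 1 = d) :
    ∃ k : ℕ, classInner ψ ψ = k ∧ m₀ ^ 2 + d ≤ k + m₀ := by
  classical
  haveI : Fintype (IrrCharacter A) := @Fintype.ofFinite _ Helper24.finite_irrCharacter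
  have hnat : ∀ lam : IrrCharacter A, ∃ m : ℕ, classInner ψ (lam : A → ℂ) = m :=
    fun lam => Helper2.classInner_char_nat hψ (Helper24.isCharacter_of_irr lam.2)
  choose m hm using hnat
  have hexp := Helper2.class_fn_expansion (Helper2.IsCharacter.isClassFunction hψ)
  have h0 : classInner ψ ψ
      = classInner (∑ lam : IrrCharacter A, classInner ψ (lam : A → ℂ) • (lam : A → ℂ)) ψ :=
    congrArg (fun f => classInner f ψ) hexp
  have hk : classInner ψ ψ = ((∑ lam : IrrCharacter A, m lam ^ 2 : ℕ) : ℂ) := by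
    rw [h0, Helper2.classInner_sum_left, Nat.cast_sum]
    refine Finset.sum_congr rfl (fun lam _ => ?_)
    rw [Helper2.classInner_smul_left, ← Helper2.classInner_conj_symm ψ, hm, Complex.conj_natCast]
    push_cast
    ring
  have hd' : d = ∑ lam : IrrCharacter A, m lam := by
    have h1 := congrFun hexp 1
    rw [Finset.sum_apply] at h1
    have h2 : ∀ lam : IrrCharacter A,
        (classInner ψ (lam : A → ℂ) • (lam : A → ℂ)) 1 = (m lam : ℂ) := by
      intro lam
      rw [Pi.smul_apply, smul_eq_mul, Helper2.irr_abelian_linear hA lam.2, mul_one, hm]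
    rw [Finset.sum_congr rfl (fun lam _ => h2 lam), hd] at h1
    exact_mod_cast h1
  obtain ⟨l0, hl0⟩ : ∃ l0 : IrrCharacter A, l0 = ⟨fun _ => (1 : ℂ), Helper2.isIrrCharacter_one_fun⟩ :=
    ⟨_, rfl⟩
  have hml0 : m l0 = m₀ := by
    have h1 := hm l0
    rw [hl0] at h1
    rw [hm₀] at h1
    rw [hl0]
    exact_mod_cast h1.symm
  refine ⟨∑ lam : IrrCharacter A, m lam ^ 2, hk, ?_⟩
  have h1 := Finset.add_sum_erase Finset.univ (fun lam => m lam ^ 2) (Finset.mem_univ l0)
  have h2 := Finset.add_sum_erase Finset.univ (fun lam => m lam) (Finset.mem_univ l0)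
  have h3 : ∑ lam ∈ Finset.univ.erase l0, m lam ≤ ∑ lam ∈ Finset.univ.erase l0, m lam ^ 2 :=
    Finset.sum_le_sum (fun lam _ => Nat.le_self_pow (by norm_num) _)
  simp only [hml0] at h1 h2
  rw [hd', ← h1, ← h2]
  linarith

end Abelian

section Local

variable {G : Type*} [Group G] [Fintype G] {p : ℕ} {x : G}

/-- The multiplicity of the trivial character in the restriction to the self-centralizing
subgroup of an irreducible character of degree `p - 1` is small. -/
theorem mult_bound (hp : p.Prime) (hx : orderOf x = p)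
    (hC : Subgroup.centralizer ({x} : Set G) = Subgroup.zpowers x)
    {χ : G → ℂ} (hχ : IsIrrCharacter G χ) (hdeg : χ 1 = ((p - 1 : ℕ) : ℂ)) (m₀ e : ℕ)
    (hm₀ : classInner (fun a : Subgroup.zpowers x => χ a) (fun _ => (1 : ℂ)) = m₀)
    (he : Nat.card (Subgroup.normalizer ((Subgroup.zpowers x : Subgroup G) : Set G)) = p * e) :
    m₀ * m₀ < e + m₀ := by
  classical
  have hchar := Helper24.isCharacter_of_irr hχ
  have hψ := Helper24.isCharacter_restrict (Subgroup.zpowers x) hchar
  have hA : ∀ a b : Subgroup.zpowers x, a * b = b * a :=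
    fun a b => Subtype.ext (comm_of_mem a.2 b.2)
  obtain ⟨k, hk, hkge⟩ := abelian_norm_ge hA hψ m₀ (p - 1) hm₀ (by simpa using hdeg)
  have hlt := sum_normSq_lt hp hx hC hχ
  have hcardP : Nat.card (Subgroup.zpowers x) = p := by rw [Nat.card_zpowers, hx]
  obtain ⟨S, hS⟩ : ∃ S : ℝ, S = ∑ g : G,
      (if g ∈ Subgroup.zpowers x ∧ g ≠ 1 then Complex.normSq (χ g) else 0) := ⟨_, rfl⟩
  rw [← hS] at hlt
  have hsum : ∑ a : Subgroup.zpowers x, χ a * conj (χ a)
      = ((S + Complex.normSq (χ 1) : ℝ) : ℂ) := by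
    rw [sum_subgroup_eq (Subgroup.zpowers x) (fun g => χ g * conj (χ g)), split_ne_one, hS]
    push_cast
    congr 1
    · refine Finset.sum_congr rfl (fun g _ => ?_)
      split_ifs
      · exact Complex.mul_conj _
      · rfl
    · exact Complex.mul_conj _
  unfold classInner at hk
  rw [hsum, hcardP] at hk
  have hp0 : (p : ℂ) ≠ 0 := Nat.cast_ne_zero.2 hp.ne_zero
  have hk' : ((S + Complex.normSq (χ 1) : ℝ) : ℂ) = (((k : ℝ) * p : ℝ) : ℂ) := by
    have h1 : ((S + Complex.normSq (χ 1) : ℝ) : ℂ) = (k : ℂ) * p := by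
      rw [← hk]
      field_simp
    rw [h1]
    push_cast
    ring
  have hk'' : S + Complex.normSq (χ 1) = (k : ℝ) * p := by exact_mod_cast hk'
  have hns : Complex.normSq (χ 1) = ((p : ℝ) - 1) ^ 2 := by
    rw [hdeg, Complex.normSq_natCast, Nat.cast_sub hp.one_lt.le]
    push_cast
    ring
  have hpR : (2 : ℝ) ≤ p := by exact_mod_cast hp.two_le
  have hkgeR : (m₀ : ℝ) ^ 2 + ((p : ℝ) - 1) ≤ k + m₀ := by
    have h1 := (Nat.cast_le (α := ℝ)).2 hkge
    rw [Nat.cast_add, Nat.cast_pow, Nat.cast_sub hp.one_lt.le, Nat.cast_add] at h1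
    simpa using h1
  by_contra hcon
  rw [not_lt] at hcon
  have hconR : (e : ℝ) + m₀ ≤ (m₀ : ℝ) * m₀ := by exact_mod_cast hcon
  have heR : (Nat.card (Subgroup.normalizer ((Subgroup.zpowers x : Subgroup G) : Set G)) : ℝ)
      = p * e := by exact_mod_cast he
  rw [heR] at hlt
  have h1 : (e : ℝ) + p - 1 ≤ k := by nlinarith
  have h2 : ((e : ℝ) + p - 1) * p ≤ k * p := mul_le_mul_of_nonneg_right h1 (by linarith)
  nlinarith

/-- Elements of the normalizer outside the self-centralizing subgroup are conjugate to all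
their translates by it. -/
theorem exists_conj_of_mem_normalizer (hp : p.Prime) (hx : orderOf x = p)
    (hC : Subgroup.centralizer ({x} : Set G) = Subgroup.zpowers x) {a u : G}
    (ha : a ∈ Subgroup.zpowers x)
    (hu : u ∈ Subgroup.normalizer ((Subgroup.zpowers x : Subgroup G) : Set G))
    (hu' : u ∉ Subgroup.zpowers x) : ∃ b : G, a * u = b * u * b⁻¹ := by
  have hmem : ∀ b : G, b ∈ Subgroup.zpowers x → b * u * b⁻¹ * u⁻¹ ∈ Subgroup.zpowers x := by
    intro b hb
    have h1 : u * b⁻¹ * u⁻¹ ∈ Subgroup.zpowers x :=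
      (Subgroup.mem_normalizer_iff.1 hu b⁻¹).1 (Subgroup.inv_mem _ hb)
    have h2 : b * u * b⁻¹ * u⁻¹ = b * (u * b⁻¹ * u⁻¹) := by group
    rw [h2]
    exact Subgroup.mul_mem _ hb h1
  obtain ⟨f, hf⟩ : ∃ f : Subgroup.zpowers x → Subgroup.zpowers x,
      ∀ b : Subgroup.zpowers x, ((f b : Subgroup.zpowers x) : G)
        = (b : G) * u * (b : G)⁻¹ * u⁻¹ :=
    ⟨fun b => ⟨(b : G) * u * (b : G)⁻¹ * u⁻¹, hmem b b.2⟩, fun b => rfl⟩
  have hinj : Function.Injective f := by
    intro b c hbc
    have h1 : (b : G) * u * (b : G)⁻¹ * u⁻¹ = (c : G) * u * (c : G)⁻¹ * u⁻¹ := by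
      rw [← hf, ← hf, hbc]
    by_contra hne
    apply hu'
    have hz : (c : G)⁻¹ * (b : G) ∈ Subgroup.zpowers x :=
      Subgroup.mul_mem _ (Subgroup.inv_mem _ c.2) b.2
    have hz1 : (c : G)⁻¹ * (b : G) ≠ 1 := by
      intro h
      apply hne
      apply Subtype.ext
      have h3 : (b : G) = (c : G) * ((c : G)⁻¹ * (b : G)) := by group
      rw [h3, h, mul_one]
    apply mem_of_commute hp hx hC hz hz1
    have h2 : (b : G) * u * (b : G)⁻¹ = (c : G) * u * (c : G)⁻¹ := by
      have h4 := congrArg (· * u) h1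
      simpa using h4
    calc u * ((c : G)⁻¹ * (b : G)) = (c : G)⁻¹ * ((c : G) * u * (c : G)⁻¹) * (b : G) := by group
      _ = (c : G)⁻¹ * ((b : G) * u * (b : G)⁻¹) * (b : G) := by rw [h2]
      _ = (c : G)⁻¹ * (b : G) * u := by group
  obtain ⟨b, hb⟩ := (Finite.injective_iff_surjective.1 hinj) ⟨a, ha⟩
  refine ⟨b, ?_⟩
  have h1 : (b : G) * u * (b : G)⁻¹ * u⁻¹ = a := by
    rw [← hf, hb]
  rw [← h1]
  group

end Local

section Complement

/-- A character of a group with a normal Hall subgroup which is constant on the cosets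
outside the subgroup: the index divides the difference between its degree and the
multiplicity of the trivial character of the subgroup. -/
theorem index_dvd_of_coset_const {M : Type*} [Group M] [Fintype M] (P' : Subgroup M)
    [P'.Normal] [Fintype P'] (hcop : Nat.Coprime (Nat.card P') P'.index) {ξ : M → ℂ}
    (hξ : IsCharacter M ξ) (hconst : ∀ a u : M, a ∈ P' → u ∉ P' → ξ (a * u) = ξ u)
    (m₀ d : ℕ) (hm₀ : ∑ a : P', ξ a = (Nat.card P' : ℂ) * m₀) (hd : ξ 1 = d) :
    (P'.index : ℤ) ∣ (d : ℤ) - m₀ := by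
  classical
  obtain ⟨E, hE⟩ := Subgroup.exists_right_complement'_of_coprime hcop
  have hbij : Function.Bijective (fun x : P' × E => (x.1 : M) * (x.2 : M)) := hE
  obtain ⟨n₁, hn₁⟩ := Helper2.classInner_char_nat hξ
    (Helper24.isCharacter_of_irr (Helper2.isIrrCharacter_one_fun (G := M)))
  obtain ⟨n₂, hn₂⟩ := Helper2.classInner_char_nat (Helper24.isCharacter_restrict E hξ)
    (Helper24.isCharacter_of_irr (Helper2.isIrrCharacter_one_fun (G := E)))
  have hM0 : (Nat.card M : ℂ) ≠ 0 := Nat.cast_ne_zero.2 Nat.card_pos.ne'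
  have hE0 : (Nat.card E : ℂ) ≠ 0 := Nat.cast_ne_zero.2 Nat.card_pos.ne'
  have hP0 : (Nat.card P' : ℂ) ≠ 0 := Nat.cast_ne_zero.2 Nat.card_pos.ne'
  have hMs : ∑ g : M, ξ g = (Nat.card M : ℂ) * n₁ := by
    unfold classInner at hn₁
    simp only [map_one, mul_one] at hn₁
    rw [← hn₁, ← mul_assoc, mul_inv_cancel₀ hM0, one_mul]
  have hEs : ∑ u : E, ξ u = (Nat.card E : ℂ) * n₂ := by
    unfold classInner at hn₂
    simp only [map_one, mul_one] at hn₂
    rw [← hn₂, ← mul_assoc, mul_inv_cancel₀ hE0, one_mul]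
  have hsplit : ∑ g : M, ξ g = ∑ u : E, ∑ a : P', ξ ((a : M) * (u : M)) := by
    rw [← (Equiv.ofBijective _ hbij).sum_comp ξ, Fintype.sum_prod_type_right]
    rfl
  have hinner : ∀ u : E, ∑ a : P', ξ ((a : M) * (u : M))
      = (Nat.card P' : ℂ) * (ξ u + if u = 1 then ((m₀ : ℂ) - d) else 0) := by
    intro u
    by_cases hu : u = 1
    · rw [if_pos hu, hu]
      simp only [Subgroup.coe_one, mul_one]
      rw [hm₀, hd]
      ring
    · rw [if_neg hu, add_zero]
      have hu' : (u : M) ∉ P' := by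
        intro h
        apply hu
        exact Subtype.ext (Subgroup.disjoint_def.1 hE.disjoint h u.2)
      rw [Finset.sum_congr rfl (fun (a : P') _ => hconst (a : M) (u : M) a.2 hu'), Finset.sum_const,
        Finset.card_univ, nsmul_eq_mul, Nat.card_eq_fintype_card]
  have hcard : Nat.card P' * Nat.card E = Nat.card M := hE.card_mul_card
  have hidx : P'.index = Nat.card E := hE.symm.index_eq_card
  have hcardC : (Nat.card M : ℂ) = (Nat.card P' : ℂ) * (Nat.card E : ℂ) := by
    rw [← hcard]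
    push_cast
    ring
  have key : (Nat.card E : ℂ) * n₁ = (Nat.card E : ℂ) * n₂ + m₀ - d := by
    have h1 : (Nat.card M : ℂ) * n₁
        = (Nat.card P' : ℂ) * ((Nat.card E : ℂ) * n₂ + ((m₀ : ℂ) - d)) := by
      rw [← hMs, hsplit, Finset.sum_congr rfl (fun u _ => hinner u), ← Finset.mul_sum,
        Finset.sum_add_distrib, hEs, Finset.sum_ite_eq', if_pos (Finset.mem_univ _)]
    rw [hcardC, mul_assoc] at h1
    have h2 := mul_left_cancel₀ hP0 h1
    rw [h2]
    ring
  rw [hidx]
  refine ⟨(n₂ : ℤ) - n₁, ?_⟩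
  have h : (((d : ℤ) - m₀ : ℤ) : ℂ) = (((Nat.card E : ℤ) * ((n₂ : ℤ) - n₁) : ℤ) : ℂ) := by
    push_cast
    linear_combination key
  exact_mod_cast h

/-- If a character sums to zero over a subgroup, it sums to zero over each of its cosets. -/
theorem sum_coset_eq_zero {G : Type*} [Group G] (H : Subgroup G) [Fintype H] {χ : G → ℂ}
    (hχ : IsCharacter G χ) (h0 : ∑ a : H, χ a = 0) (u : G) :
    ∑ a : H, χ ((a : G) * u) = 0 := by
  obtain ⟨n, ρ, rfl⟩ := hχ
  have hne : (Nat.card H : ℂ) ≠ 0 := Nat.cast_ne_zero.2 Nat.card_pos.ne'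
  obtain ⟨Q, hQ⟩ : ∃ Q : Module.End ℂ (Fin n → ℂ),
      Q = (Nat.card H : ℂ)⁻¹ • ∑ a : H, ρ (a : G) := ⟨_, rfl⟩
  have hinv : ∀ h : H, ρ (h : G) * Q = Q := by
    intro h
    rw [hQ, mul_smul_comm, Finset.mul_sum]
    congr 1
    simp only [← map_mul]
    exact Fintype.sum_equiv (Equiv.mulLeft h) _ _ (fun g => rfl)
  have hidem : Q * Q = Q := by
    calc Q * Q = ((Nat.card H : ℂ)⁻¹ • ∑ a : H, ρ (a : G)) * Q := by rw [← hQ]
      _ = (Nat.card H : ℂ)⁻¹ • ∑ a : H, ρ (a : G) * Q := by
          rw [smul_mul_assoc, Finset.sum_mul]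
      _ = (Nat.card H : ℂ)⁻¹ • ∑ _a : H, Q := by simp only [hinv]
      _ = Q := by
          rw [Finset.sum_const, Finset.card_univ, ← Nat.card_eq_fintype_card,
            ← Nat.cast_smul_eq_nsmul ℂ, smul_smul, inv_mul_cancel₀ hne, one_smul]
  have htrQ : LinearMap.trace ℂ _ Q = 0 := by
    rw [hQ, map_smul, map_sum]
    have h1 : ∑ a : H, LinearMap.trace ℂ _ (ρ (a : G)) = 0 := h0
    rw [h1, smul_zero]
  have hidem' : IsIdempotentElem Q := hidem
  have hproj := LinearMap.IsIdempotentElem.isProj_range Q hidem'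
  have hfr : Module.finrank ℂ (LinearMap.range Q) = 0 := by
    have h1 := hproj.trace
    rw [htrQ] at h1
    exact_mod_cast h1.symm
  have hQ0 : Q = 0 := by
    apply LinearMap.ext
    intro v
    have h1 : LinearMap.range Q = ⊥ := Submodule.finrank_eq_zero.1 hfr
    have h2 : Q v ∈ LinearMap.range Q := LinearMap.mem_range_self Q v
    rw [h1] at h2
    exact (Submodule.mem_bot ℂ).1 h2
  have hsum0 : ∑ a : H, ρ (a : G) = 0 := by
    rw [hQ] at hQ0
    rcases smul_eq_zero.1 hQ0 with h | h
    · exact absurd h (inv_ne_zero hne)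
    · exact h
  show ∑ a : H, LinearMap.trace ℂ _ (ρ ((a : G) * u)) = 0
  simp only [map_mul]
  rw [← map_sum, ← Finset.sum_mul, hsum0, zero_mul, map_zero]

end Complement

section Normalizer

variable {G : Type*} [Group G] [Fintype G] {p : ℕ} {x : G}

/-- The index of the self-centralizing subgroup in its normalizer divides the difference
between the degree and the multiplicity of the trivial character. -/
theorem index_dvd (hp : p.Prime) (hx : orderOf x = p)
    (hC : Subgroup.centralizer ({x} : Set G) = Subgroup.zpowers x)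
    [Fintype (Subgroup.zpowers x)] {χ : G → ℂ} (hχ : IsCharacter G χ) (m₀ d e : ℕ)
    (hm₀ : ∑ a : Subgroup.zpowers x, χ a = (p : ℂ) * m₀) (hd : χ 1 = d)
    (he : Nat.card (Subgroup.normalizer ((Subgroup.zpowers x : Subgroup G) : Set G)) = p * e)
    (hcop : Nat.Coprime p e) : (e : ℤ) ∣ (d : ℤ) - m₀ := by
  classical
  have hPN : Subgroup.zpowers x
      ≤ Subgroup.normalizer ((Subgroup.zpowers x : Subgroup G) : Set G) :=
    Subgroup.le_normalizer
  obtain ⟨P', hP'⟩ : ∃ P' : Subgroup (Subgroup.normalizer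
      ((Subgroup.zpowers x : Subgroup G) : Set G)),
      P' = (Subgroup.zpowers x).subgroupOf _ := ⟨_, rfl⟩
  haveI : P'.Normal := by
    rw [hP']
    exact Subgroup.normal_in_normalizer
  have hcardP' : Nat.card P' = p := by
    rw [hP', Nat.card_congr (Subgroup.subgroupOfEquivOfLe hPN).toEquiv, Nat.card_zpowers, hx]
  have hidx : P'.index = e := by
    have h1 := Subgroup.card_mul_index P'
    rw [hcardP', he] at h1
    exact Nat.eq_of_mul_eq_mul_left hp.pos h1
  have hsumP' : ∑ a : P', χ ((a : Subgroup.normalizer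
      ((Subgroup.zpowers x : Subgroup G) : Set G)) : G) = (Nat.card P' : ℂ) * m₀ := by
    rw [hcardP', ← hm₀]
    subst hP'
    exact Fintype.sum_equiv (Subgroup.subgroupOfEquivOfLe hPN).toEquiv _ _ (fun a => rfl)
  have hconst : ∀ a u : Subgroup.normalizer ((Subgroup.zpowers x : Subgroup G) : Set G),
      a ∈ P' → u ∉ P' → χ ((a * u : Subgroup.normalizer
        ((Subgroup.zpowers x : Subgroup G) : Set G)) : G) = χ (u : G) := by
    intro a u ha hu
    rw [hP', Subgroup.mem_subgroupOf] at ha hu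
    obtain ⟨b, hb⟩ := exists_conj_of_mem_normalizer hp hx hC ha u.2 hu
    show χ ((a : G) * (u : G)) = χ (u : G)
    rw [hb]
    exact Helper2.IsCharacter.isClassFunction hχ _ _
  have h := index_dvd_of_coset_const P' (by rw [hcardP', hidx]; exact hcop)
    (Helper24.isCharacter_restrict _ hχ) hconst m₀ d hsumP' hd
  rw [hidx] at h
  exact h

/-- For odd `p`, the normalizer of the self-centralizing subgroup contains an element
generating a Sylow `2`-subgroup of it. -/
theorem exists_two_elt (hp : p.Prime) (hp2 : p ≠ 2) (hx : orderOf x = p)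
    (hC : Subgroup.centralizer ({x} : Set G) = Subgroup.zpowers x) :
    ∃ y : G, y ∈ Subgroup.normalizer ((Subgroup.zpowers x : Subgroup G) : Set G)
      ∧ orderOf y = 2 ^ (Nat.card (Subgroup.normalizer
          ((Subgroup.zpowers x : Subgroup G) : Set G))).factorization 2
      ∧ ∀ m : ℕ, y ^ m ∈ Subgroup.zpowers x → y ^ m = 1 := by
  classical
  haveI : Fact p.Prime := ⟨hp⟩
  haveI : Fact (Nat.Prime 2) := ⟨Nat.prime_two⟩
  have hex : ∀ u : Subgroup.normalizer ((Subgroup.zpowers x : Subgroup G) : Set G),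
      ∃ k : ℕ, x ^ k = (u : G) * x * (u : G)⁻¹ := by
    intro u
    have h1 : (u : G) * x * (u : G)⁻¹ ∈ Subgroup.zpowers x :=
      (Subgroup.mem_normalizer_iff.1 u.2 x).1 (Subgroup.mem_zpowers x)
    exact (Submonoid.mem_powers_iff _ _).1 (mem_powers_iff_mem_zpowers.2 h1)
  choose k hk using hex
  have hpow : ∀ (u : Subgroup.normalizer ((Subgroup.zpowers x : Subgroup G) : Set G)) (j : ℕ),
      (u : G) * x ^ j * (u : G)⁻¹ = x ^ (k u * j) := by
    intro u j
    rw [pow_mul, hk u, conj_pow]
  have hcoprime : ∀ j : ℕ, Nat.Coprime p (2 ^ j) := fun j =>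
    Nat.Coprime.pow_right j ((Nat.coprime_primes hp Nat.prime_two).2 hp2)
  obtain ⟨f, hf⟩ : ∃ f : Subgroup.normalizer ((Subgroup.zpowers x : Subgroup G) : Set G)
      →* ZMod p, ∀ u, f u = (k u : ZMod p) := by
    refine ⟨{ toFun := fun u => (k u : ZMod p), map_one' := ?_, map_mul' := ?_ }, fun u => rfl⟩
    · have h1 : x ^ k 1 = x ^ 1 := by
        rw [hk 1]
        simp
      have h2 := pow_eq_pow_iff_modEq.1 h1
      rw [hx] at h2
      have h3 := (ZMod.natCast_eq_natCast_iff _ _ _).2 h2
      simpa using h3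
    · intro u v
      have h1 : x ^ k (u * v) = x ^ (k u * k v) := by
        rw [hk (u * v), ← hpow u (k v), hk v]
        simp only [Subgroup.coe_mul, mul_inv_rev]
        group
      have h2 := pow_eq_pow_iff_modEq.1 h1
      rw [hx] at h2
      have h3 := (ZMod.natCast_eq_natCast_iff _ _ _).2 h2
      simpa using h3
  obtain ⟨S⟩ : Nonempty (Sylow 2 (Subgroup.normalizer
      ((Subgroup.zpowers x : Subgroup G) : Set G))) := inferInstance
  have hinj : Function.Injective (f.comp (S : Subgroup (Subgroup.normalizer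
      ((Subgroup.zpowers x : Subgroup G) : Set G))).subtype) := by
    intro u v huv
    have h1 : ((k (u : Subgroup.normalizer ((Subgroup.zpowers x : Subgroup G) : Set G)) : ℕ)
        : ZMod p) = (k (v : Subgroup.normalizer ((Subgroup.zpowers x : Subgroup G) : Set G))
          : ZMod p) := by
      rw [← hf, ← hf]
      exact huv
    have h2 := (ZMod.natCast_eq_natCast_iff _ _ _).1 h1
    rw [← hx] at h2
    have h3 := pow_eq_pow_iff_modEq.2 h2
    rw [hk, hk] at h3
    obtain ⟨u', hu'⟩ : ∃ u' : G, u' = ((u : Subgroup.normalizer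
      ((Subgroup.zpowers x : Subgroup G) : Set G)) : G) := ⟨_, rfl⟩
    obtain ⟨v', hv'⟩ : ∃ v' : G, v' = ((v : Subgroup.normalizer
      ((Subgroup.zpowers x : Subgroup G) : Set G)) : G) := ⟨_, rfl⟩
    rw [← hu', ← hv'] at h3
    have hw : v'⁻¹ * u' ∈ Subgroup.zpowers x := by
      rw [← hC, Subgroup.mem_centralizer_iff]
      intro y hy
      rw [Set.mem_singleton_iff] at hy
      rw [hy]
      calc x * (v'⁻¹ * u') = v'⁻¹ * (v' * x * v'⁻¹) * u' := by group
        _ = v'⁻¹ * (u' * x * u'⁻¹) * u' := by rw [h3]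
        _ = v'⁻¹ * u' * x := by group
    have ho1 : orderOf (v'⁻¹ * u') ∣ p := by
      have h4 := orderOf_dvd_of_mem_zpowers hw
      rwa [hx] at h4
    obtain ⟨j, hj⟩ := S.isPGroup' (v⁻¹ * u)
    have hj' : (v'⁻¹ * u') ^ 2 ^ j = 1 := by
      have h5 := congrArg (fun s : (S : Subgroup (Subgroup.normalizer
        ((Subgroup.zpowers x : Subgroup G) : Set G))) => ((s : Subgroup.normalizer
        ((Subgroup.zpowers x : Subgroup G) : Set G)) : G)) hj
      rw [hu', hv']
      simpa using h5
    have ho2 : orderOf (v'⁻¹ * u') ∣ 2 ^ j := orderOf_dvd_of_pow_eq_one hj'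
    have ho3 : orderOf (v'⁻¹ * u') = 1 := by
      have h6 := Nat.dvd_gcd ho1 ho2
      rw [(hcoprime j).gcd_eq_one] at h6
      exact Nat.dvd_one.1 h6
    have h7 : v'⁻¹ * u' = 1 := orderOf_eq_one_iff.1 ho3
    have h8 : u' = v' := by
      have h9 : u' = v' * (v'⁻¹ * u') := by group
      rw [h9, h7, mul_one]
    rw [hu', hv'] at h8
    exact Subtype.ext (Subtype.ext h8)
  haveI : IsCyclic (S : Subgroup (Subgroup.normalizer
      ((Subgroup.zpowers x : Subgroup G) : Set G))) :=
    isCyclic_of_injective_ringHom _ hinj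
  obtain ⟨g, hg⟩ := IsCyclic.exists_generator (α := (S : Subgroup (Subgroup.normalizer
      ((Subgroup.zpowers x : Subgroup G) : Set G))))
  have hog : orderOf g = Nat.card (S : Subgroup (Subgroup.normalizer
      ((Subgroup.zpowers x : Subgroup G) : Set G))) :=
    orderOf_eq_card_of_forall_mem_zpowers hg
  have hcS := S.card_eq_multiplicity
  have hoy : orderOf (((g : Subgroup.normalizer
      ((Subgroup.zpowers x : Subgroup G) : Set G)) : G)) = 2 ^ (Nat.card (Subgroup.normalizer
          ((Subgroup.zpowers x : Subgroup G) : Set G))).factorization 2 := by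
    rw [← hcS, ← hog, Subgroup.orderOf_coe, Subgroup.orderOf_coe]
  refine ⟨((g : Subgroup.normalizer ((Subgroup.zpowers x : Subgroup G) : Set G)) : G),
    (g : Subgroup.normalizer ((Subgroup.zpowers x : Subgroup G) : Set G)).2, hoy, ?_⟩
  intro m hm
  have ho1 : orderOf (((g : Subgroup.normalizer
      ((Subgroup.zpowers x : Subgroup G) : Set G)) : G) ^ m) ∣ p := by
    have h4 := orderOf_dvd_of_mem_zpowers hm
    rwa [hx] at h4
  have ho2 : orderOf (((g : Subgroup.normalizer
      ((Subgroup.zpowers x : Subgroup G) : Set G)) : G) ^ m) ∣ 2 ^ (Nat.card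
      (Subgroup.normalizer ((Subgroup.zpowers x : Subgroup G) : Set G))).factorization 2 := by
    rw [← hoy]
    exact orderOf_pow_dvd m
  have h6 := Nat.dvd_gcd ho1 ho2
  rw [(hcoprime _).gcd_eq_one] at h6
  exact orderOf_eq_one_iff.1 (Nat.dvd_one.1 h6)

end Normalizer

section Det

/-- An endomorphism of even order `2M` whose proper powers are traceless, acting on a space
of dimension `2M·r` with `r` odd, has determinant `-1`. -/
theorem det_eq_neg_one {V : Type*} [AddCommGroup V] [Module ℂ V] [FiniteDimensional ℂ V]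
    (A : Module.End ℂ V) (M r : ℕ) (hM : 0 < M) (hA : A ^ (2 * M) = 1)
    (htr : ∀ m : ℕ, 0 < m → m < 2 * M → LinearMap.trace ℂ V (A ^ m) = 0)
    (hdim : Module.finrank ℂ V = 2 * M * r) (hr : Odd r) : LinearMap.det A = -1 := by
  have hN : 0 < 2 * M := by omega
  have hζ := Complex.isPrimitiveRoot_exp (2 * M) hN.ne'
  obtain ⟨ζ, hζdef⟩ : ∃ ζ : ℂ,
      ζ = Complex.exp (2 * Real.pi * Complex.I / ((2 * M : ℕ) : ℂ)) := ⟨_, rfl⟩
  rw [← hζdef] at hζ
  have hζ0 : ζ ≠ 0 := hζ.ne_zero hN.ne'
  have hζN : ζ ^ (2 * M) = 1 := hζ.pow_eq_one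
  have hrank : ∀ j : ℕ,
      Module.finrank ℂ (LinearMap.range (Helper6.dftIdem A (2 * M) ζ j)) = r := by
    intro j
    have h1 := Helper6.trace_dftIdem A (2 * M) hN hA ζ hζ0 hζN j
    have h2 : ∑ m ∈ Finset.range (2 * M), ((ζ ^ j)⁻¹) ^ m * LinearMap.trace ℂ V (A ^ m)
        = ((2 * M * r : ℕ) : ℂ) := by
      rw [Finset.sum_eq_single 0]
      · rw [pow_zero, pow_zero, one_mul, LinearMap.trace_one, hdim]
      · intro m hm hm0
        rw [htr m (Nat.pos_of_ne_zero hm0) (Finset.mem_range.1 hm), mul_zero]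
      · intro h
        exact absurd (Finset.mem_range.2 hN) h
    rw [h2] at h1
    have hN0 : ((2 * M : ℕ) : ℂ) ≠ 0 := Nat.cast_ne_zero.2 hN.ne'
    have h3 : ((Module.finrank ℂ (LinearMap.range (Helper6.dftIdem A (2 * M) ζ j)) : ℕ) : ℂ)
        = (r : ℂ) := by
      rw [h1, Nat.cast_mul (2 * M) r, ← mul_assoc, inv_mul_cancel₀ hN0, one_mul]
    exact_mod_cast h3
  rw [Helper6.det_eq_prod_dft A (2 * M) hN hA ζ hζ]
  simp only [hrank]
  rw [Finset.prod_pow, Finset.prod_pow_eq_pow_sum]
  have hsum : ∑ j ∈ Finset.range (2 * M), j = M * (2 * M - 1) := by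
    have h1 := Finset.sum_range_id_mul_two (2 * M)
    have h2 : (∑ j ∈ Finset.range (2 * M), j) * 2 = (M * (2 * M - 1)) * 2 := by
      rw [h1]
      ring
    exact Nat.eq_of_mul_eq_mul_right (by norm_num) h2
  rw [hsum, pow_mul]
  have hζM : ζ ^ M = -1 := by
    have h1 : ζ ^ M * ζ ^ M = 1 := by
      rw [← pow_add, ← two_mul]
      exact hζN
    have h2 : ζ ^ M ≠ 1 := hζ.pow_ne_one_of_pos_of_lt hM.ne' (by omega)
    rcases mul_self_eq_one_iff.1 h1 with h | h
    · exact absurd h h2
    · exact h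
  have hodd : Odd (2 * M - 1) := by
    refine ⟨M - 1, ?_⟩
    omega
  rw [hζM, Odd.neg_one_pow hodd, Odd.neg_one_pow hr]

theorem even_index_of_hom {G : Type*} [Group G] [Finite G] (lam : G →* ℂˣ) (y : G)
    (hy : ((lam y : ℂˣ) : ℂ) = -1) : Even (commutator G).index := by
  have hle : commutator G ≤ lam.ker := Abelianization.commutator_subset_ker lam
  have h1 : lam.ker.index ∣ (commutator G).index := Subgroup.index_dvd_of_le hle
  have h2 : lam.ker.index = Nat.card lam.range := Subgroup.index_ker lam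
  have hy' : lam y = -1 := Units.ext (by rw [hy]; simp)
  have h3 : orderOf (lam y) = 2 := by
    rw [hy']
    haveI : Fact (Nat.Prime 2) := ⟨Nat.prime_two⟩
    refine orderOf_eq_prime (by simp) ?_
    intro h
    have h4 := congrArg Units.val h
    norm_num at h4
  have h4 : orderOf (lam y) ∣ Nat.card lam.range :=
    Subgroup.orderOf_dvd_natCard _ (MonoidHom.mem_range.2 ⟨y, rfl⟩)
  rw [h3, ← h2] at h4
  exact even_iff_two_dvd.2 (h4.trans h1)

/-- A representation in which some element of even order `2M` has traceless proper powers,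
of degree `2M·r` with `r` odd, forces the commutator subgroup to have even index. -/
theorem even_index_of_rep {G : Type*} [Group G] [Finite G] {V : Type*} [AddCommGroup V]
    [Module ℂ V] [FiniteDimensional ℂ V] (ρ : Representation ℂ G V) (y : G) (M r : ℕ)
    (hM : 0 < M) (hy : y ^ (2 * M) = 1)
    (htr : ∀ m : ℕ, 0 < m → m < 2 * M → ρ.character (y ^ m) = 0)
    (hdim : Module.finrank ℂ V = 2 * M * r) (hr : Odd r) : Even (commutator G).index := by
  have hdet : LinearMap.det (ρ y) = -1 := by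
    apply det_eq_neg_one (ρ y) M r hM _ _ hdim hr
    · rw [← map_pow, hy, map_one]
    · intro m hm1 hm2
      rw [← map_pow]
      exact htr m hm1 hm2
  obtain ⟨f, hf⟩ : ∃ f : G →* ℂ, ∀ g, f g = LinearMap.det (ρ g) :=
    ⟨(LinearMap.det : Module.End ℂ V →* ℂ).comp ρ, fun g => rfl⟩
  exact even_index_of_hom f.toHomUnits y (by rw [MonoidHom.coe_toHomUnits, hf]; exact hdet)

/-- The case `p = 2`: a self-centralizing involution forces a subgroup of index two. -/
theorem even_of_two {G : Type*} [Group G] [Finite G] {x : G} (hx : orderOf x = 2)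
    (hC : Subgroup.centralizer ({x} : Set G) = Subgroup.zpowers x) :
    Even (commutator G).index := by
  classical
  haveI := Fintype.ofFinite G
  haveI : Fact (Nat.Prime 2) := ⟨Nat.prime_two⟩
  obtain ⟨Q, hQ⟩ := exists_sylow_eq Nat.prime_two hx hC
  have hcQ := Q.card_eq_multiplicity
  have hcQ2 : Nat.card (Q : Subgroup G) = 2 := by rw [hQ, Nat.card_zpowers, hx]
  have hfac : (Nat.card G).factorization 2 = 1 := by
    have h1 : 2 ^ (Nat.card G).factorization 2 = 2 ^ 1 := by
      rw [← hcQ, pow_one]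
      exact hcQ2
    exact Nat.pow_right_injective (le_refl 2) h1
  have h2dvd : 2 ∣ Nat.card G := by
    have h1 := orderOf_dvd_natCard x
    rwa [hx] at h1
  obtain ⟨r, hr⟩ := h2dvd
  have hrodd : Odd r := by
    rw [← Nat.not_even_iff_odd]
    intro he
    obtain ⟨s, hs⟩ := he
    have h4 : 2 ^ ((Nat.card G).factorization 2 + 1) ∣ Nat.card G := by
      rw [hfac, hr, hs]
      exact ⟨s, by ring⟩
    exact Nat.pow_succ_factorization_not_dvd Nat.card_pos.ne' Nat.prime_two h4
  apply even_index_of_rep (Representation.leftRegular ℂ G) x 1 r one_pos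
  · rw [mul_one, ← hx]
    exact pow_orderOf_eq_one x
  · intro m hm1 hm2
    have hm : m = 1 := by omega
    rw [hm, pow_one, Helper2.regular_char, if_neg (ne_one_of_order Nat.prime_two hx)]
  · have h1 := Representation.char_one (Representation.leftRegular ℂ G)
    rw [Helper2.regular_char, if_pos rfl] at h1
    have h2 := Nat.cast_injective (R := ℂ) h1
    rw [← h2, hr]
  · exact hrodd

end Det

end SelfCentP

end Cfsg.Agent.Helper13
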