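import Cfsg.Agent.Helper13.SelfCentP

set_option autoImplicit false

namespace Cfsg.Agent.Helper13

open Cfsg
open scoped commutatorElement

namespace SelfCentP

section Derived

/-- Commutators in a product `K·A` with `K` normal, when the commutators of `A` lie in `B`. -/
theorem comm_sup_le {G : Type*} [Group G] (K : Subgroup G) [K.Normal] (A B : Subgroup G)
    (hAB : ∀ a ∈ A, ∀ b ∈ A, ⁅a, b⁆ ∈ B) : ⁅K ⊔ A, K ⊔ A⁆ ≤ K ⊔ B := by
  rw [Subgroup.commutator_le]
  intro g hg h hh
  obtain ⟨k, hk, a, ha, rfl⟩ := Subgroup.mem_sup_of_normal_left.1 hg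
  obtain ⟨k', hk', a', ha', rfl⟩ := Subgroup.mem_sup_of_normal_left.1 hh
  have h1 : ((⁅k * a, k' * a'⁆ : G) : G ⧸ K) = ((⁅a, a'⁆ : G) : G ⧸ K) := by
    have e1 : ((k * a : G) : G ⧸ K) = (a : G ⧸ K) := by
      rw [QuotientGroup.mk_mul, (QuotientGroup.eq_one_iff k).2 hk, one_mul]
    have e2 : ((k' * a' : G) : G ⧸ K) = (a' : G ⧸ K) := by
      rw [QuotientGroup.mk_mul, (QuotientGroup.eq_one_iff k').2 hk', one_mul]
    have e3 := map_commutatorElement (QuotientGroup.mk' K) (k * a) (k' * a')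
    have e4 := map_commutatorElement (QuotientGroup.mk' K) a a'
    simp only [QuotientGroup.mk'_apply] at e3 e4
    rw [e3, e4, e1, e2]
  have h2 : (⁅a, a'⁆)⁻¹ * ⁅k * a, k' * a'⁆ ∈ K := QuotientGroup.eq.1 h1.symm
  have h3 : ⁅k * a, k' * a'⁆ = ⁅a, a'⁆ * ((⁅a, a'⁆)⁻¹ * ⁅k * a, k' * a'⁆) :=
    (mul_inv_cancel_left _ _).symm
  rw [h3]
  exact Subgroup.mul_mem _ (Subgroup.mem_sup_right (hAB a ha a' ha')) (Subgroup.mem_sup_left h2)

variable {G : Type*} [Group G] [Finite G] {p : ℕ} {x : G}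

theorem zpowers_le_of_mem (hp : p.Prime) (hx : orderOf x = p) {z : G}
    (hz : z ∈ Subgroup.zpowers x) (hz1 : z ≠ 1) (K : Subgroup G) (hzK : z ∈ K) :
    Subgroup.zpowers x ≤ K := by
  haveI : Fact p.Prime := ⟨hp⟩
  have hcard : Nat.card (Subgroup.zpowers x) = p := by rw [Nat.card_zpowers, hx]
  have hz' : (⟨z, hz⟩ : Subgroup.zpowers x) ≠ 1 := fun h => hz1 (congrArg Subtype.val h)
  have htop := zpowers_eq_top_of_prime_card hcard hz'
  have hxmem : (⟨x, Subgroup.mem_zpowers x⟩ : Subgroup.zpowers x)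
      ∈ Subgroup.zpowers (⟨z, hz⟩ : Subgroup.zpowers x) := by
    rw [htop]
    exact Subgroup.mem_top _
  obtain ⟨k, hk⟩ := Subgroup.mem_zpowers_iff.1 hxmem
  have hk' : z ^ k = x := by
    have := congrArg Subtype.val hk
    simpa using this
  rw [Subgroup.zpowers_le, ← hk']
  exact Subgroup.zpow_mem _ hzK k

/-- Commutators of elements of the normalizer lie in the self-centralizing subgroup. -/
theorem commutator_mem_of_normalizer
    (hC : Subgroup.centralizer ({x} : Set G) = Subgroup.zpowers x) {u v : G}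
    (hu : u ∈ Subgroup.normalizer ((Subgroup.zpowers x : Subgroup G) : Set G))
    (hv : v ∈ Subgroup.normalizer ((Subgroup.zpowers x : Subgroup G) : Set G)) :
    ⁅u, v⁆ ∈ Subgroup.zpowers x := by
  have hu' := (Subgroup.mem_normalizer_iff''.1 hu x).1 (Subgroup.mem_zpowers x)
  have hv' := (Subgroup.mem_normalizer_iff''.1 hv x).1 (Subgroup.mem_zpowers x)
  obtain ⟨k, hk⟩ := Subgroup.mem_zpowers_iff.1 hu'
  obtain ⟨l, hl⟩ := Subgroup.mem_zpowers_iff.1 hv'
  have hconj : ∀ (w : G) (i : ℤ), w⁻¹ * x ^ i * w = (w⁻¹ * x * w) ^ i := by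
    intro w i
    have h := map_zpow (MulAut.conj w⁻¹) x i
    rw [MulAut.conj_apply, MulAut.conj_apply, inv_inv] at h
    exact h
  have h1 : (u * v)⁻¹ * x * (u * v) = x ^ (l * k) := by
    calc (u * v)⁻¹ * x * (u * v) = v⁻¹ * (u⁻¹ * x * u) * v := by group
      _ = v⁻¹ * x ^ k * v := by rw [hk]
      _ = (v⁻¹ * x * v) ^ k := hconj v k
      _ = x ^ (l * k) := by rw [← hl, ← zpow_mul]
  have h2 : (v * u)⁻¹ * x * (v * u) = x ^ (k * l) := by
    calc (v * u)⁻¹ * x * (v * u) = u⁻¹ * (v⁻¹ * x * v) * u := by group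
      _ = u⁻¹ * x ^ l * u := by rw [hl]
      _ = (u⁻¹ * x * u) ^ l := hconj u l
      _ = x ^ (k * l) := by rw [← hk, ← zpow_mul]
  have h3 : (u * v)⁻¹ * x * (u * v) = (v * u)⁻¹ * x * (v * u) := by rw [h1, h2, mul_comm]
  rw [← hC, Subgroup.mem_centralizer_iff]
  intro y hy
  rw [Set.mem_singleton_iff] at hy
  rw [hy, commutatorElement_def]
  calc x * (u * v * u⁻¹ * v⁻¹) = (u * v) * ((u * v)⁻¹ * x * (u * v)) * (v * u)⁻¹ := by group
    _ = (u * v) * ((v * u)⁻¹ * x * (v * u)) * (v * u)⁻¹ := by rw [h3]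
    _ = u * v * u⁻¹ * v⁻¹ * x := by group

/-- If the normalizer meets `K` outside the self-centralizing subgroup, the latter lies in
the derived subgroup of `K`. -/
theorem zpowers_le_commutator (hp : p.Prime) (hx : orderOf x = p)
    (hC : Subgroup.centralizer ({x} : Set G) = Subgroup.zpowers x) (K : Subgroup G) {u : G}
    (hu : u ∈ Subgroup.normalizer ((Subgroup.zpowers x : Subgroup G) : Set G))
    (hu' : u ∉ Subgroup.zpowers x) (huK : u ∈ K) (hxK : x ∈ K) :
    Subgroup.zpowers x ≤ ⁅K, K⁆ := by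
  have hc : ⁅u, x⁆ ∈ Subgroup.zpowers x := by
    rw [commutatorElement_def]
    exact Subgroup.mul_mem _ ((Subgroup.mem_normalizer_iff.1 hu x).1 (Subgroup.mem_zpowers x))
      (Subgroup.inv_mem _ (Subgroup.mem_zpowers x))
  have hc1 : ⁅u, x⁆ ≠ 1 := by
    intro h
    apply hu'
    rw [← hC, Subgroup.mem_centralizer_iff]
    intro y hy
    rw [Set.mem_singleton_iff] at hy
    rw [hy]
    rw [commutatorElement_eq_one_iff_mul_comm] at h
    exact h.symm
  exact zpowers_le_of_mem hp hx hc hc1 _ (Subgroup.commutator_mem_commutator huK hxK)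

/-- Frattini argument for a normal subgroup containing the self-centralizing subgroup. -/
theorem normalizer_sup_eq_top (hp : p.Prime) (hx : orderOf x = p)
    (hC : Subgroup.centralizer ({x} : Set G) = Subgroup.zpowers x) (K : Subgroup G)
    [K.Normal] (hPK : Subgroup.zpowers x ≤ K) :
    K ⊔ Subgroup.normalizer ((Subgroup.zpowers x : Subgroup G) : Set G) = ⊤ := by
  haveI : Fact p.Prime := ⟨hp⟩
  obtain ⟨Q, hQ⟩ := exists_sylow_eq hp hx hC
  have hQK : (Q : Subgroup G) ≤ K := by
    rw [hQ]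
    exact hPK
  have h := Sylow.normalizer_sup_eq_top' Q hQK
  have h2 : Subgroup.normalizer ((Q : Subgroup G) : Set G) ⊔ K = ⊤ := h
  rw [hQ] at h2
  rw [sup_comm]
  exact h2

/-- A normal subgroup containing the self-centralizing subgroup contains the commutator
subgroup. -/
theorem commutator_le_of_le (hp : p.Prime) (hx : orderOf x = p)
    (hC : Subgroup.centralizer ({x} : Set G) = Subgroup.zpowers x) (K : Subgroup G)
    [K.Normal] (hPK : Subgroup.zpowers x ≤ K) : commutator G ≤ K := by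
  have h := comm_sup_le K (Subgroup.normalizer ((Subgroup.zpowers x : Subgroup G) : Set G))
    (Subgroup.zpowers x) (fun a ha b hb => commutator_mem_of_normalizer hC ha hb)
  rw [normalizer_sup_eq_top hp hx hC K hPK, sup_of_le_left hPK] at h
  exact h

/-- A normal subgroup meeting the self-centralizing subgroup trivially consists of
commutators with `x`. -/
theorem le_commutator_of_disjoint
    (hC : Subgroup.centralizer ({x} : Set G) = Subgroup.zpowers x) (S : Subgroup G)
    [S.Normal] (hS : ∀ z : G, z ∈ S → z ∈ Subgroup.zpowers x → z = 1) (K : Subgroup G)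
    (hxK : x ∈ K) (hSK : S ≤ K) : S ≤ ⁅K, K⁆ := by
  have hSn : S.Normal := inferInstance
  have hmem : ∀ s : G, s ∈ S → s⁻¹ * (x * s * x⁻¹) ∈ S :=
    fun s hs => Subgroup.mul_mem _ (Subgroup.inv_mem _ hs) (hSn.conj_mem s hs x)
  obtain ⟨f, hf⟩ : ∃ f : S → S, ∀ s : S,
      ((f s : S) : G) = (s : G)⁻¹ * (x * (s : G) * x⁻¹) :=
    ⟨fun s => ⟨_, hmem s s.2⟩, fun s => rfl⟩
  have hinj : Function.Injective f := by
    intro s s' hss
    have h1 : (s : G)⁻¹ * (x * (s : G) * x⁻¹) = (s' : G)⁻¹ * (x * (s' : G) * x⁻¹) := by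
      rw [← hf, ← hf, hss]
    have h3 : (s : G)⁻¹ * x * (s : G) = (s' : G)⁻¹ * x * (s' : G) := by
      calc (s : G)⁻¹ * x * (s : G) = ((s : G)⁻¹ * (x * (s : G) * x⁻¹)) * x := by group
        _ = ((s' : G)⁻¹ * (x * (s' : G) * x⁻¹)) * x := by rw [h1]
        _ = (s' : G)⁻¹ * x * (s' : G) := by group
    have h2 : (s' : G) * (s : G)⁻¹ ∈ Subgroup.zpowers x := by
      rw [← hC, Subgroup.mem_centralizer_iff]
      intro y hy
      rw [Set.mem_singleton_iff] at hy
      rw [hy]
      calc x * ((s' : G) * (s : G)⁻¹)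
          = (s' : G) * ((s' : G)⁻¹ * x * (s' : G)) * (s : G)⁻¹ := by group
        _ = (s' : G) * ((s : G)⁻¹ * x * (s : G)) * (s : G)⁻¹ := by rw [h3]
        _ = (s' : G) * (s : G)⁻¹ * x := by group
    have h5 := hS _ (Subgroup.mul_mem _ s'.2 (Subgroup.inv_mem _ s.2)) h2
    have h6 : (s' : G) = (s : G) := mul_inv_eq_one.1 h5
    exact Subtype.ext h6.symm
  intro s hs
  obtain ⟨s₀, hs₀⟩ := (Finite.injective_iff_surjective.1 hinj) ⟨s, hs⟩
  have h1 : (s₀ : G)⁻¹ * (x * (s₀ : G) * x⁻¹) = s := by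
    rw [← hf, hs₀]
  have h2 : ⁅(s₀ : G)⁻¹, x⁆ = s := by
    rw [commutatorElement_def, inv_inv, ← h1]
    group
  rw [← h2]
  exact Subgroup.commutator_mem_commutator (hSK (Subgroup.inv_mem _ s₀.2)) hxK

/-- The number of subgroups of order `p` is the index of the normalizer. -/
theorem card_subgroups_eq_index (hp : p.Prime) (hx : orderOf x = p)
    (hC : Subgroup.centralizer ({x} : Set G) = Subgroup.zpowers x) :
    Nat.card {H : Subgroup G // Nat.card H = p}
      = (Subgroup.normalizer ((Subgroup.zpowers x : Subgroup G) : Set G)).index := by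
  haveI : Fact p.Prime := ⟨hp⟩
  obtain ⟨Q, hQ⟩ := exists_sylow_eq hp hx hC
  have hcardP : Nat.card (Subgroup.zpowers x) = p := by rw [Nat.card_zpowers, hx]
  have hcardQ0 : Nat.card (Q : Subgroup G) = p := by rw [hQ, hcardP]
  have hcardQ : ∀ Q' : Sylow p G, Nat.card (Q' : Subgroup G) = p := by
    intro Q'
    have h1 := Sylow.card_eq_multiplicity Q'
    have h2 := Sylow.card_eq_multiplicity Q
    exact (h1.trans h2.symm).trans hcardQ0
  have h1 : Nat.card (Sylow p G) = (Subgroup.normalizer ((Q : Subgroup G) : Set G)).index :=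
    Sylow.card_eq_index_normalizer Q
  rw [hQ] at h1
  rw [← h1]
  symm
  refine Nat.card_congr (Equiv.ofBijective (fun Q' : Sylow p G =>
    (⟨(Q' : Subgroup G), hcardQ Q'⟩ : {H : Subgroup G // Nat.card H = p})) ⟨?_, ?_⟩)
  · intro Q₁ Q₂ h
    exact Sylow.ext (congrArg Subtype.val h)
  · rintro ⟨H, hH⟩
    have hHp : IsPGroup p H := IsPGroup.of_card (n := 1) (by rw [hH, pow_one])
    obtain ⟨Q', hQ'⟩ := hHp.exists_le_sylow
    refine ⟨Q', Subtype.ext ?_⟩
    exact (Subgroup.eq_of_le_of_card_ge hQ' (by rw [hcardQ Q', hH])).symm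

/-- The case where the self-centralizing subgroup is self-normalizing: Burnside's transfer
theorem gives a normal complement, which is the commutator subgroup. -/
theorem prime_case (hp : p.Prime) (hx : orderOf x = p)
    (hC : Subgroup.centralizer ({x} : Set G) = Subgroup.zpowers x)
    (hN : Subgroup.normalizer ((Subgroup.zpowers x : Subgroup G) : Set G)
      ≤ Subgroup.zpowers x) :
    Nat.card (commutator G) * p = Nat.card G ∧ IsCyclic (G ⧸ commutator G)
      ∧ (commutator G).index = p := by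
  haveI : Fact p.Prime := ⟨hp⟩
  obtain ⟨Q, hQ⟩ := exists_sylow_eq hp hx hC
  have hP : Subgroup.normalizer ((Q : Subgroup G) : Set G)
      ≤ Subgroup.centralizer ((Q : Subgroup G) : Set G) := by
    rw [hQ]
    intro u hu
    have hu' := hN hu
    rw [Subgroup.mem_centralizer_iff]
    intro h hh
    exact comm_of_mem hh hu'
  have hcompl := MonoidHom.ker_transferSylow_isComplement' Q hP
  obtain ⟨S, hSdef⟩ : ∃ S : Subgroup G, S = (MonoidHom.transferSylow Q hP).ker := ⟨_, rfl⟩
  rw [← hSdef] at hcompl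
  haveI : S.Normal := by
    rw [hSdef]
    infer_instance
  rw [hQ] at hcompl
  have hcard := hcompl.card_mul_card
  rw [Nat.card_zpowers, hx] at hcard
  have hdisj := hcompl.disjoint
  have hsup := hcompl.sup_eq_top
  have hle1 : commutator G ≤ S := by
    have h := comm_sup_le S (Subgroup.zpowers x) ⊥ (fun a ha b hb => by
      rw [Subgroup.mem_bot, commutatorElement_eq_one_iff_mul_comm]
      exact comm_of_mem ha hb)
    rw [hsup, sup_bot_eq] at h
    exact h
  have hle2 : S ≤ commutator G :=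
    le_commutator_of_disjoint hC S (fun z hz1 hz2 => Subgroup.disjoint_def.1 hdisj hz1 hz2) ⊤
      (Subgroup.mem_top x) le_top
  have heq : commutator G = S := le_antisymm hle1 hle2
  have hidx : (commutator G).index = p := by
    have h1 := Subgroup.card_mul_index (commutator G)
    rw [heq] at h1 ⊢
    rw [← hcard] at h1
    exact Nat.eq_of_mul_eq_mul_left Nat.card_pos h1
  refine ⟨by rw [heq]; exact hcard, ?_, hidx⟩
  apply isCyclic_of_prime_card (p := p)
  rw [← Subgroup.index_eq_card]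
  exact hidx

/-- If the normalizer meets a subgroup `D` containing the self-centralizing subgroup only in
the latter, the derived subgroup of `D` has index `p` in `D`. -/
theorem card_commutator_of_normalizer_inf (hp : p.Prime) (hx : orderOf x = p)
    (hC : Subgroup.centralizer ({x} : Set G) = Subgroup.zpowers x) (D : Subgroup G)
    (hPD : Subgroup.zpowers x ≤ D)
    (hND : ∀ u : G, u ∈ Subgroup.normalizer ((Subgroup.zpowers x : Subgroup G) : Set G) →
      u ∈ D → u ∈ Subgroup.zpowers x) :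
    Nat.card (⁅D, D⁆ : Subgroup G) * p = Nat.card D := by
  have hxD : x ∈ D := hPD (Subgroup.mem_zpowers x)
  have hmem : ∀ d : D, (d : G) ∈ Subgroup.zpowers x
      ↔ d ∈ Subgroup.zpowers (⟨x, hxD⟩ : D) := by
    intro d
    rw [Subgroup.mem_zpowers_iff, Subgroup.mem_zpowers_iff]
    constructor
    · rintro ⟨k, hk⟩
      exact ⟨k, Subtype.ext (by rw [Subgroup.coe_zpow]; exact hk)⟩
    · rintro ⟨k, hk⟩
      refine ⟨k, ?_⟩
      have h1 := congrArg Subtype.val hk
      rw [Subgroup.coe_zpow] at h1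
      exact h1
  have hxo : orderOf (⟨x, hxD⟩ : D) = p := by
    rw [← hx]
    exact Subgroup.orderOf_mk x hxD
  have hCD : Subgroup.centralizer ({(⟨x, hxD⟩ : D)} : Set D)
      = Subgroup.zpowers (⟨x, hxD⟩ : D) := by
    ext d
    rw [← hmem, ← hC, Subgroup.mem_centralizer_iff, Subgroup.mem_centralizer_iff]
    constructor
    · intro h y hy
      rw [Set.mem_singleton_iff] at hy
      rw [hy]
      exact congrArg Subtype.val (h _ (Set.mem_singleton _))
    · intro h y hy
      rw [Set.mem_singleton_iff] at hy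
      rw [hy]
      exact Subtype.ext (h _ (Set.mem_singleton _))
  have hNDD : Subgroup.normalizer ((Subgroup.zpowers (⟨x, hxD⟩ : D) : Subgroup D) : Set D)
      ≤ Subgroup.zpowers (⟨x, hxD⟩ : D) := by
    intro u hu
    rw [← hmem]
    apply hND _ _ u.2
    have h1 : u * ⟨x, hxD⟩ * u⁻¹ ∈ Subgroup.zpowers (⟨x, hxD⟩ : D) :=
      (Subgroup.mem_normalizer_iff.1 hu _).1 (Subgroup.mem_zpowers _)
    rw [← hmem] at h1
    have h2 : ((u : G)⁻¹)⁻¹ * x * (u : G)⁻¹ ∈ Subgroup.zpowers x := by
      rw [inv_inv]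
      exact h1
    have h3 := mem_normalizer_of_conj hp hx hC (Subgroup.mem_zpowers x)
      (ne_one_of_order hp hx) h2
    have h4 := Subgroup.inv_mem _ h3
    rwa [inv_inv] at h4
  have h := (prime_case hp hxo hCD hNDD).1
  rw [← h, ← Subgroup.map_subtype_commutator D,
    Subgroup.card_map_of_injective D.subtype_injective]

end Derived

end SelfCentP

end Cfsg.Agent.Helper13
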