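import Mathlib
import Cfsg.Agent.Helper13.FourierWt

set_option autoImplicit false

namespace Cfsg.Agent.Helper13

open Matrix

section SpCross

variable {F : Type*} [Field F] {n : ℕ}

/-- The symmetric matrix `e₁ wᵀ + w e₁ᵀ`. -/
def spxS (i₁ : Fin n) (w : Fin n → F) : Matrix (Fin n) (Fin n) F :=
  vecMulVec (Pi.single i₁ 1) w + vecMulVec w (Pi.single i₁ 1)

theorem spxS_transpose (i₁ : Fin n) (w : Fin n → F) : (spxS i₁ w)ᵀ = spxS i₁ w := by
  unfold spxS
  rw [transpose_add, transpose_vecMulVec, transpose_vecMulVec, add_comm]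

theorem spxS_add (i₁ : Fin n) (v w : Fin n → F) :
    spxS i₁ (v + w) = spxS i₁ v + spxS i₁ w := by
  unfold spxS
  rw [vecMulVec_add, add_vecMulVec]
  abel

theorem spxS_zero (i₁ : Fin n) : spxS i₁ (0 : Fin n → F) = 0 := by
  unfold spxS
  rw [vecMulVec_zero, zero_vecMulVec, add_zero]

/-- The upper unitriangular block matrix with upper right block `S`. -/
def spxU (S : Matrix (Fin n) (Fin n) F) : Matrix (Fin n ⊕ Fin n) (Fin n ⊕ Fin n) F :=
  fromBlocks 1 S 0 1

theorem spxU_mem (S : Matrix (Fin n) (Fin n) F) (hS : Sᵀ = S) :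
    spxU S ∈ Matrix.symplecticGroup (Fin n) F := by
  rw [SymplecticGroup.mem_iff]
  unfold spxU Matrix.J
  rw [fromBlocks_multiply, fromBlocks_transpose, fromBlocks_multiply, hS]
  simp

theorem spxU_mul (S T : Matrix (Fin n) (Fin n) F) : spxU S * spxU T = spxU (S + T) := by
  unfold spxU
  rw [fromBlocks_multiply]
  simp [add_comm]

theorem spxU_zero : spxU (0 : Matrix (Fin n) (Fin n) F) = 1 := by
  unfold spxU
  exact fromBlocks_one

/-- The block diagonal matrix `diag(A, A'ᵀ)`. -/
def spxD (A A' : Matrix (Fin n) (Fin n) F) : Matrix (Fin n ⊕ Fin n) (Fin n ⊕ Fin n) F :=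
  fromBlocks A 0 0 A'ᵀ

theorem spxD_mem (A A' : Matrix (Fin n) (Fin n) F) (h : A * A' = 1) :
    spxD A A' ∈ Matrix.symplecticGroup (Fin n) F := by
  rw [SymplecticGroup.mem_iff]
  unfold spxD Matrix.J
  rw [fromBlocks_multiply, fromBlocks_transpose, fromBlocks_multiply]
  simp [h, ← transpose_mul]

theorem spxD_mul (A A' : Matrix (Fin n) (Fin n) F) (h : A * A' = 1) :
    spxD A A' * spxD A' A = 1 := by
  unfold spxD
  rw [fromBlocks_multiply]
  simp [h, ← transpose_mul, fromBlocks_one]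

theorem spxD_conj (A A' S : Matrix (Fin n) (Fin n) F) (h : A * A' = 1) :
    spxD A A' * spxU S * spxD A' A = spxU (A * S * Aᵀ) := by
  unfold spxD spxU
  rw [fromBlocks_multiply, fromBlocks_multiply]
  simp [h, ← transpose_mul]

theorem spxS_conj (i₁ : Fin n) (A : Matrix (Fin n) (Fin n) F) (v : Fin n → F) (c : F)
    (hA : A *ᵥ Pi.single i₁ (1 : F) = c • Pi.single i₁ (1 : F)) :
    A * spxS i₁ v * Aᵀ = spxS i₁ (c • (A *ᵥ v)) := by
  unfold spxS
  rw [Matrix.mul_add, Matrix.add_mul, mul_vecMulVec, mul_vecMulVec, vecMulVec_mul, vecMulVec_mul,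
    vecMul_transpose, vecMul_transpose, hA, smul_vecMulVec, vecMulVec_smul, vecMulVec_smul,
    smul_vecMulVec]

/-- The unipotent element `X_w` of `Sp_{2n}(F)`. -/
def spxX (i₁ : Fin n) (w : Fin n → F) : ↥(Matrix.symplecticGroup (Fin n) F) :=
  ⟨spxU (spxS i₁ w), spxU_mem _ (spxS_transpose i₁ w)⟩

theorem spxX_add (i₁ : Fin n) (v w : Fin n → F) :
    spxX i₁ (v + w) = spxX i₁ v * spxX i₁ w := by
  apply Subtype.ext
  show spxU (spxS i₁ (v + w)) = spxU (spxS i₁ v) * spxU (spxS i₁ w)
  rw [spxU_mul, spxS_add]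

theorem spxX_zero (i₁ : Fin n) : spxX i₁ (0 : Fin n → F) = 1 := by
  apply Subtype.ext
  show spxU (spxS i₁ 0) = 1
  rw [spxS_zero, spxU_zero]

/-- The Levi element `diag(A, A⁻ᵀ)` of `Sp_{2n}(F)`. -/
def spxDg (A A' : Matrix (Fin n) (Fin n) F) (h : A * A' = 1) :
    ↥(Matrix.symplecticGroup (Fin n) F) :=
  ⟨spxD A A', spxD_mem A A' h⟩

theorem spxDg_mul (A A' : Matrix (Fin n) (Fin n) F) (h : A * A' = 1) (h' : A' * A = 1) :
    spxDg A' A h' * spxDg A A' h = 1 :=
  Subtype.ext (spxD_mul A' A h')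

theorem spxDg_conj (i₁ : Fin n) (A A' : Matrix (Fin n) (Fin n) F) (h : A * A' = 1)
    (h' : A' * A = 1) (v w : Fin n → F) (hS : A * spxS i₁ v * Aᵀ = spxS i₁ w) :
    spxDg A A' h * spxX i₁ v * spxDg A' A h' = spxX i₁ w := by
  apply Subtype.ext
  show spxD A A' * spxU (spxS i₁ v) * spxD A' A = spxU (spxS i₁ w)
  rw [spxD_conj A A' _ h, hS]

theorem spx_transvection_mulVec (k l : Fin n) (s : F) (v : Fin n → F) :
    transvection k l s *ᵥ v = v + (s * v l) • Pi.single k (1 : F) := by
  unfold transvection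
  rw [Matrix.add_mulVec, Matrix.one_mulVec, Matrix.single_mulVec]
  congr 1
  funext j
  by_cases hj : j = k
  · rw [hj]
    simp
  · rw [Function.update_of_ne hj, Pi.smul_apply, Pi.single_eq_of_ne hj, smul_zero]
    rfl

theorem spx_diag_mulVec (i₁ : Fin n) (c : F) (v : Fin n → F) :
    diagonal (fun j : Fin n => if j = i₁ then c else 1) *ᵥ v
      = fun j => (if j = i₁ then c else 1) * v j := by
  funext j
  rw [mulVec_diagonal]

theorem spx_diag_mul (i₁ : Fin n) (c c' : F) (h : c * c' = 1) :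
    diagonal (fun j : Fin n => if j = i₁ then c else 1) *
      diagonal (fun j : Fin n => if j = i₁ then c' else 1) = 1 := by
  rw [diagonal_mul_diagonal, ← diagonal_one]
  congr 1
  funext j
  by_cases hj : j = i₁
  · rw [if_pos hj, if_pos hj, h]
  · rw [if_neg hj, if_neg hj, mul_one]

end SpCross

theorem spx_fill {I : Type*} [DecidableEq I] [Fintype I] {F : Type*} [Field F]
    (Q : (I → F) → Prop) (i : I)
    (hstep : ∀ (a : I → F) (j : I), j ≠ i → ∀ s : F, Q a →
      Q (a + (s * a i) • Pi.single j (1 : F)))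
    (a c : I → F) (hai : a i ≠ 0) (hci : c i = a i) (ha : Q a) : Q c := by
  classical
  have key : ∀ J : Finset I, i ∉ J → Q (fun j => if j ∈ J then c j else a j) := by
    intro J
    induction J using Finset.induction_on with
    | empty =>
      intro _
      have h0 : (fun j => if j ∈ (∅ : Finset I) then c j else a j) = a := by
        funext j
        simp
      rw [h0]
      exact ha
    | insert j J hj ih =>
      intro hi
      have hij : i ≠ j := fun h => hi (by rw [h]; exact Finset.mem_insert_self j J)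
      have hiJ : i ∉ J := fun h => hi (Finset.mem_insert_of_mem h)
      have h1 := hstep _ j (Ne.symm hij) ((c j - a j) / a i) (ih hiJ)
      have h2 : (fun x => if x ∈ J then c x else a x) +
          ((c j - a j) / a i * (if i ∈ J then c i else a i)) • Pi.single j (1 : F)
          = (fun x => if x ∈ insert j J then c x else a x) := by
        funext x
        by_cases hx : x = j
        · rw [hx, Pi.add_apply, Pi.smul_apply, Pi.single_eq_same, if_neg hj, if_neg hiJ,
            if_pos (Finset.mem_insert_self j J), smul_eq_mul, mul_one]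
          field_simp
          ring
        · rw [Pi.add_apply, Pi.smul_apply, Pi.single_eq_of_ne hx, smul_zero, add_zero]
          by_cases hxJ : x ∈ J
          · rw [if_pos hxJ, if_pos (Finset.mem_insert_of_mem hxJ)]
          · rw [if_neg hxJ, if_neg (fun h => by
              rcases Finset.mem_insert.mp h with h | h
              · exact hx h
              · exact hxJ h)]
      rw [← h2]
      exact h1
  have h3 := key (Finset.univ.erase i) (Finset.notMem_erase i _)
  have h4 : (fun j => if j ∈ Finset.univ.erase i then c j else a j) = c := by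
    funext j
    by_cases hj : j = i
    · rw [if_neg (by rw [hj]; exact Finset.notMem_erase i _), hj, hci]
    · rw [if_pos (Finset.mem_erase.mpr ⟨hj, Finset.mem_univ j⟩)]
  rw [h4] at h3
  exact h3

section SpCrossRep

variable {F : Type*} [Field F] [Fintype F] {n : ℕ} {K : Type*} [Field K] {d : ℕ}

set_option maxHeartbeats 400000 in
theorem spx_conj_step
    (ρ : ↥(Matrix.symplecticGroup (Fin n) F) →* GL (Fin d) K)
    (K' : Type*) [Field K'] [Algebra K K'] (ψ : AddChar F K') (i₁ : Fin n)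
    (R : (Fin n → F) → Matrix (Fin d) (Fin d) K')
    (hR : ∀ v, R v = (algebraMap K K').mapMatrix
        ((ρ (spxX i₁ v) : GL (Fin d) K) : Matrix (Fin d) (Fin d) K))
    (A A' : Matrix (Fin n) (Fin n) F) (h : A * A' = 1) (h' : A' * A = 1)
    (E : (Fin n → F) ≃ (Fin n → F)) (B : (Fin n → F) → (Fin n → F))
    (hS : ∀ v, A * spxS i₁ v * Aᵀ = spxS i₁ (E v))
    (hdot : ∀ a v, a ⬝ᵥ v = (B a) ⬝ᵥ (E v))
    (a : Fin n → F) (ha : fwOp ψ R a ≠ 0) : fwOp ψ R (B a) ≠ 0 := by
  have hgg : (algebraMap K K').mapMatrix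
        ((ρ (spxDg A' A h') : GL (Fin d) K) : Matrix (Fin d) (Fin d) K) *
      (algebraMap K K').mapMatrix
        ((ρ (spxDg A A' h) : GL (Fin d) K) : Matrix (Fin d) (Fin d) K) = 1 := by
    rw [← map_mul, ← Units.val_mul, ← map_mul, spxDg_mul A A' h h', map_one, Units.val_one,
      map_one]
  have hconj : ∀ v, (algebraMap K K').mapMatrix
        ((ρ (spxDg A A' h) : GL (Fin d) K) : Matrix (Fin d) (Fin d) K) * R v *
      (algebraMap K K').mapMatrix
        ((ρ (spxDg A' A h') : GL (Fin d) K) : Matrix (Fin d) (Fin d) K) = R (E v) := by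
    intro v
    have hSL : spxDg A A' h * spxX i₁ v * spxDg A' A h' = spxX i₁ (E v) :=
      spxDg_conj i₁ A A' h h' v (E v) (hS v)
    rw [hR, hR, ← hSL, map_mul, map_mul, Units.val_mul, Units.val_mul, map_mul, map_mul]
  have h9 := fw_conj_ne ψ R _ _ hgg E B hconj hdot a ha
  exact h9

set_option maxHeartbeats 400000 in
theorem spx_stepT
    (ρ : ↥(Matrix.symplecticGroup (Fin n) F) →* GL (Fin d) K)
    (K' : Type*) [Field K'] [Algebra K K'] (ψ : AddChar F K') (i₁ : Fin n)
    (R : (Fin n → F) → Matrix (Fin d) (Fin d) K')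
    (hR : ∀ v, R v = (algebraMap K K').mapMatrix
        ((ρ (spxX i₁ v) : GL (Fin d) K) : Matrix (Fin d) (Fin d) K))
    (k l : Fin n) (hkl : k ≠ l) (hl : l ≠ i₁) (s : F)
    (a : Fin n → F) (ha : fwOp ψ R a ≠ 0) :
    fwOp ψ R (a + (s * a k) • Pi.single l (1 : F)) ≠ 0 := by
  obtain ⟨E, hE⟩ : ∃ E : (Fin n → F) ≃ (Fin n → F),
      ∀ v, E v = v + (-s * v l) • Pi.single k (1 : F) := by
    refine ⟨⟨fun v => v + (-s * v l) • Pi.single k (1 : F),
      fun v => v + (s * v l) • Pi.single k (1 : F), ?_, ?_⟩, fun _ => rfl⟩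
    · intro v
      funext x
      simp only [Pi.add_apply, Pi.smul_apply, Pi.single_apply, smul_eq_mul,
        if_neg (Ne.symm hkl)]
      ring
    · intro v
      funext x
      simp only [Pi.add_apply, Pi.smul_apply, Pi.single_apply, smul_eq_mul,
        if_neg (Ne.symm hkl)]
      ring
  have h1 : transvection k l (-s) * transvection k l s = 1 := by
    rw [transvection_mul_transvection_same k l hkl, neg_add_cancel, transvection_zero]
  have h2 : transvection k l s * transvection k l (-s) = 1 := by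
    rw [transvection_mul_transvection_same k l hkl, add_neg_cancel, transvection_zero]
  have hS : ∀ v, transvection k l (-s) * spxS i₁ v * (transvection k l (-s))ᵀ
      = spxS i₁ (E v) := by
    intro v
    have h3 : transvection k l (-s) *ᵥ Pi.single i₁ (1 : F) = (1 : F) • Pi.single i₁ (1 : F) := by
      rw [spx_transvection_mulVec, Pi.single_eq_of_ne hl, mul_zero, zero_smul, add_zero,
        one_smul]
    rw [spxS_conj i₁ _ v 1 h3, one_smul, spx_transvection_mulVec, hE]
  have hdot : ∀ (a v : Fin n → F),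
      a ⬝ᵥ v = (a + (s * a k) • Pi.single l (1 : F)) ⬝ᵥ (E v) := by
    intro a v
    rw [hE]
    simp only [add_dotProduct, dotProduct_add, smul_dotProduct, dotProduct_smul,
      single_dotProduct, dotProduct_single, smul_eq_mul, one_mul, mul_one, Pi.add_apply,
      Pi.smul_apply, Pi.single_eq_of_ne hkl, mul_zero, add_zero]
    ring
  have h9 := spx_conj_step ρ K' ψ i₁ R hR _ _ h1 h2 E
    (fun a => a + (s * a k) • Pi.single l (1 : F)) hS hdot a ha
  exact h9

set_option maxHeartbeats 400000 in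
theorem spx_stepD
    (ρ : ↥(Matrix.symplecticGroup (Fin n) F) →* GL (Fin d) K)
    (K' : Type*) [Field K'] [Algebra K K'] (ψ : AddChar F K') (i₁ : Fin n)
    (R : (Fin n → F) → Matrix (Fin d) (Fin d) K')
    (hR : ∀ v, R v = (algebraMap K K').mapMatrix
        ((ρ (spxX i₁ v) : GL (Fin d) K) : Matrix (Fin d) (Fin d) K))
    (c : F) (hc : c ≠ 0)
    (a : Fin n → F) (ha : fwOp ψ R a ≠ 0) :
    fwOp ψ R (fun j => c⁻¹ * ((if j = i₁ then c⁻¹ else 1) * a j)) ≠ 0 := by
  obtain ⟨E, hE⟩ : ∃ E : (Fin n → F) ≃ (Fin n → F),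
      ∀ v, E v = fun j => c * ((if j = i₁ then c else 1) * v j) := by
    refine ⟨⟨fun v j => c * ((if j = i₁ then c else 1) * v j),
      fun v j => c⁻¹ * ((if j = i₁ then c⁻¹ else 1) * v j), ?_, ?_⟩, fun _ => rfl⟩
    · intro v
      funext j
      by_cases hj : j = i₁
      · simp only [if_pos hj]
        field_simp
      · simp only [if_neg hj]
        field_simp
    · intro v
      funext j
      by_cases hj : j = i₁
      · simp only [if_pos hj]
        field_simp
      · simp only [if_neg hj]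
        field_simp
  have h1 := spx_diag_mul i₁ c c⁻¹ (mul_inv_cancel₀ hc)
  have h2 := spx_diag_mul i₁ c⁻¹ c (inv_mul_cancel₀ hc)
  have hS : ∀ v, diagonal (fun j : Fin n => if j = i₁ then c else 1) * spxS i₁ v *
      (diagonal (fun j : Fin n => if j = i₁ then c else 1))ᵀ = spxS i₁ (E v) := by
    intro v
    have h3 : diagonal (fun j : Fin n => if j = i₁ then c else 1) *ᵥ Pi.single i₁ (1 : F)
        = c • Pi.single i₁ (1 : F) := by
      rw [spx_diag_mulVec]
      funext j
      by_cases hj : j = i₁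
      · rw [hj]
        simp
      · simp [Pi.single_eq_of_ne hj, if_neg hj]
    rw [spxS_conj i₁ _ v c h3, spx_diag_mulVec, hE]
    rfl
  have hdot : ∀ (a v : Fin n → F),
      a ⬝ᵥ v = (fun j => c⁻¹ * ((if j = i₁ then c⁻¹ else 1) * a j)) ⬝ᵥ (E v) := by
    intro a v
    rw [hE]
    simp only [dotProduct]
    apply Finset.sum_congr rfl
    intro j _
    by_cases hj : j = i₁
    · simp only [if_pos hj]
      field_simp
    · simp only [if_neg hj]
      field_simp
  have h9 := spx_conj_step ρ K' ψ i₁ R hR _ _ h1 h2 E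
    (fun a => fun j => c⁻¹ * ((if j = i₁ then c⁻¹ else 1) * a j)) hS hdot a ha
  exact h9

set_option maxHeartbeats 400000 in
theorem spx_exists (hodd : Odd (Fintype.card F))
    (ρ : ↥(Matrix.symplecticGroup (Fin n) F) →* GL (Fin d) K)
    (hker : ρ.ker ≤ Subgroup.center ↥(Matrix.symplecticGroup (Fin n) F))
    (K' : Type*) [Field K'] [Algebra K K'] (ψ : AddChar F K') (hψ : ψ.IsPrimitive) (i₁ : Fin n)
    (R : (Fin n → F) → Matrix (Fin d) (Fin d) K')
    (hR : ∀ v, R v = (algebraMap K K').mapMatrix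
        ((ρ (spxX i₁ v) : GL (Fin d) K) : Matrix (Fin d) (Fin d) K))
    (hR0 : R 0 = 1) (hRadd : ∀ v w, R (v + w) = R v * R w)
    (hq : (Fintype.card (Fin n → F) : K') ≠ 0) :
    ∃ a : Fin n → F, a i₁ ≠ 0 ∧ fwOp ψ R a ≠ 0 := by
  classical
  by_contra hcon
  have hcon' : ∀ a : Fin n → F, a i₁ ≠ 0 → fwOp ψ R a = 0 := by
    intro a ha
    by_contra h
    exact hcon ⟨a, ha, h⟩
  obtain ⟨w, hw⟩ : ∃ w : Fin n → F, w = Pi.single i₁ (1 : F) := ⟨_, rfl⟩
  have h3 : R w = 1 := by
    have h2 := fw_sum ψ hψ R hR0 hq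
    calc R w = R w * ∑ a : Fin n → F, fwOp ψ R a := by rw [h2, Matrix.mul_one]
      _ = ∑ a : Fin n → F, fwOp ψ R a := by
        rw [Finset.mul_sum]
        apply Finset.sum_congr rfl
        intro a _
        rw [fw_mul ψ R hRadd w a]
        by_cases ha : a i₁ = 0
        · rw [hw, dotProduct_single, ha, zero_mul, AddChar.map_zero_eq_one, one_smul]
        · rw [hcon' a ha, smul_zero]
      _ = 1 := h2
  rw [hR] at h3
  have h5 : ((ρ (spxX i₁ w) : GL (Fin d) K) : Matrix (Fin d) (Fin d) K) = 1 := by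
    apply Matrix.map_injective (algebraMap K K').injective
    show ((ρ (spxX i₁ w) : GL (Fin d) K) : Matrix (Fin d) (Fin d) K).map (algebraMap K K')
      = (1 : Matrix (Fin d) (Fin d) K).map (algebraMap K K')
    have h6 := h3
    rw [RingHom.mapMatrix_apply] at h6
    rw [h6]
    have h7 := map_one ((algebraMap K K').mapMatrix (m := Fin d))
    rw [RingHom.mapMatrix_apply] at h7
    exact h7.symm
  have h7 : spxX i₁ w ∈ ρ.ker := by
    rw [MonoidHom.mem_ker]
    exact Units.ext h5
  have h8 := hker h7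
  rw [Subgroup.mem_center_iff] at h8
  have h9 := h8 (SymplecticGroup.symJ (Fin n) F)
  have h10 := congrArg Subtype.val h9
  have h11 : Matrix.J (Fin n) F * spxU (spxS i₁ w) = spxU (spxS i₁ w) * Matrix.J (Fin n) F := h10
  unfold spxU Matrix.J at h11
  rw [fromBlocks_multiply, fromBlocks_multiply, fromBlocks_inj] at h11
  have h12 : spxS i₁ w = 0 := by
    have h13 := h11.2.2.2
    simpa using h13
  have h13 := congrFun (congrFun h12 i₁) i₁
  unfold spxS at h13
  rw [hw, Matrix.add_apply, vecMulVec_apply, Pi.single_eq_same, Matrix.zero_apply] at h13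
  obtain ⟨m, hm⟩ := hodd
  have h14 : ((Fintype.card F : ℕ) : F) = 0 := Nat.cast_card_eq_zero F
  rw [hm] at h14
  push_cast at h14
  have h15 : (1 : F) = 0 := by linear_combination h14 - (m : F) * h13
  exact one_ne_zero h15

set_option maxHeartbeats 400000 in
theorem sp_cross_bound_aux (n : ℕ) (hn : 1 ≤ n) {F : Type*} [Field F] [Fintype F]
    (hodd : Odd (Fintype.card F))
    {K : Type*} [Field K] (hK : ringChar K ≠ ringChar F) {d : ℕ}
    (ρ : ↥(Matrix.symplecticGroup (Fin n) F) →* GL (Fin d) K)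
    (hker : ρ.ker ≤ Subgroup.center ↥(Matrix.symplecticGroup (Fin n) F))
    (K' : Type*) [Field K'] [Algebra K K'] (ψ : AddChar F K') (hψ : ψ.IsPrimitive) :
    Fintype.card F ^ (n - 1) * (Fintype.card F - 1) / 2 ≤ d := by
  classical
  obtain ⟨i₁, hi₁⟩ : ∃ i₁ : Fin n, i₁ = ⟨0, by omega⟩ := ⟨_, rfl⟩
  obtain ⟨R, hR⟩ : ∃ R : (Fin n → F) → Matrix (Fin d) (Fin d) K',
      ∀ v, R v = (algebraMap K K').mapMatrix
        ((ρ (spxX i₁ v) : GL (Fin d) K) : Matrix (Fin d) (Fin d) K) := ⟨_, fun _ => rfl⟩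
  have hR0 : R 0 = 1 := by
    rw [hR, spxX_zero, map_one, Units.val_one, map_one]
  have hRadd : ∀ v w, R (v + w) = R v * R w := by
    intro v w
    rw [hR, hR, hR, spxX_add, map_mul, Units.val_mul, map_mul]
  have hq : (Fintype.card (Fin n → F) : K') ≠ 0 := by
    have hp : Fact (ringChar F).Prime := ⟨CharP.char_is_prime F _⟩
    obtain ⟨k, -, hk⟩ := FiniteField.card F (ringChar F)
    have h1 : ((ringChar F : ℕ) : K) ≠ 0 := by
      intro h
      rw [ringChar.spec] at h
      rcases (Nat.dvd_prime hp.out).mp h with h' | h'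
      · exact CharP.ringChar_ne_one h'
      · exact hK h'
    have h2 : ((ringChar F : ℕ) : K') ≠ 0 := by
      rw [← map_natCast (algebraMap K K')]
      exact (map_ne_zero _).mpr h1
    rw [Fintype.card_fun, hk]
    push_cast
    exact pow_ne_zero _ (pow_ne_zero _ h2)
  obtain ⟨a₀, ha₀, hQa₀⟩ := spx_exists hodd ρ hker K' ψ hψ i₁ R hR hR0 hRadd hq
  have hstep : ∀ (a : Fin n → F) (j : Fin n), j ≠ i₁ → ∀ s : F, fwOp ψ R a ≠ 0 →
      fwOp ψ R (a + (s * a i₁) • Pi.single j (1 : F)) ≠ 0 :=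
    fun a j hj s ha => spx_stepT ρ K' ψ i₁ R hR i₁ j (Ne.symm hj) hj s a ha
  obtain ⟨f, hf⟩ : ∃ f : F → F, ∀ c, f c = c⁻¹ * (c⁻¹ * a₀ i₁) := ⟨_, fun _ => rfl⟩
  obtain ⟨U, hU⟩ : ∃ U : Finset F, U = Finset.univ.filter (fun c : F => c ≠ 0) := ⟨_, rfl⟩
  have hUmem : ∀ c ∈ U, c ≠ 0 := by
    intro c hc
    rw [hU] at hc
    exact (Finset.mem_filter.mp hc).2
  have hUcard : U.card = Fintype.card F - 1 := by
    rw [hU, Finset.filter_ne' Finset.univ (0 : F), Finset.card_erase_of_mem (Finset.mem_univ _),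
      Finset.card_univ]
  have hfib : ∀ y ∈ U.image f, (U.filter (fun x => f x = y)).card ≤ 2 := by
    intro y hy
    obtain ⟨c, hc, rfl⟩ := Finset.mem_image.mp hy
    have hc0 := hUmem c hc
    have hsub : U.filter (fun x => f x = f c) ⊆ {c, -c} := by
      intro x hx
      rw [Finset.mem_filter] at hx
      have hx0 := hUmem x hx.1
      have h1 : x⁻¹ * (x⁻¹ * a₀ i₁) = c⁻¹ * (c⁻¹ * a₀ i₁) := by
        rw [← hf, ← hf]
        exact hx.2
      have e1 : c * c * (x⁻¹ * (x⁻¹ * a₀ i₁)) * (x * x) = c * c * a₀ i₁ := by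
        field_simp
      have e2 : c * c * (c⁻¹ * (c⁻¹ * a₀ i₁)) * (x * x) = x * x * a₀ i₁ := by
        field_simp
      rw [h1, e2] at e1
      have h2 : x * x = c * c := mul_right_cancel₀ ha₀ e1
      have h3 : (x - c) * (x + c) = 0 := by linear_combination h2
      rcases mul_eq_zero.mp h3 with h | h
      · rw [Finset.mem_insert]
        left
        exact sub_eq_zero.mp h
      · rw [Finset.mem_insert, Finset.mem_singleton]
        right
        exact eq_neg_of_add_eq_zero_left h
    exact (Finset.card_le_card hsub).trans Finset.card_le_two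
  have hcnt : U.card ≤ 2 * (U.image f).card := Finset.card_le_mul_card_image U 2 hfib
  obtain ⟨S, hS⟩ : ∃ S : Finset (Fin n → F),
      S = Fintype.piFinset (fun j : Fin n => if j = i₁ then U.image f else Finset.univ) :=
    ⟨_, rfl⟩
  have hScard : S.card = (U.image f).card * Fintype.card F ^ (n - 1) := by
    rw [hS, Fintype.card_piFinset, ← Finset.mul_prod_erase Finset.univ _ (Finset.mem_univ i₁),
      if_pos rfl]
    congr 1
    have h1 : ∀ j ∈ Finset.univ.erase i₁,
        (if j = i₁ then U.image f else (Finset.univ : Finset F)).card = Fintype.card F := by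
      intro j hj
      rw [if_neg (Finset.ne_of_mem_erase hj), Finset.card_univ]
    rw [Finset.prod_congr rfl h1, Finset.prod_const,
      Finset.card_erase_of_mem (Finset.mem_univ _), Finset.card_univ, Fintype.card_fin]
  have hSmem : ∀ b ∈ S, fwOp ψ R b ≠ 0 := by
    intro b hb
    rw [hS, Fintype.mem_piFinset] at hb
    have hb1 := hb i₁
    rw [if_pos rfl] at hb1
    obtain ⟨c, hc, hcb⟩ := Finset.mem_image.mp hb1
    have hc0 := hUmem c hc
    have h1 := spx_stepD ρ K' ψ i₁ R hR c hc0 a₀ hQa₀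
    refine spx_fill (fun a : Fin n → F => fwOp ψ R a ≠ 0) i₁ hstep _ b ?_ ?_ h1
    · show c⁻¹ * ((if i₁ = i₁ then c⁻¹ else 1) * a₀ i₁) ≠ 0
      rw [if_pos rfl]
      exact mul_ne_zero (inv_ne_zero hc0) (mul_ne_zero (inv_ne_zero hc0) ha₀)
    · show b i₁ = c⁻¹ * ((if i₁ = i₁ then c⁻¹ else 1) * a₀ i₁)
      rw [if_pos rfl, ← hcb, hf]
  have hcard := fw_card_le ψ hψ R hRadd hq S hSmem
  rw [hScard] at hcard
  apply Nat.div_le_of_le_mul
  rw [hUcard] at hcnt
  calc Fintype.card F ^ (n - 1) * (Fintype.card F - 1)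
      ≤ Fintype.card F ^ (n - 1) * (2 * (U.image f).card) := Nat.mul_le_mul_left _ hcnt
    _ = 2 * ((U.image f).card * Fintype.card F ^ (n - 1)) := by ring
    _ ≤ 2 * d := Nat.mul_le_mul_left _ hcard

/-- **Landazuri–Seitz bound for `Sp_{2n}(q)`, `q` odd**: a representation of `Sp_{2n}(F)` in
cross characteristic with central kernel has degree at least `q^(n-1)(q-1)/2`. -/
theorem sp_cross_bound (n : ℕ) (hn : 1 ≤ n) {F : Type*} [Field F] [Fintype F]
    (hodd : Odd (Fintype.card F))
    {K : Type*} [Field K] (hK : ringChar K ≠ ringChar F) {d : ℕ}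
    (ρ : ↥(Matrix.symplecticGroup (Fin n) F) →* GL (Fin d) K)
    (hker : ρ.ker ≤ Subgroup.center ↥(Matrix.symplecticGroup (Fin n) F)) :
    Fintype.card F ^ (n - 1) * (Fintype.card F - 1) / 2 ≤ d := by
  obtain ⟨ψP⟩ : Nonempty (AddChar.PrimitiveAddChar F K) :=
    ⟨AddChar.FiniteField.primitiveChar F K hK⟩
  exact sp_cross_bound_aux n hn hodd hK ρ hker (CyclotomicField ψP.n K) ψP.char ψP.prim

end SpCrossRep

end Cfsg.Agent.Helper13
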